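import Cfsg.Agent.Lib.Helper10.SharpCard

set_option autoImplicit false

namespace Cfsg.Agent.Lib.Helper10

open MulAction SubMulAction

section
variable {G : Type*} [Group G] {Ω : Type*} [MulAction G Ω]

/-- An element of prime order `p` acting faithfully on `p` points is self-centralising. -/
theorem mem_zpowers_of_commute [Finite Ω] (hfaith : ∀ g : G, (∀ w : Ω, g • w = w) → g = 1)
    {p : ℕ} (hp : p.Prime) (hcard : Nat.card Ω = p) (τ : G) (hτ : orderOf τ = p)
    (g : G) (hg : g * τ = τ * g) : g ∈ Subgroup.zpowers τ := by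
  classical
  have : Fintype Ω := Fintype.ofFinite Ω
  have hcard' : Fintype.card Ω = p := by rw [← Nat.card_eq_fintype_card]; exact hcard
  have hinj : Function.Injective (MulAction.toPermHom G Ω) := by
    rw [injective_iff_map_eq_one]
    intro g hg
    apply hfaith
    intro w
    have := congrArg (fun σ : Equiv.Perm Ω => σ w) hg
    simpa using this
  have ho : orderOf (MulAction.toPermHom G Ω τ) = p := by
    rw [orderOf_injective _ hinj, hτ]
  have hcyc : (MulAction.toPermHom G Ω τ).IsCycle :=
    Equiv.Perm.isCycle_of_prime_order'' (by rw [hcard']; exact hp) (by rw [ho, hcard'])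
  have hsupp : (MulAction.toPermHom G Ω τ).support = Finset.univ := by
    apply Finset.eq_univ_of_card
    rw [← hcyc.orderOf, ho, hcard']
  have hmove : ∀ w : Ω, (MulAction.toPermHom G Ω τ) w ≠ w := by
    intro w
    rw [← Equiv.Perm.mem_support, hsupp]
    exact Finset.mem_univ w
  have hz : ∀ (j : ℤ) (w : Ω), ((MulAction.toPermHom G Ω τ) ^ j) w = (τ ^ j) • w := by
    intro j w
    rw [← map_zpow]
    rfl
  have hne : Nonempty Ω := by
    rw [← Fintype.card_pos_iff, hcard']
    exact hp.pos
  obtain ⟨a⟩ := hne
  obtain ⟨i, hi⟩ := hcyc.exists_zpow_eq (hmove a) (hmove (g • a))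
  rw [hz] at hi
  have hgi : (τ ^ i)⁻¹ * g = 1 := by
    apply hfaith
    intro w
    obtain ⟨j, hj⟩ := hcyc.exists_zpow_eq (hmove a) (hmove w)
    rw [hz] at hj
    have hc : g * τ ^ j = τ ^ j * g := (Commute.zpow_right (show Commute g τ from hg) j).eq
    rw [mul_smul, inv_smul_eq_iff, ← hj, ← mul_smul, hc, mul_smul, ← hi, ← mul_smul, ← mul_smul,
      (Commute.zpow_zpow_self τ j i).eq]
  have : g = τ ^ i := (inv_mul_eq_one.1 hgi).symm
  rw [this]
  exact Subgroup.zpow_mem_zpowers τ i

theorem relIndex_normalizer_dvd [Finite G] [Finite Ω]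
    (hfaith : ∀ g : G, (∀ w : Ω, g • w = w) → g = 1)
    {p : ℕ} [hp : Fact p.Prime] (hcard : Nat.card Ω = p) (P : Subgroup G)
    (hP : Nat.card P = p) :
    P.relIndex (Subgroup.normalizer (P : Set G)) ∣ p - 1 := by
  have hcyc : IsCyclic P := isCyclic_of_prime_card hP
  have key := Subgroup.card_dvd_of_injective _
    (QuotientGroup.kerLift_injective P.normalizerMonoidHom)
  rw [Subgroup.normalizerMonoidHom_ker, ← Subgroup.index, ← Subgroup.relIndex] at key
  have hnt : Nontrivial P := by
    rw [← Finite.one_lt_card_iff_nontrivial, hP]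
    exact hp.out.one_lt
  obtain ⟨τ', hτ'⟩ := exists_ne (1 : P)
  have hoτ' : orderOf τ' = p := by
    apply orderOf_eq_prime _ hτ'
    rw [← hP]
    exact pow_card_eq_one'
  have hoτ : orderOf (τ' : G) = p := by rw [Subgroup.orderOf_coe, hoτ']
  have hz : Subgroup.zpowers (τ' : G) = P := by
    apply Subgroup.eq_of_le_of_card_ge
    · rw [Subgroup.zpowers_le]; exact τ'.2
    · rw [Nat.card_zpowers, hoτ, hP]
  have hcent : Subgroup.centralizer (P : Set G) = P := by
    apply le_antisymm
    · intro x hx
      rw [Subgroup.mem_centralizer_iff] at hx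
      rw [← hz]
      exact mem_zpowers_of_commute hfaith hp.out hcard _ hoτ x (hx _ τ'.2).symm
    · intro x hx
      rw [Subgroup.mem_centralizer_iff]
      intro h hh
      rw [SetLike.mem_coe, ← hz] at hh
      rw [← hz] at hx
      obtain ⟨i, rfl⟩ := Subgroup.mem_zpowers_iff.1 hx
      obtain ⟨j, rfl⟩ := Subgroup.mem_zpowers_iff.1 hh
      exact (Commute.zpow_zpow_self _ j i).eq
  rw [hcent, hcyc.card_mulAut, hP, Nat.totient_prime hp.out] at key
  exact key

/-- A sharply 4-transitive action on 11 points: the group is simple of order 7920. -/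
theorem sharp4_deg11 [Finite Ω] (h4 : IsMultiplyPretransitive G Ω 4)
    (hsharp : ∀ x : Fin 4 ↪ Ω, stabilizer G x = ⊥) (hcard : Nat.card Ω = 11) :
    IsSimpleGroup G ∧ Nat.card G = 7920 := by
  classical
  have : Fintype Ω := Fintype.ofFinite Ω
  have hne : Nonempty (Fin 4 ↪ Ω) := Function.Embedding.nonempty_of_card_le (by
    rw [Fintype.card_fin, ← Nat.card_eq_fintype_card, hcard]; norm_num)
  have hG : Nat.card G = 7920 := by rw [sharp_card h4 hsharp hne, hcard]; rfl
  have hfin : Finite G := Nat.finite_of_card_ne_zero (by rw [hG]; norm_num)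
  have hfaith := sharp_faithful hsharp hne
  have hp11 : Fact (Nat.Prime 11) := ⟨by norm_num⟩
  have hfac : (Nat.card G).factorization 11 = 1 := by
    have h7920 : (7920 : ℕ) = 11 * 720 := by norm_num
    rw [hG, h7920, Nat.factorization_mul (by norm_num) (by norm_num), Finsupp.add_apply,
      Nat.Prime.factorization_self (by norm_num),
      Nat.factorization_eq_zero_of_not_dvd (by norm_num)]
  have hrel : ∀ P : Sylow 11 G,
      (P : Subgroup G).relIndex (Subgroup.normalizer ((P : Subgroup G) : Set G)) = 5 := by
    intro P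
    have hP : Nat.card (P : Subgroup G) = 11 := by
      rw [P.card_eq_multiplicity, hfac, pow_one]
    have h1 := relIndex_normalizer_dvd hfaith hcard (P : Subgroup G) hP
    have h2 := card_sylow_modEq_one 11 G
    rw [P.card_eq_index_normalizer] at h2
    have h3 := Subgroup.relIndex_mul_index (Subgroup.le_normalizer (H := (P : Subgroup G)))
    have h5 : (P : Subgroup G).index = 720 := by
      have := (P : Subgroup G).card_mul_index
      rw [hP, hG] at this
      omega
    rw [h5] at h3
    generalize (P : Subgroup G).relIndex (Subgroup.normalizer ((P : Subgroup G) : Set G)) = m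
      at h1 h3
    generalize (Subgroup.normalizer ((P : Subgroup G) : Set G)).index = j at h2 h3
    have hm : m ≤ 10 := Nat.le_of_dvd (by norm_num) h1
    unfold Nat.ModEq at h2
    interval_cases m <;> omega
  refine ⟨?_, hG⟩
  have hnt : Nontrivial G := by
    rw [← Finite.one_lt_card_iff_nontrivial, hG]; norm_num
  refine ⟨fun N hN => ?_⟩
  by_contra hcon
  push Not at hcon
  obtain ⟨hbot, htop⟩ := hcon
  have h2 : IsMultiplyPretransitive G Ω 2 :=
    isMultiplyPretransitive_of_le (n := 4) (by norm_num) (by rw [hcard]; norm_num)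
  have hprim : IsPreprimitive G Ω := isPreprimitive_of_is_two_pretransitive h2
  have hNtrans : IsPretransitive N Ω := by
    apply IsQuasiPreprimitive.isPretransitive_of_normal
    intro hfix
    apply hbot
    rw [eq_bot_iff]
    intro n hn
    rw [Subgroup.mem_bot]
    apply hfaith
    intro w
    have hw : w ∈ fixedPoints N Ω := by rw [hfix]; trivial
    exact hw ⟨n, hn⟩
  have hΩne : Nonempty Ω := by
    rw [← Fintype.card_pos_iff, ← Nat.card_eq_fintype_card, hcard]; norm_num
  have h11 : 11 ∣ Nat.card N := by
    rw [← hcard]; exact card_dvd_of_pretransitive N Ω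
  obtain ⟨τ, hτ⟩ := exists_prime_orderOf_dvd_card' 11 h11
  let P : Sylow 11 G := Sylow.ofCard (Subgroup.zpowers (τ : G)) (by
    rw [Nat.card_zpowers, Subgroup.orderOf_coe, hτ, hfac, pow_one])
  have hPN : (P : Subgroup G) ≤ N := by
    rw [Sylow.coe_ofCard, Subgroup.zpowers_le]; exact τ.2
  have hfr := Sylow.normalizer_sup_eq_top' P hPN
  have hidx : N.index ∣ 5 := by
    rw [← hrel P, ← Subgroup.relIndex_top_right, ← hfr, Subgroup.relIndex_sup_right]
    exact Subgroup.relIndex_dvd_of_le_left _ hPN
  have hidx5 : N.index = 5 := by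
    rcases (Nat.dvd_prime (by norm_num)).1 hidx with h | h
    · exact absurd (Subgroup.index_eq_one.1 h) htop
    · exact h
  obtain ⟨a⟩ := hΩne
  obtain ⟨s1, s2, s3⟩ := sharp_step h4 hsharp hne a
  have hX : Nat.card (ofStabilizer G a) = 10 := by
    have := nat_card_ofStabilizer_add_one_eq G a
    omega
  have hH : Nat.card (stabilizer G a) = 720 := by rw [sharp_card s1 s2 s3, hX]; rfl
  have hsup : stabilizer G a ⊔ N = ⊤ := by
    rw [eq_top_iff]
    intro g _
    obtain ⟨n, hn⟩ := hNtrans.exists_smul_eq a (g • a)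
    have h1 : (n : G)⁻¹ * g ∈ stabilizer G a := by
      rw [mem_stabilizer_iff, mul_smul, inv_smul_eq_iff]
      exact hn.symm
    have h2 : g = (n : G) * ((n : G)⁻¹ * g) := by rw [mul_inv_cancel_left]
    rw [h2]
    exact Subgroup.mul_mem _ (Subgroup.mem_sup_right n.2) (Subgroup.mem_sup_left h1)
  have hrelN : N.relIndex (stabilizer G a) = 5 := by
    rw [← Subgroup.relIndex_sup_right (H := stabilizer G a) (K := N), hsup,
      Subgroup.relIndex_top_right, hidx5]
  have hN' : Nat.card (N.subgroupOf (stabilizer G a)) = 144 := by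
    have h1 := (N.subgroupOf (stabilizer G a)).card_mul_index
    have h2 : (N.subgroupOf (stabilizer G a)).index = 5 := hrelN
    rw [h2, hH] at h1
    omega
  have h2' : IsMultiplyPretransitive (stabilizer G a) (ofStabilizer G a) 2 :=
    isMultiplyPretransitive_of_le (n := 3) (by norm_num) (by rw [hX]; norm_num)
  have hprim' : IsPreprimitive (stabilizer G a) (ofStabilizer G a) :=
    isPreprimitive_of_is_two_pretransitive h2'
  have hN'trans : IsPretransitive (N.subgroupOf (stabilizer G a)) (ofStabilizer G a) := by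
    apply IsQuasiPreprimitive.isPretransitive_of_normal
    intro hfix
    have hsub : Subsingleton (N.subgroupOf (stabilizer G a)) := by
      refine ⟨fun n n' => ?_⟩
      have key : ∀ m : N.subgroupOf (stabilizer G a), m = 1 := by
        intro m
        apply Subtype.ext
        apply sharp_faithful s2 s3
        intro w
        have hw : w ∈ fixedPoints (N.subgroupOf (stabilizer G a)) (ofStabilizer G a) := by
          rw [hfix]; trivial
        exact hw m
      rw [key n, key n']
    have := Nat.card_eq_one_iff_unique.2 ⟨hsub, ⟨1⟩⟩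
    omega
  have hXne : Nonempty (ofStabilizer G a) := by
    apply (Nat.card_pos_iff.1 (by rw [hX]; norm_num)).1
  have hdvd := card_dvd_of_pretransitive (N.subgroupOf (stabilizer G a)) (ofStabilizer G a)
  rw [hX, hN'] at hdvd
  omega

end

end Cfsg.Agent.Lib.Helper10
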