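import Cfsg.Agent.Lib.Helper10.Data11

set_option autoImplicit false

namespace Cfsg.Agent.Lib.Helper10

open Cfsg Cfsg.Agent.Lib.Helper94

theorem subs11_ok : collect (fun _ => true) 11 1 0 [] = subs11 := by decide +kernel
theorem syms11_ok : allL (symOK 11) syms11 = true := by decide +kernel
theorem perms11_ok : allL (permOKv 11) perms11 = true := by decide +kernel
theorem std11_lt : allL (fun m => Nat.ble (Nat.succ m) 16777216) std11 = true := by decide +kernel
theorem std11_cov : collect (fun T => bNot (covered T std11)) 11 4 0 [] = [] := by decide +kernel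
theorem solve11 : solve 11 4 15 applyM subs11 syms11 (leafOK std11 perms11) ts11 [] = true := by
  decide +kernel

/-- every S(4,5,11) can be numbered so as to become the standard one. -/
theorem labelled11 {α : Type*} [Fintype α] [DecidableEq α] (hα : Fintype.card α = 11)
    {B : Set (Finset α)} (hB : IsSteinerSystem 4 5 B) : Labelled 11 std11 B := by
  obtain ⟨f, hf, hlt⟩ := exists_labelling (v := 11) (by norm_num) hα
  refine labelled_of_goal (t := 4) (k := 5) (J := 15) (st := []) (by norm_num) hα hB ?_
    (solve_goal (by norm_num) subs11_ok syms11_ok perms11_ok std11_lt solve11) hf hlt (by simp)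
  intro b hb c hc hbc
  have := steiner_inter_lt hB hb hc hbc
  interval_cases (b ∩ c).card <;> rfl

theorem cover11 : ∀ s : Finset GolayPt, (∀ p ∈ s, enc p < 11) → s.card = 4 →
    ∃ m ∈ std11, s ⊆ unm m := cover_of_collect std11_cov

end Cfsg.Agent.Lib.Helper10
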