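import Cfsg.Agent.Lib.Helper10.Aut12
import Cfsg.Agent.Lib.Helper10.Sharp11
import Cfsg.Agent.S0351
import Cfsg.Agent.S0411

/-! The automorphism group of an S(4,5,11) is sharply 4-transitive. -/

set_option autoImplicit false
open Cfsg
open scoped Pointwise

namespace Cfsg.Agent.Lib.Helper10

theorem aut_sharp_of_iso {α β : Type*} [DecidableEq α] [DecidableEq β]
    {B : Set (Finset α)} {B' : Set (Finset β)} (e : α ≃ β)
    (h : (fun b : Finset α => b.image e) '' B = B') (n : ℕ)
    (hs : ∀ x : Fin n ↪ α, MulAction.stabilizer (setSystemAut B) x = ⊥) (y : Fin n ↪ β) :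
    MulAction.stabilizer (setSystemAut B') y = ⊥ := by
  rw [eq_bot_iff]
  intro g hg
  rw [Subgroup.mem_bot]
  have hg' : g • y = y := hg
  have h1 : (autCongr e h).symm g ∈
      MulAction.stabilizer (setSystemAut B) (y.trans e.symm.toEmbedding) := by
    rw [MulAction.mem_stabilizer_iff]
    apply DFunLike.ext
    intro i
    have h2 := autCongr_smul e h ((autCongr e h).symm g) (e.symm (y i))
    rw [MulEquiv.apply_symm_apply, Equiv.apply_symm_apply] at h2
    have h3 : g • y i = y i := congrArg (fun z : Fin n ↪ β => z i) hg'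
    rw [h3] at h2
    change (autCongr e h).symm g • e.symm (y i) = e.symm (y i)
    apply e.injective
    rw [← h2, Equiv.apply_symm_apply]
  rw [hs, Subgroup.mem_bot] at h1
  simpa using h1

theorem smul_compl' {α : Type*} [Fintype α] [DecidableEq α] (g : Equiv.Perm α) (b : Finset α) :
    g • bᶜ = (g • b)ᶜ := by
  ext x
  simp only [Finset.mem_smul_finset, Finset.mem_compl, Equiv.Perm.smul_def]
  constructor
  · rintro ⟨y, hy, rfl⟩ ⟨z, hz, hzy⟩
    exact hy (g.injective hzy ▸ hz)
  · intro h
    exact ⟨g.symm x, fun hx => h ⟨_, hx, by simp⟩, by simp⟩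

theorem ext12 {α : Type*} [Fintype α] [DecidableEq α] (hα : Fintype.card α = 12)
    {B : Set (Finset α)} (hB : IsSteinerSystem 5 6 B) (p : α) :
    ∀ g : Equiv.Perm α, g p = p → (∀ b ∈ B, p ∈ b → g • b ∈ B) → g ∈ setSystemAut B := by
  intro g _ h1
  apply mem_aut_of_forall
  intro b hb
  by_cases hpb : p ∈ b
  · exact h1 b hb hpb
  · have h2 := h1 bᶜ (Cfsg.Agent.S0357.result hα hB hb) (Finset.mem_compl.2 hpb)
    have h3 := Cfsg.Agent.S0357.result hα hB h2
    rwa [smul_compl', compl_compl] at h3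

theorem derived12_sharp {α : Type*} [Fintype α] [DecidableEq α] (hα : Fintype.card α = 12)
    {B : Set (Finset α)} (hB : IsSteinerSystem 5 6 B) (p : α) (x : Fin 4 ↪ {a : α // a ≠ p}) :
    MulAction.stabilizer (setSystemAut (derived B p)) x = ⊥ := by
  rw [eq_bot_iff]
  intro g hg
  rw [Subgroup.mem_bot]
  apply Subtype.ext
  have hg' : g • x = x := hg
  have hfix : (Equiv.Perm.ofSubtype (g : Equiv.Perm {a : α // a ≠ p})) p = p :=
    Equiv.Perm.ofSubtype_apply_of_not_mem _ (by simp)
  have hmem := ext12 hα hB p _ hfix (fun b hb hpb => ofSubtype_smul_mem g.2 hb hpb)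
  have hp : p ∉ Finset.univ.map (x.trans (Function.Embedding.subtype _)) := by
    intro h
    obtain ⟨i, _, hi⟩ := Finset.mem_map.1 h
    exact (x i).2 hi
  have h1 := rigid12 hα hB hmem
    (s := insert p (Finset.univ.map (x.trans (Function.Embedding.subtype _))))
    (by rw [Finset.card_insert_of_notMem hp]; simp) (by
      intro a ha
      rcases Finset.mem_insert.1 ha with rfl | ha
      · exact hfix
      · obtain ⟨i, _, rfl⟩ := Finset.mem_map.1 ha
        change (Equiv.Perm.ofSubtype (g : Equiv.Perm {a : α // a ≠ p})) (x i : α) = (x i : α)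
        rw [Equiv.Perm.ofSubtype_apply_coe]
        exact congrArg (fun z : Fin 4 ↪ {a : α // a ≠ p} => (z i : α)) hg')
  apply Equiv.Perm.ofSubtype_injective
  rw [h1]
  exact (map_one _).symm

theorem aut11_main {α : Type*} [Fintype α] [DecidableEq α] (hα : Fintype.card α = 11)
    {B : Set (Finset α)} (hB : IsSteinerSystem 4 5 B) :
    MulAction.IsMultiplyPretransitive (setSystemAut B) α 4 ∧
      ∀ x : Fin 4 ↪ α, MulAction.stabilizer (setSystemAut B) x = ⊥ := by
  obtain ⟨d, hd⟩ := exists_dodecad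
  have hcard : Fintype.card {p : GolayPt // p ∈ d} = 12 := by
    rw [Fintype.card_coe]; exact hd.2
  have hH : IsSteinerSystem 5 6 (hexSys d) := Cfsg.Agent.S0385.result d hd
  obtain ⟨p⟩ : Nonempty {p : GolayPt // p ∈ d} := Fintype.card_pos_iff.1 (by omega)
  have hD : IsSteinerSystem 4 5 (derived (hexSys d) p) :=
    Cfsg.Agent.S0351.result (t := 4) (k := 5) hH p
  have hcard' : Fintype.card {a : {p : GolayPt // p ∈ d} // a ≠ p} = 11 := by
    rw [Fintype.card_subtype_compl, hcard]
    simp
  obtain ⟨e, he⟩ := Cfsg.Agent.S0411.result hcard' hα hD hB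
  exact ⟨aut_pretransitive_of_iso e he 4 (derived_pretransitive _ p 4 (by rw [hcard]; norm_num)
    (hexSys_five_trans hd)), aut_sharp_of_iso e he 4 (derived12_sharp hcard hH p)⟩

end Cfsg.Agent.Lib.Helper10
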