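import Cfsg.Agent.Lib.Helper10.Sharp11

set_option autoImplicit false

namespace Cfsg.Agent.Lib.Helper10

open MulAction SubMulAction

section
variable {G : Type*} [Group G] {Ω : Type*} [MulAction G Ω]

/-- A sharply 5-transitive action on 12 points: the group is simple of order 95040. -/
theorem sharp5_deg12 [Finite Ω] (h5 : IsMultiplyPretransitive G Ω 5)
    (hsharp : ∀ x : Fin 5 ↪ Ω, stabilizer G x = ⊥) (hcard : Nat.card Ω = 12) :
    IsSimpleGroup G ∧ Nat.card G = 95040 := by
  classical
  have : Fintype Ω := Fintype.ofFinite Ω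
  have hne : Nonempty (Fin 5 ↪ Ω) := Function.Embedding.nonempty_of_card_le (by
    rw [Fintype.card_fin, ← Nat.card_eq_fintype_card, hcard]; norm_num)
  have hG : Nat.card G = 95040 := by rw [sharp_card h5 hsharp hne, hcard]; rfl
  have hfin : Finite G := Nat.finite_of_card_ne_zero (by rw [hG]; norm_num)
  have hfaith := sharp_faithful hsharp hne
  refine ⟨?_, hG⟩
  have hnt : Nontrivial G := by
    rw [← Finite.one_lt_card_iff_nontrivial, hG]; norm_num
  refine ⟨fun N hN => ?_⟩
  by_contra hcon
  push Not at hcon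
  obtain ⟨hbot, htop⟩ := hcon
  have h2 : IsMultiplyPretransitive G Ω 2 :=
    isMultiplyPretransitive_of_le (n := 5) (by norm_num) (by rw [hcard]; norm_num)
  have hprim : IsPreprimitive G Ω := isPreprimitive_of_is_two_pretransitive h2
  have hNtrans : IsPretransitive N Ω := by
    apply IsQuasiPreprimitive.isPretransitive_of_normal
    intro hfix
    apply hbot
    rw [eq_bot_iff]
    intro n hn
    rw [Subgroup.mem_bot]
    apply hfaith
    intro w
    have hw : w ∈ fixedPoints N Ω := by rw [hfix]; trivial
    exact hw ⟨n, hn⟩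
  have hΩne : Nonempty Ω := by
    rw [← Fintype.card_pos_iff, ← Nat.card_eq_fintype_card, hcard]; norm_num
  obtain ⟨a⟩ := hΩne
  obtain ⟨s1, s2, s3⟩ := sharp_step h5 hsharp hne a
  have hX : Nat.card (ofStabilizer G a) = 11 := by
    have := nat_card_ofStabilizer_add_one_eq G a
    omega
  obtain ⟨hHsimple, hH⟩ := sharp4_deg11 s1 s2 hX
  have hsup : stabilizer G a ⊔ N = ⊤ := by
    rw [eq_top_iff]
    intro g _
    obtain ⟨n, hn⟩ := hNtrans.exists_smul_eq a (g • a)
    have h1 : (n : G)⁻¹ * g ∈ stabilizer G a := by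
      rw [mem_stabilizer_iff, mul_smul, inv_smul_eq_iff]
      exact hn.symm
    have h2 : g = (n : G) * ((n : G)⁻¹ * g) := by rw [mul_inv_cancel_left]
    rw [h2]
    exact Subgroup.mul_mem _ (Subgroup.mem_sup_right n.2) (Subgroup.mem_sup_left h1)
  have hrelN : N.relIndex (stabilizer G a) = N.index := by
    rw [← Subgroup.relIndex_sup_right (H := stabilizer G a) (K := N), hsup,
      Subgroup.relIndex_top_right]
  rcases hHsimple.eq_bot_or_eq_top_of_normal (N.subgroupOf (stabilizer G a)) inferInstance
    with hN' | hN'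
  · -- regular normal subgroup of order 12
    have hinter : ∀ g : G, g ∈ N → g • a = a → g = 1 := by
      intro g hg hga
      have h1 : (⟨g, hga⟩ : stabilizer G a) ∈ N.subgroupOf (stabilizer G a) :=
        Subgroup.mem_subgroupOf.2 hg
      rw [hN', Subgroup.mem_bot] at h1
      exact congrArg Subtype.val h1
    have hNcard : Nat.card N = 12 := by
      have h1 := (N.subgroupOf (stabilizer G a)).card_mul_index
      have h2 : (N.subgroupOf (stabilizer G a)).index = N.index := hrelN
      rw [h2, hH, hN', Subgroup.card_bot, one_mul] at h1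
      have h3 := N.card_mul_index
      rw [h1, hG] at h3
      omega
    have hp2 : Fact (Nat.Prime 2) := ⟨by norm_num⟩
    have hp3 : Fact (Nat.Prime 3) := ⟨by norm_num⟩
    obtain ⟨t2, ht2⟩ := exists_prime_orderOf_dvd_card' (G := N) 2 (by rw [hNcard]; norm_num)
    obtain ⟨t3, ht3⟩ := exists_prime_orderOf_dvd_card' (G := N) 3 (by rw [hNcard]; norm_num)
    have ht2' : orderOf (t2 : G) = 2 := by rw [Subgroup.orderOf_coe, ht2]
    have ht3' : orderOf (t3 : G) = 3 := by rw [Subgroup.orderOf_coe, ht3]
    have hm2 : (t2 : G) • a ≠ a := by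
      intro h
      have := hinter _ t2.2 h
      rw [this, orderOf_one] at ht2'
      omega
    have hm3 : (t3 : G) • a ≠ a := by
      intro h
      have := hinter _ t3.2 h
      rw [this, orderOf_one] at ht3'
      omega
    have hpre : IsPretransitive (stabilizer G a) (ofStabilizer G a) :=
      pretransitive_of_multiply (k := 3) s1 s3
    obtain ⟨h, hh⟩ := hpre.exists_smul_eq (⟨(t2 : G) • a, hm2⟩ : ofStabilizer G a)
      ⟨(t3 : G) • a, hm3⟩
    have hh' : (h : G) • ((t2 : G) • a) = (t3 : G) • a := congrArg Subtype.val hh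
    have hha : (h : G)⁻¹ • a = a := by
      rw [inv_smul_eq_iff]
      exact h.2.symm
    have hconj : (t3 : G)⁻¹ * ((h : G) * (t2 : G) * (h : G)⁻¹) = 1 := by
      apply hinter
      · exact N.mul_mem (N.inv_mem t3.2) (hN.conj_mem _ t2.2 _)
      · rw [mul_smul, mul_smul, mul_smul, hha, hh', inv_smul_smul]
    have heq : (t3 : G) = (h : G) * (t2 : G) * (h : G)⁻¹ := inv_mul_eq_one.1 hconj
    have : orderOf (t3 : G) = orderOf (t2 : G) := by
      have hs : SemiconjBy (h : G) (t2 : G) (t3 : G) := by
        unfold SemiconjBy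
        rw [heq, inv_mul_cancel_right]
      exact (hs.orderOf_eq _).symm
    omega
  · apply htop
    have h1 : stabilizer G a ≤ N := Subgroup.subgroupOf_eq_top.1 hN'
    rw [← hsup]
    exact (sup_eq_right.2 h1).symm

end

end Cfsg.Agent.Lib.Helper10
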