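import Cfsg.Agent.Lib.Helper10.Data12

set_option autoImplicit false

namespace Cfsg.Agent.Lib.Helper10

open Cfsg Cfsg.Agent.Lib.Helper94

theorem subs12_ok : collect (fun _ => true) 12 1 0 [] = subs12 := by decide +kernel
theorem syms12_ok : allL (symOK 12) syms12 = true := by decide +kernel
theorem perms12_ok : allL (permOKv 12) perms12 = true := by decide +kernel
theorem std12_lt : allL (fun m => Nat.ble (Nat.succ m) 16777216) std12 = true := by decide +kernel
theorem std12_cov : collect (fun T => bNot (covered T std12)) 12 5 0 [] = [] := by decide +kernel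
theorem solve12 : solve 12 5 31 applyM subs12 syms12 (leafOK std12 perms12) ts12 [] = true := by
  decide +kernel

/-- every S(5,6,12) can be numbered so as to become the standard one. -/
theorem labelled12 {α : Type*} [Fintype α] [DecidableEq α] (hα : Fintype.card α = 12)
    {B : Set (Finset α)} (hB : IsSteinerSystem 5 6 B) : Labelled 12 std12 B := by
  obtain ⟨f, hf, hlt⟩ := exists_labelling (v := 12) (by norm_num) hα
  refine labelled_of_goal (t := 5) (k := 6) (J := 31) (st := []) (by norm_num) hα hB ?_
    (solve_goal (by norm_num) subs12_ok syms12_ok perms12_ok std12_lt solve12) hf hlt (by simp)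
  intro b hb c hc hbc
  have := steiner_inter_lt hB hb hc hbc
  interval_cases (b ∩ c).card <;> rfl

theorem cover12 : ∀ s : Finset GolayPt, (∀ p ∈ s, enc p < 12) → s.card = 5 →
    ∃ m ∈ std12, s ⊆ unm m := cover_of_collect std12_cov

end Cfsg.Agent.Lib.Helper10
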