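import Cfsg.Agent.Lib.Helper10.Rigid12
import Cfsg.Agent.Lib.Helper10.Sharp12
import Cfsg.Agent.Lib.Helper9.GolayFacts
import Cfsg.Agent.Lib.Helper33.Perm
import Cfsg.Agent.S0384
import Cfsg.Agent.S0385
import Cfsg.Agent.S0408

/-! The automorphism group of an S(5,6,12) is sharply 5-transitive. -/

set_option autoImplicit false
open Cfsg
open scoped Pointwise

namespace Cfsg.Agent.Lib.Helper10

/-- the hexad system on a dodecad, in the shape of S0385. -/
def hexSys (d : Finset GolayPt) : Set (Finset {p : GolayPt // p ∈ d}) :=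
  {h | ∃ o ∈ octads, (o ∩ d).card = 6 ∧ h = Finset.subtype (fun p => p ∈ d) o}

theorem stab_iff {g : Equiv.Perm GolayPt} {d : Finset GolayPt} (hg : g • d = d) (x : GolayPt) :
    g x ∈ d ↔ x ∈ d := by
  constructor
  · intro h
    rw [← hg, Finset.mem_smul_finset] at h
    obtain ⟨y, hy, hyx⟩ := h
    rw [← g.injective hyx]
    exact hy
  · intro h
    exact apply_mem_of_smul_eq hg h

theorem res_mem_aut {g : Equiv.Perm GolayPt} (hgM : g ∈ M24) {d : Finset GolayPt}
    (hg : g • d = d) :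
    g.subtypePerm (p := fun p => p ∈ d) (stab_iff hg) ∈ setSystemAut (hexSys d) := by
  apply mem_aut_of_forall
  rintro _ ⟨o, ho, ho6, rfl⟩
  refine ⟨g • o, Cfsg.Agent.Lib.Helper33.smul_mem_octads hgM ho, ?_, ?_⟩
  · have : g • o ∩ d = g • (o ∩ d) := by
      rw [Finset.smul_finset_inter, hg]
    rw [this, Finset.card_smul_finset, ho6]
  · ext x
    simp only [Finset.mem_smul_finset, Finset.mem_subtype, Equiv.Perm.smul_def]
    constructor
    · rintro ⟨y, hy, rfl⟩
      exact ⟨y, hy, rfl⟩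
    · rintro ⟨y, hy, hyx⟩
      have hyd : y ∈ d := (stab_iff hg y).1 (hyx ▸ x.2)
      exact ⟨⟨y, hyd⟩, hy, Subtype.ext hyx⟩

theorem hexSys_five_trans {d : Finset GolayPt} (hd : d ∈ dodecads) :
    MulAction.IsMultiplyPretransitive (setSystemAut (hexSys d)) {p : GolayPt // p ∈ d} 5 := by
  rw [MulAction.isMultiplyPretransitive_iff]
  intro x y
  obtain ⟨g, hg, _⟩ := Cfsg.Agent.S0384.result d hd
    (x.trans (Function.Embedding.subtype _)) (y.trans (Function.Embedding.subtype _))
    (fun i => (x i).2) (fun i => (y i).2)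
  have hgd : ((g : M24) : Equiv.Perm GolayPt) • d = d := g.2
  refine ⟨⟨_, res_mem_aut (g : M24).2 hgd⟩, ?_⟩
  apply DFunLike.ext
  intro i
  apply Subtype.ext
  exact hg i

theorem exists_dodecad : ∃ d, d ∈ dodecads := by
  have h := Cfsg.Agent.Lib.Helper9.ncard_dodecads
  have hne : dodecads.ncard ≠ 0 := by rw [h]; norm_num
  exact Set.nonempty_of_ncard_ne_zero hne

theorem aut12_five_trans {α : Type*} [Fintype α] [DecidableEq α] (hα : Fintype.card α = 12)
    {B : Set (Finset α)} (hB : IsSteinerSystem 5 6 B) :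
    MulAction.IsMultiplyPretransitive (setSystemAut B) α 5 := by
  obtain ⟨d, hd⟩ := exists_dodecad
  have hcard : Fintype.card {p : GolayPt // p ∈ d} = 12 := by
    rw [Fintype.card_coe]; exact hd.2
  obtain ⟨e, he⟩ := Cfsg.Agent.S0408.result hcard hα (Cfsg.Agent.S0385.result d hd) hB
  exact aut_pretransitive_of_iso e he 5 (hexSys_five_trans hd)

theorem aut12_sharp {α : Type*} [Fintype α] [DecidableEq α] (hα : Fintype.card α = 12)
    {B : Set (Finset α)} (hB : IsSteinerSystem 5 6 B) (x : Fin 5 ↪ α) :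
    MulAction.stabilizer (setSystemAut B) x = ⊥ := by
  rw [eq_bot_iff]
  intro g hg
  rw [Subgroup.mem_bot]
  apply Subtype.ext
  have hg' : g • x = x := hg
  apply rigid12 hα hB g.2 (s := Finset.univ.map x) (by simp)
  intro a ha
  obtain ⟨i, _, rfl⟩ := Finset.mem_map.1 ha
  exact congrArg (fun z : Fin 5 ↪ α => z i) hg'

end Cfsg.Agent.Lib.Helper10
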