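import Cfsg.Agent.Lib.Helper10.Steiner

set_option autoImplicit false

namespace Cfsg.Agent.Lib.Helper10

open Finset Cfsg

section S22
variable {α : Type*} [DecidableEq α] [Fintype α] {B : Set (Finset α)}

theorem lam22_0 (hα : Fintype.card α = 22) (hB : IsSteinerSystem 3 6 B) :
    (blocksThrough B ∅).card = 77 := by
  have h := steiner_count hB ∅ (by simp)
  rw [hα] at h
  simp only [card_empty, Nat.sub_zero] at h
  have e1 : Nat.choose 6 3 = 20 := by decide
  have e2 : Nat.choose 22 3 = 1540 := by decide
  rw [e1, e2] at h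
  omega

theorem lam22_1 (hα : Fintype.card α = 22) (hB : IsSteinerSystem 3 6 B) {S : Finset α}
    (hS : S.card = 1) : (blocksThrough B S).card = 21 := by
  have h := steiner_count hB S (by omega)
  rw [hα, hS] at h
  have e1 : Nat.choose (6 - 1) (3 - 1) = 10 := by decide
  have e2 : Nat.choose (22 - 1) (3 - 1) = 210 := by decide
  rw [e1, e2] at h
  omega

theorem lam22_2 (hα : Fintype.card α = 22) (hB : IsSteinerSystem 3 6 B) {S : Finset α}
    (hS : S.card = 2) : (blocksThrough B S).card = 5 := by
  have h := steiner_count hB S (by omega)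
  rw [hα, hS] at h
  have e1 : Nat.choose (6 - 2) (3 - 2) = 4 := by decide
  have e2 : Nat.choose (22 - 2) (3 - 2) = 20 := by decide
  rw [e1, e2] at h
  omega

theorem lam22_3 (hα : Fintype.card α = 22) (hB : IsSteinerSystem 3 6 B) {S : Finset α}
    (hS : S.card = 3) : (blocksThrough B S).card = 1 := by
  have h := steiner_count hB S (by omega)
  rw [hα, hS] at h
  simpa using h

theorem mom22_1 (hα : Fintype.card α = 22) (hB : IsSteinerSystem 3 6 B) (X : Finset α) :
    ∑ d ∈ blocksThrough B ∅, (((d ∩ X).card : ℕ) : ℤ) = (X.card : ℤ) * 21 := by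
  have h := steiner_moment B ∅ X 1 21 (fun I hI => by
    rw [empty_union]; exact lam22_1 hα hB (mem_powersetCard.1 hI).2)
  simp only [Nat.choose_one_right] at h
  exact_mod_cast h

theorem mom22_2 (hα : Fintype.card α = 22) (hB : IsSteinerSystem 3 6 B) (X : Finset α) :
    ∑ d ∈ blocksThrough B ∅, ((((d ∩ X).card).choose 2 : ℕ) : ℤ)
      = ((X.card).choose 2 : ℤ) * 5 := by
  have h := steiner_moment B ∅ X 2 5 (fun I hI => by
    rw [empty_union]; exact lam22_2 hα hB (mem_powersetCard.1 hI).2)
  exact_mod_cast h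

theorem mom22_3 (hα : Fintype.card α = 22) (hB : IsSteinerSystem 3 6 B) (X : Finset α) :
    ∑ d ∈ blocksThrough B ∅, ((((d ∩ X).card).choose 3 : ℕ) : ℤ)
      = ((X.card).choose 3 : ℤ) := by
  have h := steiner_moment B ∅ X 3 1 (fun I hI => by
    rw [empty_union]; exact lam22_3 hα hB (mem_powersetCard.1 hI).2)
  rw [mul_one] at h
  exact_mod_cast h

theorem inter22 (hα : Fintype.card α = 22) (hB : IsSteinerSystem 3 6 B) {b c : Finset α}
    (hb : b ∈ B) (hc : c ∈ B) (hbc : c ≠ b) : (c ∩ b).card = 0 ∨ (c ∩ b).card = 2 := by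
  have hb6 : b.card = 6 := hB.1 b hb
  have m1 := mom22_1 hα hB b
  have m2 := mom22_2 hα hB b
  rw [hb6] at m1 m2
  have e1 : ((Nat.choose 6 2 : ℕ) : ℤ) = 15 := by decide
  rw [e1] at m2
  have key := vanish_of_sum (blocksThrough B ∅) b (mem_blocksThrough_empty.2 hb)
    (fun d => (((d ∩ b).card : ℕ) : ℤ) - 2 * ((((d ∩ b).card).choose 2 : ℕ) : ℤ))
    (by
      rw [sum_sub_distrib, ← mul_sum, m1, m2, inter_self, hb6, e1]
      norm_num)
    (by
      intro d hd hdb
      have h3 := steiner_inter_lt hB (mem_blocksThrough_empty.1 hd) hb hdb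
      generalize (d ∩ b).card = j at h3
      interval_cases j <;> simp [Nat.choose])
    c (mem_blocksThrough_empty.2 hc) hbc
  have h3 := steiner_inter_lt hB hc hb hbc
  generalize (c ∩ b).card = j at h3 key
  interval_cases j
  · left; rfl
  · simp [Nat.choose] at key
  · right; rfl

theorem disj22_card (hα : Fintype.card α = 22) (hB : IsSteinerSystem 3 6 B) {b : Finset α}
    (hb : b ∈ B) : ((blocksThrough B ∅).filter (fun d => Disjoint b d)).card = 16 := by
  have hb6 : b.card = 6 := hB.1 b hb
  have m0 := lam22_0 hα hB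
  have m1 := mom22_1 hα hB b
  have m2 := mom22_2 hα hB b
  rw [hb6] at m1 m2
  have e1 : ((Nat.choose 6 2 : ℕ) : ℤ) = 15 := by decide
  rw [e1] at m2
  have key := card_filter_eq_sum (blocksThrough B ∅) (fun d => Disjoint b d)
    (fun d => 1 - (((d ∩ b).card : ℕ) : ℤ) + ((((d ∩ b).card).choose 2 : ℕ) : ℤ)
      - (if d = b then 10 else 0))
    (by
      intro d hd
      by_cases hdb : d = b
      · subst hdb
        have : ¬ Disjoint d d := by
          rw [disjoint_self]
          intro h
          rw [bot_eq_empty] at h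
          rw [h] at hb6; simp at hb6
        simp only [this, if_false, if_true, inter_self, hb6, e1]
        norm_num
      · have h2 := inter22 hα hB hb (mem_blocksThrough_empty.1 hd) hdb
        simp only [hdb, if_false, disjoint_iff_card_inter b d]
        rcases h2 with h2 | h2 <;> rw [h2] <;> simp [Nat.choose])
  rw [sum_sub_distrib, sum_add_distrib, sum_sub_distrib, m1, m2, sum_const, m0,
    sum_ite_eq' (blocksThrough B ∅) b (fun _ => (10 : ℤ)),
    if_pos (mem_blocksThrough_empty.2 hb)] at key
  norm_num at key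
  exact_mod_cast key

theorem card_inter_union_aux (b c d : Finset α) :
    (d ∩ (b ∪ c)).card + ((d ∩ b) ∩ (d ∩ c)).card = (d ∩ b).card + (d ∩ c).card := by
  rw [inter_union_distrib_left]
  exact card_union_add_card_inter _ _

theorem disj22_pair_disjoint (hα : Fintype.card α = 22) (hB : IsSteinerSystem 3 6 B)
    {b c : Finset α} (hb : b ∈ B) (hc : c ∈ B) (hbc : Disjoint b c) :
    ((blocksThrough B ∅).filter (fun d => Disjoint b d ∧ Disjoint c d)).card = 0 := by
  have hb6 : b.card = 6 := hB.1 b hb
  have hc6 : c.card = 6 := hB.1 c hc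
  have hne : b ≠ c := by
    rintro rfl
    rw [disjoint_self, bot_eq_empty] at hbc
    rw [hbc] at hb6; simp at hb6
  have hX : (b ∪ c).card = 12 := by rw [card_union_of_disjoint hbc, hb6, hc6]
  have hcb0 : (c ∩ b).card = 0 := (disjoint_iff_card_inter b c).1 hbc
  have hbc0 : (b ∩ c).card = 0 := by rw [inter_comm]; exact hcb0
  have m0 := lam22_0 hα hB
  have m1 := mom22_1 hα hB (b ∪ c)
  have m2 := mom22_2 hα hB (b ∪ c)
  rw [hX] at m1 m2
  have e1 : ((Nat.choose 12 2 : ℕ) : ℤ) = 66 := by decide
  rw [e1] at m2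
  have key := mul_card_filter_eq_sum (blocksThrough B ∅)
    (fun d => Disjoint b d ∧ Disjoint c d)
    (fun d => 8 - 5 * (((d ∩ (b ∪ c)).card : ℕ) : ℤ)
      + 2 * ((((d ∩ (b ∪ c)).card).choose 2 : ℕ) : ℤ)
      - (if d = b then 8 else 0) - (if d = c then 8 else 0)) 8
    (by
      intro d hd
      have haux := card_inter_union_aux b c d
      have hle : ((d ∩ b) ∩ (d ∩ c)).card ≤ (b ∩ c).card :=
        card_le_card (inter_subset_inter inter_subset_right inter_subset_right)
      simp only [disjoint_iff_card_inter b d, disjoint_iff_card_inter c d]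
      by_cases hdb : d = b
      · subst hdb
        have hj : (d ∩ (d ∪ c)).card = 6 := by
          rw [inter_eq_left.2 subset_union_left, hb6]
        simp only [hj, inter_self, hb6, if_true, hne, if_false]
        simp [Nat.choose]
      by_cases hdc : d = c
      · subst hdc
        have hj : (d ∩ (b ∪ d)).card = 6 := by
          rw [inter_eq_left.2 subset_union_right, hc6]
        simp only [hj, inter_self, hc6, if_true, hne.symm, if_false]
        simp [Nat.choose]
      have h2 := inter22 hα hB hb (mem_blocksThrough_empty.1 hd) hdb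
      have h3 := inter22 hα hB hc (mem_blocksThrough_empty.1 hd) hdc
      simp only [hdb, hdc, if_false]
      rcases h2 with h2 | h2 <;> rcases h3 with h3 | h3 <;> rw [h2, h3] at haux ⊢
      · have hj : (d ∩ (b ∪ c)).card = 0 := by omega
        rw [hj]; simp [Nat.choose]
      · have hj : (d ∩ (b ∪ c)).card = 2 := by omega
        rw [hj]; simp [Nat.choose]
      · have hj : (d ∩ (b ∪ c)).card = 2 := by omega
        rw [hj]; simp [Nat.choose]
      · have hj : (d ∩ (b ∪ c)).card = 4 := by omega
        rw [hj]; simp [Nat.choose])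
  rw [sum_sub_distrib, sum_sub_distrib, sum_add_distrib, sum_sub_distrib, ← mul_sum, ← mul_sum,
    m1, m2, sum_const, m0,
    sum_ite_eq' (blocksThrough B ∅) b (fun _ => (8 : ℤ)),
    sum_ite_eq' (blocksThrough B ∅) c (fun _ => (8 : ℤ)),
    if_pos (mem_blocksThrough_empty.2 hb), if_pos (mem_blocksThrough_empty.2 hc)] at key
  have key2 : (8 : ℤ) * (((blocksThrough B ∅).filter
      (fun d => Disjoint b d ∧ Disjoint c d)).card : ℤ) = 0 := by
    rw [key]; norm_num
  omega

theorem disj22_pair_meet (hα : Fintype.card α = 22) (hB : IsSteinerSystem 3 6 B)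
    {b c : Finset α} (hb : b ∈ B) (hc : c ∈ B) (hne : b ≠ c) (hbc : ¬ Disjoint b c) :
    ((blocksThrough B ∅).filter (fun d => Disjoint b d ∧ Disjoint c d)).card = 4 := by
  have hb6 : b.card = 6 := hB.1 b hb
  have hc6 : c.card = 6 := hB.1 c hc
  have hcb2 : (c ∩ b).card = 2 := by
    rcases inter22 hα hB hb hc hne.symm with h | h
    · exact absurd ((disjoint_iff_card_inter b c).2 h) hbc
    · exact h
  have hbc2 : (b ∩ c).card = 2 := by rw [inter_comm]; exact hcb2
  have hX : (b ∪ c).card = 10 := by
    have := card_union_add_card_inter b c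
    omega
  have m0 := lam22_0 hα hB
  have m1 := mom22_1 hα hB (b ∪ c)
  have m2 := mom22_2 hα hB (b ∪ c)
  have m3 := mom22_3 hα hB (b ∪ c)
  rw [hX] at m1 m2 m3
  have e1 : ((Nat.choose 10 2 : ℕ) : ℤ) = 45 := by decide
  have e2 : ((Nat.choose 10 3 : ℕ) : ℤ) = 120 := by decide
  rw [e1] at m2
  rw [e2] at m3
  have key := mul_card_filter_eq_sum (blocksThrough B ∅)
    (fun d => Disjoint b d ∧ Disjoint c d)
    (fun d => 4 - 3 * (((d ∩ (b ∪ c)).card : ℕ) : ℤ)
      + 2 * ((((d ∩ (b ∪ c)).card).choose 2 : ℕ) : ℤ)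
      - ((((d ∩ (b ∪ c)).card).choose 3 : ℕ) : ℤ)
      + (if d = b then 4 else 0) + (if d = c then 4 else 0)) 4
    (by
      intro d hd
      have haux := card_inter_union_aux b c d
      have hle1 : ((d ∩ b) ∩ (d ∩ c)).card ≤ (d ∩ b).card := card_le_card inter_subset_left
      have hle2 : ((d ∩ b) ∩ (d ∩ c)).card ≤ (d ∩ c).card := card_le_card inter_subset_right
      simp only [disjoint_iff_card_inter b d, disjoint_iff_card_inter c d]
      by_cases hdb : d = b
      · subst hdb
        have hj : (d ∩ (d ∪ c)).card = 6 := by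
          rw [inter_eq_left.2 subset_union_left, hb6]
        simp only [hj, inter_self, hb6, if_true, hne, if_false]
        simp [Nat.choose]
      by_cases hdc : d = c
      · subst hdc
        have hj : (d ∩ (b ∪ d)).card = 6 := by
          rw [inter_eq_left.2 subset_union_right, hc6]
        simp only [hj, inter_self, hc6, if_true, hne.symm, if_false]
        simp [Nat.choose]
      have h2 := inter22 hα hB hb (mem_blocksThrough_empty.1 hd) hdb
      have h3 := inter22 hα hB hc (mem_blocksThrough_empty.1 hd) hdc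
      simp only [hdb, hdc, if_false]
      rcases h2 with h2 | h2 <;> rcases h3 with h3 | h3 <;> rw [h2, h3] at haux <;>
        rw [h2] at hle1 ⊢ <;> rw [h3] at hle2 ⊢
      · have hj : (d ∩ (b ∪ c)).card = 0 := by omega
        rw [hj]; simp [Nat.choose]
      · have hj : (d ∩ (b ∪ c)).card = 2 := by omega
        rw [hj]; simp [Nat.choose]
      · have hj : (d ∩ (b ∪ c)).card = 2 := by omega
        rw [hj]; simp [Nat.choose]
      · have hj : (d ∩ (b ∪ c)).card = 2 ∨ (d ∩ (b ∪ c)).card = 3 ∨ (d ∩ (b ∪ c)).card = 4 := by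
          omega
        rcases hj with hj | hj | hj <;> rw [hj] <;> simp [Nat.choose])
  rw [sum_add_distrib, sum_add_distrib, sum_sub_distrib, sum_add_distrib, sum_sub_distrib,
    ← mul_sum, ← mul_sum, m1, m2, m3, sum_const, m0,
    sum_ite_eq' (blocksThrough B ∅) b (fun _ => (4 : ℤ)),
    sum_ite_eq' (blocksThrough B ∅) c (fun _ => (4 : ℤ)),
    if_pos (mem_blocksThrough_empty.2 hb), if_pos (mem_blocksThrough_empty.2 hc)] at key
  have key2 : (4 : ℤ) * (((blocksThrough B ∅).filter
      (fun d => Disjoint b d ∧ Disjoint c d)).card : ℤ) = 16 := by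
    rw [key]; norm_num
  omega

theorem disj22_point (hα : Fintype.card α = 22) (hB : IsSteinerSystem 3 6 B)
    {b : Finset α} (hb : b ∈ B) {p : α} (hp : p ∉ b) :
    ((blocksThrough B {p}).filter (fun d => Disjoint b d)).card = 6 := by
  have hb6 : b.card = 6 := hB.1 b hb
  have m0 : (blocksThrough B {p}).card = 21 := lam22_1 hα hB (card_singleton p)
  have m2 := steiner_moment B {p} b 2 1 (fun I hI => by
    rw [mem_powersetCard] at hI
    apply lam22_3 hα hB
    rw [card_union_of_disjoint, card_singleton, hI.2]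
    rw [disjoint_singleton_left]
    exact fun h => hp (hI.1 h))
  rw [hb6] at m2
  have e1 : Nat.choose 6 2 * 1 = 15 := by decide
  rw [e1] at m2
  have m2' : ∑ d ∈ blocksThrough B {p}, ((((d ∩ b).card).choose 2 : ℕ) : ℤ) = 15 := by
    exact_mod_cast m2
  have key := card_filter_eq_sum (blocksThrough B {p}) (fun d => Disjoint b d)
    (fun d => 1 - ((((d ∩ b).card).choose 2 : ℕ) : ℤ))
    (by
      intro d hd
      rw [mem_blocksThrough] at hd
      have hdb : d ≠ b := by
        rintro rfl
        exact hp (hd.2 (mem_singleton_self p))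
      have h2 := inter22 hα hB hb hd.1 hdb
      simp only [disjoint_iff_card_inter b d]
      rcases h2 with h2 | h2 <;> rw [h2] <;> simp [Nat.choose])
  rw [sum_sub_distrib, m2', sum_const, m0] at key
  norm_num at key
  exact_mod_cast key

end S22

end Cfsg.Agent.Lib.Helper10
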