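import Cfsg.Agent.Lib.Helper10.Rigid12
import Cfsg.Agent.S0356

/-! The automorphism group of an S(3,6,22) has at most 887040 elements. -/

set_option autoImplicit false
open Cfsg
open scoped Pointwise

namespace Cfsg.Agent.Lib.Helper10

section
variable {α : Type*} [Fintype α] [DecidableEq α]

/-- an automorphism fixing a block pointwise and a point outside it is trivial. -/
theorem rigid22 (hα : Fintype.card α = 22) {B : Set (Finset α)} (hB : IsSteinerSystem 3 6 B)
    {g : Equiv.Perm α} (hg : g ∈ setSystemAut B) {b : Finset α} (hb : b ∈ B)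
    (hfb : ∀ a ∈ b, g a = a) {x : α} (hx : x ∉ b) (hgx : g x = x) : g = 1 := by
  have hb6 := hB.1 b hb
  -- blocks through `x`, `y` and a point `u` of `b` are invariant
  have key : ∀ y, y ∉ b → y ≠ x → ∀ u ∈ b, ∃ c ∈ B, x ∈ c ∧ y ∈ c ∧ u ∈ c ∧ g • c = c ∧
      (b ∩ c).card = 2 := by
    intro y hy hyx u hu
    have hux : u ≠ x := fun h => hx (h ▸ hu)
    have huy : u ≠ y := fun h => hy (h ▸ hu)
    have h3 : ({u, x, y} : Finset α).card = 3 := by
      rw [Finset.card_insert_of_notMem (by simp [hux, huy]), Finset.card_pair (Ne.symm hyx)]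
    obtain ⟨c, ⟨hc, hsc⟩, _⟩ := hB.2 _ h3
    have huc : u ∈ c := hsc (by simp)
    have hxc : x ∈ c := hsc (by simp)
    have hyc : y ∈ c := hsc (by simp)
    have hbc : b ≠ c := fun h => hx (h ▸ hxc)
    have h2 : (b ∩ c).card = 2 := by
      rcases Cfsg.Agent.S0356.result hα hB hb hc hbc with h | h
      · exfalso
        rw [Finset.card_eq_zero] at h
        have : u ∈ b ∩ c := Finset.mem_inter.2 ⟨hu, huc⟩
        rw [h] at this
        exact absurd this (Finset.notMem_empty u)
      · exact h
    refine ⟨c, hc, hxc, hyc, huc, ?_, h2⟩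
    have hxn : x ∉ b ∩ c := fun h => hx (Finset.mem_inter.1 h).1
    apply smul_block_eq hB hg hc (T := insert x (b ∩ c))
      (by rw [Finset.card_insert_of_notMem hxn, h2])
    · intro a ha
      rcases Finset.mem_insert.1 ha with rfl | ha
      · exact hxc
      · exact (Finset.mem_inter.1 ha).2
    · intro a ha
      rcases Finset.mem_insert.1 ha with rfl | ha
      · exact mem_smul_of_fix hxc hgx
      · exact mem_smul_of_fix (Finset.mem_inter.1 ha).2 (hfb a (Finset.mem_inter.1 ha).1)
  ext y
  rw [Equiv.Perm.one_apply]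
  by_cases hy : y ∈ b
  · exact hfb y hy
  by_cases hyx : y = x
  · rw [hyx]; exact hgx
  obtain ⟨u, hu⟩ : b.Nonempty := by rw [← Finset.card_pos, hb6]; norm_num
  obtain ⟨c1, hc1, hx1, hy1, _, hg1, h21⟩ := key y hy hyx u hu
  obtain ⟨u', hu'⟩ : (b \ (b ∩ c1)).Nonempty := by
    rw [← Finset.card_pos, Finset.card_sdiff_of_subset Finset.inter_subset_left, hb6, h21]
    norm_num
  rw [Finset.mem_sdiff] at hu'
  obtain ⟨c2, hc2, hx2, hy2, hu2, hg2, _⟩ := key y hy hyx u' hu'.1
  have hne : c1 ≠ c2 := by
    intro h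
    exact hu'.2 (Finset.mem_inter.2 ⟨hu'.1, h ▸ hu2⟩)
  have hcard : (c1 ∩ c2).card = 2 := by
    rcases Cfsg.Agent.S0356.result hα hB hc1 hc2 hne with h | h
    · exfalso
      rw [Finset.card_eq_zero] at h
      have : x ∈ c1 ∩ c2 := Finset.mem_inter.2 ⟨hx1, hx2⟩
      rw [h] at this
      exact absurd this (Finset.notMem_empty x)
    · exact h
  have heq : c1 ∩ c2 = {x, y} := by
    symm
    apply Finset.eq_of_subset_of_card_le
    · intro a ha
      rcases Finset.mem_insert.1 ha with rfl | ha
      · exact Finset.mem_inter.2 ⟨hx1, hx2⟩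
      · rw [Finset.mem_singleton.1 ha]; exact Finset.mem_inter.2 ⟨hy1, hy2⟩
    · rw [hcard, Finset.card_pair (Ne.symm hyx)]
  have hgy : g y ∈ c1 ∩ c2 :=
    Finset.mem_inter.2 ⟨apply_mem_of_smul_eq hg1 hy1, apply_mem_of_smul_eq hg2 hy2⟩
  rw [heq] at hgy
  rcases Finset.mem_insert.1 hgy with h | h
  · exfalso
    rw [← hgx] at h
    exact hyx (g.injective h)
  · exact Finset.mem_singleton.1 h

theorem aut22_card_le (hα : Fintype.card α = 22) {B : Set (Finset α)}
    (hB : IsSteinerSystem 3 6 B) : Nat.card (setSystemAut B) ≤ 887040 := by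
  -- a block
  obtain ⟨s0, hs0⟩ := Finset.exists_subset_card_eq (s := (Finset.univ : Finset α)) (n := 3)
    (by rw [Finset.card_univ, hα]; norm_num)
  obtain ⟨b, ⟨hb, _⟩, _⟩ := hB.2 s0 hs0.2
  have hb6 := hB.1 b hb
  let e : Fin 6 ≃ b := (Finset.equivFinOfCardEq hb6).symm
  let a : Fin 6 → α := fun i => (e i : α)
  have ha_inj : Function.Injective a := fun i j h => e.injective (Subtype.ext h)
  have ha_mem : ∀ i, a i ∈ b := fun i => (e i).2
  have ha_surj : ∀ z ∈ b, ∃ i, a i = z := by
    intro z hz
    exact ⟨e.symm ⟨z, hz⟩, by simp [a]⟩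
  obtain ⟨x, hx⟩ : (bᶜ : Finset α).Nonempty := by
    rw [← Finset.card_pos, Finset.card_compl, hα, hb6]; norm_num
  rw [Finset.mem_compl] at hx
  let x3 : Fin 3 ↪ α := ⟨fun i => a (Fin.castLE (by norm_num) i), fun i j h => by
    have := ha_inj h
    exact Fin.castLE_injective _ this⟩
  let T : Finset α := b \ {a 0, a 1, a 2}
  have hT : T.card = 3 := by
    have hsub : ({a 0, a 1, a 2} : Finset α) ⊆ b := by
      intro z hz
      simp only [Finset.mem_insert, Finset.mem_singleton] at hz
      rcases hz with rfl | rfl | rfl <;> exact ha_mem _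
    have h3 : ({a 0, a 1, a 2} : Finset α).card = 3 := by
      rw [Finset.card_insert_of_notMem, Finset.card_pair]
      · exact fun h => absurd (ha_inj h) (by decide)
      · simp only [Finset.mem_insert, Finset.mem_singleton, not_or]
        exact ⟨fun h => absurd (ha_inj h) (by decide), fun h => absurd (ha_inj h) (by decide)⟩
    rw [Finset.card_sdiff_of_subset hsub, hb6, h3]
  -- facts on the stabiliser
  have hst : ∀ g : setSystemAut B, g ∈ MulAction.stabilizer (setSystemAut B) x3 →
      (g : Equiv.Perm α) (a 0) = a 0 ∧ (g : Equiv.Perm α) (a 1) = a 1 ∧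
      (g : Equiv.Perm α) (a 2) = a 2 ∧ (g : Equiv.Perm α) • b = b := by
    intro g hg
    have hg' : g • x3 = x3 := hg
    have h0 : (g : Equiv.Perm α) (a 0) = a 0 := congrArg (fun z : Fin 3 ↪ α => z 0) hg'
    have h1 : (g : Equiv.Perm α) (a 1) = a 1 := congrArg (fun z : Fin 3 ↪ α => z 1) hg'
    have h2 : (g : Equiv.Perm α) (a 2) = a 2 := congrArg (fun z : Fin 3 ↪ α => z 2) hg'
    refine ⟨h0, h1, h2, ?_⟩
    apply smul_block_eq hB g.2 hb (T := {a 0, a 1, a 2})
    · rw [Finset.card_insert_of_notMem, Finset.card_pair]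
      · exact fun h => absurd (ha_inj h) (by decide)
      · simp only [Finset.mem_insert, Finset.mem_singleton, not_or]
        exact ⟨fun h => absurd (ha_inj h) (by decide), fun h => absurd (ha_inj h) (by decide)⟩
    · intro z hz
      simp only [Finset.mem_insert, Finset.mem_singleton] at hz
      rcases hz with rfl | rfl | rfl <;> exact ha_mem _
    · intro z hz
      simp only [Finset.mem_insert, Finset.mem_singleton] at hz
      rcases hz with rfl | rfl | rfl
      · exact mem_smul_of_fix (ha_mem _) h0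
      · exact mem_smul_of_fix (ha_mem _) h1
      · exact mem_smul_of_fix (ha_mem _) h2
  have hTmem : ∀ g : setSystemAut B, g ∈ MulAction.stabilizer (setSystemAut B) x3 →
      ∀ i : Fin 6, 3 ≤ (i : ℕ) → (g : Equiv.Perm α) (a i) ∈ T := by
    intro g hg i hi
    obtain ⟨h0, h1, h2, hbb⟩ := hst g hg
    rw [Finset.mem_sdiff]
    refine ⟨apply_mem_of_smul_eq hbb (ha_mem i), ?_⟩
    simp only [Finset.mem_insert, Finset.mem_singleton, not_or]
    refine ⟨fun h => ?_, fun h => ?_, fun h => ?_⟩
    · rw [← h0] at h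
      have := ha_inj ((g : Equiv.Perm α).injective h)
      rw [this] at hi; simp at hi
    · rw [← h1] at h
      have := ha_inj ((g : Equiv.Perm α).injective h)
      rw [this] at hi; simp at hi
    · rw [← h2] at h
      have := ha_inj ((g : Equiv.Perm α).injective h)
      rw [this] at hi; simp at hi
  let Φ : MulAction.stabilizer (setSystemAut B) x3 → ↥(T.offDiag ×ˢ (bᶜ : Finset α)) := fun g =>
    ⟨((((g : setSystemAut B) : Equiv.Perm α) (a 3), ((g : setSystemAut B) : Equiv.Perm α) (a 4)),
      ((g : setSystemAut B) : Equiv.Perm α) x), by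
      rw [Finset.mem_product, Finset.mem_offDiag]
      refine ⟨⟨hTmem g g.2 3 (by simp), hTmem g g.2 4 (by simp), ?_⟩, ?_⟩
      · intro h
        exact absurd (ha_inj (((g : setSystemAut B) : Equiv.Perm α).injective h)) (by decide)
      · rw [Finset.mem_compl]
        intro h
        obtain ⟨_, _, _, hbb⟩ := hst g g.2
        rw [← hbb, Finset.mem_smul_finset] at h
        obtain ⟨z, hz, hzx⟩ := h
        exact hx (((g : setSystemAut B) : Equiv.Perm α).injective hzx ▸ hz)⟩
  have hΦ : Function.Injective Φ := by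
    intro g g' h
    have h3 : ((g : setSystemAut B) : Equiv.Perm α) (a 3)
        = ((g' : setSystemAut B) : Equiv.Perm α) (a 3) := congrArg (fun z => z.1.1.1) h
    have h4 : ((g : setSystemAut B) : Equiv.Perm α) (a 4)
        = ((g' : setSystemAut B) : Equiv.Perm α) (a 4) := congrArg (fun z => z.1.1.2) h
    have hxx : ((g : setSystemAut B) : Equiv.Perm α) x
        = ((g' : setSystemAut B) : Equiv.Perm α) x := congrArg (fun z => z.1.2) h
    obtain ⟨p0, p1, p2, pb⟩ := hst g g.2
    obtain ⟨q0, q1, q2, qb⟩ := hst g' g'.2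
    set γ : Equiv.Perm α := ((g : setSystemAut B) : Equiv.Perm α) with hγ
    set γ' : Equiv.Perm α := ((g' : setSystemAut B) : Equiv.Perm α) with hγ'
    have hk : γ⁻¹ * γ' ∈ setSystemAut B :=
      Subgroup.mul_mem _ (Subgroup.inv_mem _ (g : setSystemAut B).2) (g' : setSystemAut B).2
    have hfix : ∀ z, γ z = γ' z → (γ⁻¹ * γ') z = z := by
      intro z hz
      rw [Equiv.Perm.mul_apply, ← hz]; simp
    have hkb : (γ⁻¹ * γ') • b = b := by
      rw [mul_smul, qb, inv_smul_eq_iff, pb]
    have hf5 : ∀ i : Fin 6, i ≠ 5 → (γ⁻¹ * γ') (a i) = a i := by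
      intro i hi
      apply hfix
      fin_cases i
      · exact p0.trans q0.symm
      · exact p1.trans q1.symm
      · exact p2.trans q2.symm
      · exact h3
      · exact h4
      · exact absurd rfl hi
    have hfb : ∀ z ∈ b, (γ⁻¹ * γ') z = z := by
      intro z hz
      obtain ⟨i, rfl⟩ := ha_surj z hz
      by_cases hi : i = 5
      · subst hi
        obtain ⟨j, hj⟩ := ha_surj _ (apply_mem_of_smul_eq hkb (ha_mem 5))
        by_cases hj5 : j = 5
        · rw [← hj, hj5]
        · exfalso
          have h6 := hf5 j hj5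
          rw [hj] at h6
          have := ha_inj ((γ⁻¹ * γ').injective h6 ▸ hj)
          exact hj5 this
      · exact hf5 i hi
    have h1 := rigid22 hα hB hk hb hfb hx (hfix x hxx)
    apply Subtype.ext
    apply Subtype.ext
    exact (inv_mul_eq_one.1 h1)
  have hS : Nat.card (MulAction.stabilizer (setSystemAut B) x3) ≤ 96 := by
    have h1 := Nat.card_le_card_of_injective Φ hΦ
    have h2 : Nat.card ↥(T.offDiag ×ˢ (bᶜ : Finset α)) = 96 := by
      rw [Nat.card_eq_fintype_card, Fintype.card_coe, Finset.card_product, Finset.offDiag_card,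
        hT, Finset.card_compl, hα, hb6]
    omega
  have hO : (MulAction.orbit (setSystemAut B) x3).ncard ≤ 9240 := by
    have h1 := Set.ncard_le_card (MulAction.orbit (setSystemAut B) x3)
    have h2 : Nat.card (Fin 3 ↪ α) = 9240 := by
      rw [Nat.card_eq_fintype_card, Fintype.card_embedding_eq, Fintype.card_fin, hα]
      rfl
    omega
  rw [← Subgroup.card_mul_index (MulAction.stabilizer (setSystemAut B) x3),
    MulAction.index_stabilizer]
  calc _ ≤ 96 * 9240 := Nat.mul_le_mul hS hO
    _ = 887040 := by norm_num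

end

end Cfsg.Agent.Lib.Helper10
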