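import Cfsg.Agent.Lib.Helper10.Steiner

set_option autoImplicit false

namespace Cfsg.Agent.Lib.Helper10

open Finset Cfsg

section
variable {α : Type*} [DecidableEq α] [Fintype α] {B : Set (Finset α)}

/-- Evaluate the number of blocks through an `i`-set. -/
theorem lam_eq {t k v : ℕ} (hα : Fintype.card α = v) (hB : IsSteinerSystem t k B)
    {S : Finset α} {i : ℕ} (hS : S.card = i) (hi : i ≤ t) (L : ℕ)
    (h : L * (k - i).choose (t - i) = (v - i).choose (t - i))
    (hpos : 0 < (k - i).choose (t - i)) : (blocksThrough B S).card = L := by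
  have h1 := steiner_count hB S (by omega)
  rw [hα, hS, ← h] at h1
  exact Nat.eq_of_mul_eq_mul_right hpos h1

/-- Moment equation, integer form. -/
theorem momZ {t k v : ℕ} (hα : Fintype.card α = v) (hB : IsSteinerSystem t k B)
    (X : Finset α) (i : ℕ) (hi : i ≤ t) (L : ℕ)
    (h : L * (k - i).choose (t - i) = (v - i).choose (t - i))
    (hpos : 0 < (k - i).choose (t - i)) :
    ∑ d ∈ blocksThrough B ∅, ((((d ∩ X).card).choose i : ℕ) : ℤ)
      = (((X.card).choose i : ℕ) : ℤ) * (L : ℤ) := by
  have h1 := steiner_moment B ∅ X i L (fun I hI => by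
    rw [empty_union]
    exact lam_eq hα hB (mem_powersetCard.1 hI).2 hi L h hpos)
  exact_mod_cast h1

end

end Cfsg.Agent.Lib.Helper10
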