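import Cfsg.Agent.Lib.Helper10.DerivedAut
import Cfsg.Agent.S0352
import Cfsg.Agent.S0353

/-! A permutation fixing `p` and preserving the blocks through `p` of an S(5,8,24)
is an automorphism. -/

set_option autoImplicit false
open Cfsg
open scoped Pointwise

namespace Cfsg.Agent.Lib.Helper10

theorem ext24 {α : Type*} [Fintype α] [DecidableEq α] (hα : Fintype.card α = 24)
    {B : Set (Finset α)} (hB : IsSteinerSystem 5 8 B) (p : α) :
    ∀ g : Equiv.Perm α, g p = p → (∀ b ∈ B, p ∈ b → g • b ∈ B) → g ∈ setSystemAut B := by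
  intro g _ h1
  apply mem_aut_of_forall
  intro b hb
  by_cases hab : p ∈ b
  · exact h1 b hb hab
  · obtain ⟨T, hTb, hT⟩ := Finset.exists_subset_card_eq (s := b) (n := 4)
      (by rw [hB.1 b hb]; norm_num)
    have ha0T : p ∉ T := fun h => hab (hTb h)
    obtain ⟨c, ⟨hc, hTc⟩, _⟩ := hB.2 (insert p T) (by rw [Finset.card_insert_of_notMem ha0T, hT])
    have hac : p ∈ c := hTc (Finset.mem_insert_self _ _)
    have hbc : b ≠ c := fun h => hab (h ▸ hac)
    have h4 : (b ∩ c).card = 4 := by
      have hge : 4 ≤ (b ∩ c).card := by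
        rw [← hT]
        apply Finset.card_le_card
        intro a ha
        exact Finset.mem_inter.2 ⟨hTb ha, hTc (Finset.mem_insert_of_mem ha)⟩
      rcases Cfsg.Agent.S0352.result hα hB hb hc hbc with h | h | h <;> omega
    have hd : symmDiff b c ∈ B := Cfsg.Agent.S0353.result hα hB hb hc h4
    have had : p ∈ symmDiff b c := by
      rw [Finset.mem_symmDiff]
      exact Or.inr ⟨hac, hab⟩
    have hbe : b = symmDiff c (symmDiff b c) := by
      rw [symmDiff_comm b c, symmDiff_symmDiff_cancel_left]
    have hco := h1 c hc hac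
    have hdo := h1 _ hd had
    have himg : g • b = symmDiff (g • c) (g • (symmDiff b c)) := by
      change b.image g = symmDiff (c.image g) ((symmDiff b c).image g)
      rw [← Finset.image_symmDiff _ _ g.injective, ← hbe]
    rw [himg]
    apply Cfsg.Agent.S0353.result hα hB hco hdo
    change (c.image g ∩ (symmDiff b c).image g).card = 4
    rw [← Finset.image_inter _ _ g.injective, Finset.card_image_of_injective _ g.injective]
    have h5 : c ∩ symmDiff b c = c \ (b ∩ c) := by
      ext x
      simp only [Finset.mem_inter, Finset.mem_symmDiff, Finset.mem_sdiff]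
      tauto
    rw [h5, Finset.card_sdiff_of_subset Finset.inter_subset_right, hB.1 c hc, h4]

end Cfsg.Agent.Lib.Helper10
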