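import Cfsg.Agent.Lib.Helper10.Aut22
import Cfsg.Agent.Lib.Helper10.DerivedAut24
import Cfsg.Agent.Lib.Helper9.GolaySteiner
import Cfsg.Agent.S0351
import Cfsg.Agent.S0366
import Cfsg.Agent.S0369
import Cfsg.Agent.S0372
import Cfsg.Agent.S0378
import Cfsg.Agent.S0379
import Cfsg.Prelude.Def_Sporadic

/-! The doubly derived design of the octads and its automorphism group. -/

set_option autoImplicit false
open Cfsg
open scoped Pointwise

namespace Cfsg.Agent.Lib.Helper10

section swap
variable {α : Type*} [Fintype α] [DecidableEq α]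

/-- restriction of a permutation exchanging `p` and `q` to the other points. -/
def swapRes (g : Equiv.Perm α) {p q : α} (hne : q ≠ p) (hpq : g p = q) (hqp : g q = p) :
    Equiv.Perm {a : {a : α // a ≠ p} // a ≠ ⟨q, hne⟩} where
  toFun x := ⟨⟨g x.1.1, fun h => x.2 (Subtype.ext (g.injective (h.trans hqp.symm)))⟩,
    fun h => x.1.2 (g.injective ((congrArg Subtype.val h).trans hpq.symm))⟩
  invFun x := ⟨⟨g.symm x.1.1, fun h => x.2 (Subtype.ext (by
      rw [Equiv.symm_apply_eq] at h; exact h.trans hpq))⟩,
    fun h => x.1.2 (by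
      have h' := congrArg Subtype.val h
      change g.symm x.1.1 = q at h'
      rw [Equiv.symm_apply_eq] at h'; exact h'.trans hqp)⟩
  left_inv x := by
    apply Subtype.ext; apply Subtype.ext; simp
  right_inv x := by
    apply Subtype.ext; apply Subtype.ext; simp

theorem swapRes_mem {B : Set (Finset α)} {g : Equiv.Perm α} (hg : g ∈ setSystemAut B)
    {p q : α} (hne : q ≠ p) (hpq : g p = q) (hqp : g q = p) :
    swapRes g hne hpq hqp ∈ setSystemAut (derived (derived B p) ⟨q, hne⟩) := by
  apply mem_aut_of_forall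
  rintro _ ⟨_, ⟨o, ho, hpo, rfl⟩, hqo, rfl⟩
  rw [Finset.mem_subtype] at hqo
  have hp' : p ∈ g • o := by
    rw [Finset.mem_smul_finset]; exact ⟨q, hqo, hqp⟩
  have hq' : q ∈ g • o := by
    rw [Finset.mem_smul_finset]; exact ⟨p, hpo, hpq⟩
  refine ⟨Finset.subtype (fun a => a ≠ p) (g • o),
    ⟨g • o, smul_mem_of_mem_aut hg ho, hp', rfl⟩, by rw [Finset.mem_subtype]; exact hq', ?_⟩
  ext x
  simp only [Finset.mem_smul_finset, Finset.mem_subtype, Equiv.Perm.smul_def]
  constructor
  · rintro ⟨y, hy, rfl⟩
    exact ⟨y.1.1, hy, rfl⟩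
  · rintro ⟨y, hy, hyx⟩
    have h1 : y ≠ p := by
      intro h
      rw [h, hpq] at hyx
      exact x.2 (Subtype.ext hyx.symm)
    have h2 : (⟨y, h1⟩ : {a : α // a ≠ p}) ≠ ⟨q, hne⟩ := by
      intro h
      have h' : y = q := congrArg Subtype.val h
      rw [h', hqp] at hyx
      exact x.1.2 hyx.symm
    exact ⟨⟨⟨y, h1⟩, h2⟩, hy, Subtype.ext (Subtype.ext hyx)⟩

/-- the automorphism group of an S(5,8,24) contains no transposition. -/
theorem no_transposition (hα : Fintype.card α = 24) {B : Set (Finset α)}
    (hB : IsSteinerSystem 5 8 B) {t : Equiv.Perm α} (ht : t ∈ setSystemAut B) {p q : α}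
    (hne : q ≠ p) (hpq : t p = q) (hfix : ∀ a, a ≠ p → a ≠ q → t a = a) : False := by
  have hpair : ({p, q} : Finset α).card = 2 := Finset.card_pair (Ne.symm hne)
  obtain ⟨s, hs, hs3⟩ := Finset.exists_subset_card_eq (s := (({p, q} : Finset α)ᶜ)) (n := 3)
    (by rw [Finset.card_compl, hα, hpair]; norm_num)
  have hps : p ∉ s := fun h => by
    have := hs h
    simp at this
  have hqs : q ∉ s := fun h => by
    have := hs h
    simp at this
  have hq' : q ∉ insert p s := by
    rw [Finset.mem_insert, not_or]; exact ⟨hne, hqs⟩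
  obtain ⟨o1, ⟨ho1, hso1⟩, huniq⟩ := hB.2 (insert q (insert p s))
    (by rw [Finset.card_insert_of_notMem hq', Finset.card_insert_of_notMem hps, hs3])
  obtain ⟨d, hd⟩ : (o1ᶜ : Finset α).Nonempty := by
    rw [← Finset.card_pos, Finset.card_compl, hα, hB.1 o1 ho1]; norm_num
  rw [Finset.mem_compl] at hd
  have hd' : d ∉ insert p s := fun h => hd (hso1 (Finset.mem_insert_of_mem h))
  obtain ⟨o2, ⟨ho2, hso2⟩, _⟩ := hB.2 (insert d (insert p s))
    (by rw [Finset.card_insert_of_notMem hd', Finset.card_insert_of_notMem hps, hs3])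
  have hcard : 5 ≤ (o2 \ {p, q}).card := by
    have := Finset.le_card_sdiff ({p, q} : Finset α) o2
    rw [hB.1 o2 ho2, hpair] at this
    omega
  obtain ⟨T, hT, hT5⟩ := Finset.exists_subset_card_eq hcard
  have hinv : t • o2 = o2 := by
    apply smul_block_eq hB ht ho2 hT5 (hT.trans Finset.sdiff_subset)
    intro a ha
    have h1 := Finset.mem_sdiff.1 (hT ha)
    have h2 : a ≠ p ∧ a ≠ q := by
      have := h1.2
      simp only [Finset.mem_insert, Finset.mem_singleton, not_or] at this
      exact this
    exact mem_smul_of_fix h1.1 (hfix a h2.1 h2.2)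
  have hpo2 : p ∈ o2 := hso2 (by simp)
  have hqo2 : q ∈ o2 := hpq ▸ apply_mem_of_smul_eq hinv hpo2
  have : o2 = o1 := huniq o2 ⟨ho2, by
    intro a ha
    rcases Finset.mem_insert.1 ha with rfl | ha
    · exact hqo2
    · exact hso2 (Finset.mem_insert_of_mem ha)⟩
  exact hd (this ▸ hso2 (Finset.mem_insert_self _ _))

end swap

/-- the derived design of the octads at the extra point. -/
abbrev D23 : Set (Finset {a : GolayPt // a ≠ none}) := derived octads none

theorem q0_ne : (some 0 : GolayPt) ≠ none := by simp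

/-- the doubly derived design. -/
abbrev D22 : Set (Finset {a : {a : GolayPt // a ≠ none} // a ≠ ⟨some 0, q0_ne⟩}) :=
  derived D23 ⟨some 0, q0_ne⟩

theorem D23_steiner : IsSteinerSystem 4 7 D23 :=
  Cfsg.Agent.S0351.result (t := 4) (k := 7) Cfsg.Agent.Lib.Helper9.octads_steiner none

theorem D22_steiner : IsSteinerSystem 3 6 D22 :=
  Cfsg.Agent.S0351.result (t := 3) (k := 6) D23_steiner _

theorem card_golayPt : Fintype.card GolayPt = 24 := by decide

theorem card23 : Fintype.card {a : GolayPt // a ≠ none} = 23 := by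
  rw [Fintype.card_subtype_compl, card_golayPt]
  simp

theorem card22 :
    Fintype.card {a : {a : GolayPt // a ≠ none} // a ≠ ⟨some 0, q0_ne⟩} = 22 := by
  rw [Fintype.card_subtype_compl, card23]
  simp

/-- the two point stabiliser acts on the doubly derived design. -/
def psi22 : ↥(MulAction.stabilizer (setSystemAut octads) (none : GolayPt) ⊓
    MulAction.stabilizer (setSystemAut octads) (some 0 : GolayPt)) →* setSystemAut D22 :=
  (resHom D23 ⟨some 0, q0_ne⟩).comp
    (((resHom octads none).comp (Subgroup.inclusion inf_le_left)).codRestrict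
      (MulAction.stabilizer (setSystemAut D23) (⟨some 0, q0_ne⟩ : {a : GolayPt // a ≠ none}))
      (fun g => by
        rw [MulAction.mem_stabilizer_iff]
        apply Subtype.ext
        exact g.2.2))

theorem psi22_apply (g : ↥(MulAction.stabilizer (setSystemAut octads) (none : GolayPt) ⊓
    MulAction.stabilizer (setSystemAut octads) (some 0 : GolayPt)))
    (x : {a : {a : GolayPt // a ≠ none} // a ≠ ⟨some 0, q0_ne⟩}) :
    (((psi22 g : setSystemAut D22) : Equiv.Perm _) x).1.1
      = ((g : setSystemAut octads) : Equiv.Perm GolayPt) x.1.1 := rfl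

theorem psi22_injective : Function.Injective psi22 := by
  apply (resHom_injective _ _).comp
  rw [MonoidHom.injective_codRestrict]
  exact (resHom_injective _ _).comp (Subgroup.inclusion_injective _)

theorem model22 : Nat.card (setSystemAut D22) = 887040 ∧
    MulAction.IsMultiplyPretransitive (setSystemAut D22)
      {a : {a : GolayPt // a ≠ none} // a ≠ ⟨some 0, q0_ne⟩} 3 ∧
    ∃ H : Subgroup (setSystemAut D22), H.index = 2 ∧ IsM22 H := by
  have hst := Cfsg.Agent.Lib.Helper9.octads_steiner
  have h5 : MulAction.IsMultiplyPretransitive (setSystemAut octads) GolayPt 5 := by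
    rw [← Cfsg.Agent.S0369.result]; exact Cfsg.Agent.S0366.result
  have h4 := derived_pretransitive octads none 4 (by rw [card_golayPt]; norm_num) h5
  have h3 := derived_pretransitive D23 ⟨some 0, q0_ne⟩ 3 (by rw [card23]; norm_num) h4
  have hs : IsSimpleGroup ↥(MulAction.stabilizer (setSystemAut octads) (none : GolayPt) ⊓
      MulAction.stabilizer (setSystemAut octads) (some 0 : GolayPt)) := by
    rw [← Cfsg.Agent.S0369.result]; exact Cfsg.Agent.S0379.result none (some 0) (by simp)
  have hc : Nat.card ↥(MulAction.stabilizer (setSystemAut octads) (none : GolayPt) ⊓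
      MulAction.stabilizer (setSystemAut octads) (some 0 : GolayPt)) = 443520 := by
    rw [← Cfsg.Agent.S0369.result]; exact Cfsg.Agent.S0378.result none (some 0) (by simp)
  have E := MonoidHom.ofInjective psi22_injective
  have hHs : IsSimpleGroup psi22.range := E.isSimpleGroup_congr.mp hs
  have hHc : Nat.card psi22.range = 443520 := (Nat.card_congr E.toEquiv).symm.trans hc
  have hle := aut22_card_le card22 D22_steiner
  have hproj : projInv ∈ setSystemAut octads := by
    rw [← Cfsg.Agent.S0369.result]; exact Cfsg.Agent.S0372.result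
  have hpq : projInv (none : GolayPt) = some 0 := rfl
  have hqp : projInv (some 0 : GolayPt) = none := by decide
  have hτ := swapRes_mem hproj q0_ne hpq hqp
  have hnot : (⟨_, hτ⟩ : setSystemAut D22) ∉ psi22.range := by
    rintro ⟨h, hh⟩
    have h1 : ∀ x : {a : {a : GolayPt // a ≠ none} // a ≠ ⟨some 0, q0_ne⟩},
        ((h : setSystemAut octads) : Equiv.Perm GolayPt) x.1.1 = projInv x.1.1 := by
      intro x
      rw [← psi22_apply, hh]
      rfl
    set η : Equiv.Perm GolayPt := ((h : setSystemAut octads) : Equiv.Perm GolayPt) with hη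
    have hη0 : η none = none := h.2.1
    have hη1 : η (some 0) = some 0 := h.2.2
    apply no_transposition card_golayPt hst (t := η⁻¹ * projInv)
      (Subgroup.mul_mem _ (Subgroup.inv_mem _ (h : setSystemAut octads).2) hproj) q0_ne
    · rw [Equiv.Perm.mul_apply, hpq, Equiv.Perm.inv_eq_iff_eq, hη1]
    · intro a ha1 ha2
      have h2 := h1 ⟨⟨a, ha1⟩, fun hh => ha2 (congrArg Subtype.val hh)⟩
      rw [Equiv.Perm.mul_apply, Equiv.Perm.inv_eq_iff_eq]
      exact h2.symm
  have hne1 : psi22.range.index ≠ 1 := by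
    rw [Ne, Subgroup.index_eq_one]
    intro htop
    exact hnot (htop ▸ Subgroup.mem_top _)
  have hne0 : psi22.range.index ≠ 0 := Subgroup.index_ne_zero_of_finite
  have hmul := Subgroup.card_mul_index psi22.range
  rw [hHc] at hmul
  have hidx : psi22.range.index = 2 := by
    by_contra hcon
    have : 3 ≤ psi22.range.index := by omega
    have : 443520 * 3 ≤ 443520 * psi22.range.index := Nat.mul_le_mul_left _ this
    omega
  refine ⟨?_, h3, psi22.range, hidx, hHs, hHc⟩
  rw [← hmul, hidx]

end Cfsg.Agent.Lib.Helper10
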