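import Cfsg.Prelude.Def_Sporadic_a

/-! Transport of the automorphism group of a set system along an isomorphism of set systems. -/

set_option autoImplicit false
open Cfsg
open scoped Pointwise

namespace Cfsg.Agent.Lib.Helper10

section
variable {α β : Type*} [DecidableEq α] [DecidableEq β]

theorem permCongr_smul_image (e : α ≃ β) (g : Equiv.Perm α) (B : Set (Finset α)) :
    (e.permCongr g) • ((fun b : Finset α => b.image e) '' B)
      = (fun b : Finset α => b.image e) '' (g • B) := by
  ext c
  constructor
  · rintro ⟨_, ⟨b, hb, rfl⟩, rfl⟩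
    refine ⟨g • b, ⟨b, hb, rfl⟩, ?_⟩
    ext x
    simp only [Finset.mem_image, Finset.mem_smul_finset, Equiv.Perm.smul_def]
    constructor
    · rintro ⟨_, ⟨y, hy, rfl⟩, rfl⟩
      exact ⟨e y, ⟨y, hy, rfl⟩, by simp [Equiv.permCongr_apply]⟩
    · rintro ⟨_, ⟨y, hy, rfl⟩, rfl⟩
      exact ⟨g y, ⟨y, hy, rfl⟩, by simp [Equiv.permCongr_apply]⟩
  · rintro ⟨_, ⟨b, hb, rfl⟩, rfl⟩
    refine ⟨b.image e, ⟨b, hb, rfl⟩, ?_⟩
    ext x
    simp only [Finset.mem_image, Finset.mem_smul_finset, Equiv.Perm.smul_def]
    constructor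
    · rintro ⟨_, ⟨y, hy, rfl⟩, rfl⟩
      exact ⟨g y, ⟨y, hy, rfl⟩, by simp [Equiv.permCongr_apply]⟩
    · rintro ⟨_, ⟨y, hy, rfl⟩, rfl⟩
      exact ⟨e y, ⟨y, hy, rfl⟩, by simp [Equiv.permCongr_apply]⟩

theorem permCongr_mem_aut {B : Set (Finset α)} {B' : Set (Finset β)} (e : α ≃ β)
    (h : (fun b : Finset α => b.image e) '' B = B') {g : Equiv.Perm α}
    (hg : g ∈ setSystemAut B) : e.permCongr g ∈ setSystemAut B' := by
  rw [MulAction.mem_stabilizer_iff] at hg ⊢
  subst h
  rw [permCongr_smul_image, hg]

theorem image_symm_of_image {B : Set (Finset α)} {B' : Set (Finset β)} (e : α ≃ β)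
    (h : (fun b : Finset α => b.image e) '' B = B') :
    (fun b : Finset β => b.image e.symm) '' B' = B := by
  subst h
  rw [Set.image_image]
  convert Set.image_id B using 2
  ext b
  simp [Finset.image_image]

/-- An isomorphism of set systems induces an isomorphism of automorphism groups. -/
def autCongr {B : Set (Finset α)} {B' : Set (Finset β)} (e : α ≃ β)
    (h : (fun b : Finset α => b.image e) '' B = B') : setSystemAut B ≃* setSystemAut B' where
  toFun g := ⟨e.permCongr g, permCongr_mem_aut e h g.2⟩
  invFun g := ⟨e.symm.permCongr g, permCongr_mem_aut e.symm (image_symm_of_image e h) g.2⟩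
  left_inv g := by
    ext x
    simp [Equiv.permCongr_apply]
  right_inv g := by
    ext x
    simp [Equiv.permCongr_apply]
  map_mul' g g' := by
    ext x
    simp [Equiv.permCongr_apply]

theorem autCongr_smul {B : Set (Finset α)} {B' : Set (Finset β)} (e : α ≃ β)
    (h : (fun b : Finset α => b.image e) '' B = B') (g : setSystemAut B) (a : α) :
    autCongr e h g • e a = e (g • a) := by
  change (e.permCongr (g : Equiv.Perm α)) (e a) = e ((g : Equiv.Perm α) a)
  simp [Equiv.permCongr_apply]

theorem aut_pretransitive_of_iso {B : Set (Finset α)} {B' : Set (Finset β)} (e : α ≃ β)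
    (h : (fun b : Finset α => b.image e) '' B = B') (n : ℕ)
    (ht : MulAction.IsMultiplyPretransitive (setSystemAut B) α n) :
    MulAction.IsMultiplyPretransitive (setSystemAut B') β n := by
  let f : α →ₑ[autCongr e h] β :=
    { toFun := e
      map_smul' := fun g a => (autCongr_smul e h g a).symm }
  exact MulAction.IsPretransitive.of_embedding (f := f) e.surjective

theorem aut_simple_of_iso {B : Set (Finset α)} {B' : Set (Finset β)} (e : α ≃ β)
    (h : (fun b : Finset α => b.image e) '' B = B')
    (hs : IsSimpleGroup (setSystemAut B)) : IsSimpleGroup (setSystemAut B') :=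
  (autCongr e h).isSimpleGroup_congr.mp hs

theorem aut_card_of_iso {B : Set (Finset α)} {B' : Set (Finset β)} (e : α ≃ β)
    (h : (fun b : Finset α => b.image e) '' B = B') :
    Nat.card (setSystemAut B') = Nat.card (setSystemAut B) :=
  (Nat.card_congr (autCongr e h).toEquiv).symm

end

end Cfsg.Agent.Lib.Helper10
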