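import Cfsg.Agent.Lib.Helper10.AutTransport

/-! The automorphism group of a derived design versus a point stabiliser. -/

set_option autoImplicit false
open Cfsg
open scoped Pointwise

namespace Cfsg.Agent.Lib.Helper10

section
variable {α : Type*} [Fintype α] [DecidableEq α]

theorem mem_aut_of_forall {B : Set (Finset α)} {g : Equiv.Perm α}
    (h : ∀ b ∈ B, g • b ∈ B) : g ∈ setSystemAut B := by
  unfold setSystemAut
  rw [MulAction.mem_stabilizer_set' (s := B) (Set.toFinite _)]
  exact fun b hb => h b hb

theorem smul_mem_of_mem_aut {B : Set (Finset α)} {g : Equiv.Perm α}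
    (hg : g ∈ setSystemAut B) {b : Finset α} (hb : b ∈ B) : g • b ∈ B := by
  have h : g • B = B := hg
  rw [← h]
  exact Set.smul_mem_smul_set hb

/-- the derived set system at the point `p`, in the shape used by the statements. -/
def derived (B : Set (Finset α)) (p : α) : Set (Finset {a : α // a ≠ p}) :=
  {b' | ∃ b ∈ B, p ∈ b ∧ b' = Finset.subtype (fun a => a ≠ p) b}

theorem fix_iff {g : Equiv.Perm α} {p : α} (hg : g p = p) (x : α) : g x ≠ p ↔ x ≠ p := by
  constructor
  · intro h hx; exact h (hx ▸ hg)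
  · intro h hx; exact h (g.injective (hx.trans hg.symm))

theorem subtypePerm_smul_subtype {g : Equiv.Perm α} {p : α} (hg : g p = p) (b : Finset α) :
    (g.subtypePerm (p := fun a => a ≠ p) (fix_iff hg)) • (Finset.subtype (fun a => a ≠ p) b)
      = Finset.subtype (fun a => a ≠ p) (g • b) := by
  ext x
  simp only [Finset.mem_smul_finset, Finset.mem_subtype, Equiv.Perm.smul_def]
  constructor
  · rintro ⟨y, hy, rfl⟩
    exact ⟨y, hy, rfl⟩
  · rintro ⟨y, hy, hyx⟩
    have hyp : y ≠ p := (fix_iff hg y).1 (hyx ▸ x.2)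
    exact ⟨⟨y, hyp⟩, hy, Subtype.ext hyx⟩

theorem subtypePerm_mem_aut {B : Set (Finset α)} {g : Equiv.Perm α} {p : α}
    (hgB : g ∈ setSystemAut B) (hg : g p = p) :
    g.subtypePerm (p := fun a => a ≠ p) (fix_iff hg) ∈ setSystemAut (derived B p) := by
  apply mem_aut_of_forall
  rintro _ ⟨b, hb, hpb, rfl⟩
  refine ⟨g • b, smul_mem_of_mem_aut hgB hb, ?_, subtypePerm_smul_subtype hg b⟩
  rw [Finset.mem_smul_finset]
  exact ⟨p, hpb, hg⟩

theorem ofSubtype_smul_mem {B : Set (Finset α)} {p : α}
    {h : Equiv.Perm {a : α // a ≠ p}} (hh : h ∈ setSystemAut (derived B p))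
    {b : Finset α} (hb : b ∈ B) (hpb : p ∈ b) :
    (Equiv.Perm.ofSubtype h) • b ∈ B := by
  obtain ⟨c, hc, hpc, hbc⟩ := smul_mem_of_mem_aut hh (b := Finset.subtype (fun a => a ≠ p) b)
    ⟨b, hb, hpb, rfl⟩
  have : (Equiv.Perm.ofSubtype h) • b = c := by
    ext x
    by_cases hx : x = p
    · subst hx
      simp only [hpc, iff_true, Finset.mem_smul_finset]
      exact ⟨x, hpb, Equiv.Perm.ofSubtype_apply_of_not_mem h (by simp)⟩
    · have h1 : (⟨x, hx⟩ : {a : α // a ≠ p}) ∈ h • Finset.subtype (fun a => a ≠ p) b ↔ x ∈ c := by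
        rw [hbc, Finset.mem_subtype]
      rw [← h1]
      simp only [Finset.mem_smul_finset, Finset.mem_subtype, Equiv.Perm.smul_def]
      constructor
      · rintro ⟨y, hy, hyx⟩
        have hyp : y ≠ p := by
          intro hyp
          rw [hyp, Equiv.Perm.ofSubtype_apply_of_not_mem h (by simp)] at hyx
          exact hx hyx.symm
        refine ⟨⟨y, hyp⟩, hy, ?_⟩
        apply Subtype.ext
        show (h ⟨y, hyp⟩ : α) = x
        rw [← hyx, Equiv.Perm.ofSubtype_apply_of_mem h hyp]
      · rintro ⟨y, hy, hyx⟩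
        refine ⟨y, hy, ?_⟩
        rw [Equiv.Perm.ofSubtype_apply_coe, hyx]
  rw [this]
  exact hc

/-- restriction of the stabiliser of `p` to the derived system. -/
def resHom (B : Set (Finset α)) (p : α) :
    MulAction.stabilizer (setSystemAut B) p →* setSystemAut (derived B p) where
  toFun g := ⟨((g : setSystemAut B) : Equiv.Perm α).subtypePerm (p := fun a => a ≠ p)
      (fix_iff (p := p) (g.2 : ((g : setSystemAut B) : Equiv.Perm α) p = p)),
    subtypePerm_mem_aut (g : setSystemAut B).2
      (g.2 : ((g : setSystemAut B) : Equiv.Perm α) p = p)⟩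
  map_one' := by
    ext x
    rfl
  map_mul' g g' := by
    ext x
    rfl

theorem resHom_apply (B : Set (Finset α)) (p : α)
    (g : MulAction.stabilizer (setSystemAut B) p) (x : {a : α // a ≠ p}) :
    ((((resHom B p g : setSystemAut (derived B p)) : Equiv.Perm {a : α // a ≠ p}) x :
      {a : α // a ≠ p}) : α)
      = ((g : setSystemAut B) : Equiv.Perm α) x := rfl

theorem resHom_injective (B : Set (Finset α)) (p : α) : Function.Injective (resHom B p) := by
  intro g g' h
  apply Subtype.ext
  apply Subtype.ext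
  ext x
  by_cases hx : x = p
  · subst hx
    have h1 : ((g : setSystemAut B) : Equiv.Perm α) x = x := g.2
    have h2 : ((g' : setSystemAut B) : Equiv.Perm α) x = x := g'.2
    rw [h1, h2]
  · rw [← resHom_apply B p g ⟨x, hx⟩, ← resHom_apply B p g' ⟨x, hx⟩, h]

theorem resHom_surjective {B : Set (Finset α)} {p : α}
    (hext : ∀ g : Equiv.Perm α, g p = p → (∀ b ∈ B, p ∈ b → g • b ∈ B) → g ∈ setSystemAut B) :
    Function.Surjective (resHom B p) := by
  intro h
  have hfix : (Equiv.Perm.ofSubtype (h : Equiv.Perm {a : α // a ≠ p})) p = p :=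
    Equiv.Perm.ofSubtype_apply_of_not_mem _ (by simp)
  have hmem := hext _ hfix (fun b hb hpb => ofSubtype_smul_mem h.2 hb hpb)
  refine ⟨⟨⟨_, hmem⟩, hfix⟩, ?_⟩
  apply Subtype.ext
  ext x
  rw [resHom_apply]
  exact Equiv.Perm.ofSubtype_apply_coe _ x

/-- the stabiliser of `p` is the automorphism group of the derived system, as soon as
permutations fixing `p` and preserving the blocks through `p` are automorphisms. -/
noncomputable def resEquiv {B : Set (Finset α)} {p : α}
    (hext : ∀ g : Equiv.Perm α, g p = p → (∀ b ∈ B, p ∈ b → g • b ∈ B) → g ∈ setSystemAut B) :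
    MulAction.stabilizer (setSystemAut B) p ≃* setSystemAut (derived B p) :=
  MulEquiv.ofBijective (resHom B p) ⟨resHom_injective B p, resHom_surjective hext⟩

theorem derived_pretransitive (B : Set (Finset α)) (p : α) (n : ℕ)
    (hcard : n + 1 ≤ Fintype.card α)
    (ht : MulAction.IsMultiplyPretransitive (setSystemAut B) α (n + 1)) :
    MulAction.IsMultiplyPretransitive (setSystemAut (derived B p)) {a : α // a ≠ p} n := by
  have h1 : MulAction.IsPretransitive (setSystemAut B) α := by
    have := MulAction.isMultiplyPretransitive_of_le (G := setSystemAut B) (α := α)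
        (m := 1) (n := n + 1) (by omega) (by rw [Nat.card_eq_fintype_card]; exact hcard)
    exact MulAction.is_one_pretransitive_iff.1 this
  have h2 := (SubMulAction.ofStabilizer.isMultiplyPretransitive (G := setSystemAut B)
    (α := α) (n := n) (a := p)).1 ht
  let f : SubMulAction.ofStabilizer (setSystemAut B) p →ₑ[resHom B p] {a : α // a ≠ p} :=
    { toFun := fun x => ⟨x.1, x.2⟩
      map_smul' := fun g a => rfl }
  exact MulAction.IsPretransitive.of_embedding (f := f) (fun x => ⟨⟨x.1, x.2⟩, rfl⟩)

end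

end Cfsg.Agent.Lib.Helper10
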