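import Cfsg.Agent.Lib.Helper10.Data21

set_option autoImplicit false

namespace Cfsg.Agent.Lib.Helper10

open Cfsg Cfsg.Agent.Lib.Helper94

theorem subs21_ok : collect (fun _ => true) 21 3 0 [] = subs21 := by decide +kernel
theorem syms21_ok : allL (symOK 21) syms21 = true := by decide +kernel
theorem perms21_ok : allL (permOKv 21) perms21 = true := by decide +kernel
theorem std21_lt : allL (fun m => Nat.ble (Nat.succ m) 16777216) std21 = true := by decide +kernel
theorem std21_cov : collect (fun T => bNot (covered T std21)) 21 2 0 [] = [] := by decide +kernel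
theorem solve21 : solve 21 2 3 applyM subs21 syms21 (leafOK std21 perms21) ts21 [] = true := by
  decide +kernel

/-- every projective plane of order 4 can be numbered so as to become the standard one. -/
theorem labelled21 {α : Type*} [Fintype α] [DecidableEq α] (hα : Fintype.card α = 21)
    {B : Set (Finset α)} (hB : IsSteinerSystem 2 5 B) : Labelled 21 std21 B := by
  obtain ⟨f, hf, hlt⟩ := exists_labelling (v := 21) (by norm_num) hα
  refine labelled_of_goal (t := 2) (k := 5) (J := 3) (st := []) (by norm_num) hα hB ?_
    (solve_goal (by norm_num) subs21_ok syms21_ok perms21_ok std21_lt solve21) hf hlt (by simp)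
  intro b hb c hc hbc
  have := steiner_inter_lt hB hb hc hbc
  interval_cases (b ∩ c).card <;> rfl

theorem cover21 : ∀ s : Finset GolayPt, (∀ p ∈ s, enc p < 21) → s.card = 2 →
    ∃ m ∈ std21, s ⊆ unm m := cover_of_collect std21_cov

end Cfsg.Agent.Lib.Helper10
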