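import Cfsg.Agent.Lib.Helper10.Data22
import Cfsg.Agent.Lib.Helper10.Design21
import Cfsg.Agent.S0351
import Cfsg.Agent.S0356

set_option autoImplicit false

namespace Cfsg.Agent.Lib.Helper10

open Cfsg Cfsg.Agent.Lib.Helper94

theorem subs22_ok : collect (fun _ => true) 22 3 0 [] = subs22 := by decide +kernel
theorem perms22_ok : allL (permOKv 22) perms22 = true := by decide +kernel
theorem std22_lt : allL (fun m => Nat.ble (Nat.succ m) 16777216) std22 = true := by decide +kernel
theorem std22_cov : collect (fun T => bNot (covered T std22)) 22 3 0 [] = [] := by decide +kernel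
theorem st22_eq : std21.map (fun m => Nat.lor m (2 ^ 21)) = st22 := by decide +kernel
theorem solve22 : solve 22 3 5 applyM subs22 [] (leafOK std22 perms22) ts22 st22 = true := by
  decide +kernel

/-- every S(3,6,22) can be numbered so as to become the standard one. -/
theorem labelled22 {α : Type*} [Fintype α] [DecidableEq α] (hα : Fintype.card α = 22)
    {B : Set (Finset α)} (hB : IsSteinerSystem 3 6 B) : Labelled 22 std22 B := by
  have hne : Nonempty α := Fintype.card_pos_iff.1 (by omega)
  obtain ⟨p⟩ := hne
  have hder := Cfsg.Agent.S0351.result (t := 2) (k := 5) hB p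
  have hcard : Fintype.card {a : α // a ≠ p} = 21 := by
    rw [Fintype.card_subtype_compl, hα]
    simp
  obtain ⟨f, hf, hlt, hm⟩ := chain_labelling (v := 21) (by norm_num) std21_lt p
    (labelled21 hcard hder)
  refine labelled_of_goal (t := 3) (k := 6) (J := 5) (st := st22) (by norm_num) hα hB ?_
    (solve_goal (by norm_num) subs22_ok rfl perms22_ok std22_lt solve22) hf hlt ?_
  · intro b hb c hc hbc
    rcases Cfsg.Agent.S0356.result hα hB hb hc hbc with h | h <;> rw [h] <;> rfl
  · intro m hmem
    rw [← st22_eq, List.mem_map] at hmem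
    obtain ⟨m0, hm0, rfl⟩ := hmem
    exact hm m0 hm0

theorem cover22 : ∀ s : Finset GolayPt, (∀ p ∈ s, enc p < 22) → s.card = 3 →
    ∃ m ∈ std22, s ⊆ unm m := cover_of_collect std22_cov

end Cfsg.Agent.Lib.Helper10
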