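import Cfsg.Agent.Lib.Helper10.Data23
import Cfsg.Agent.Lib.Helper10.Design22
import Cfsg.Agent.S0351
import Cfsg.Agent.S0355

set_option autoImplicit false

namespace Cfsg.Agent.Lib.Helper10

open Cfsg Cfsg.Agent.Lib.Helper94

theorem subs23_ok : collect (fun _ => true) 23 3 0 [] = subs23 := by decide +kernel
theorem perms23_ok : allL (permOKv 23) perms23 = true := by decide +kernel
theorem std23_lt : allL (fun m => Nat.ble (Nat.succ m) 16777216) std23 = true := by decide +kernel
theorem std23_cov : collect (fun T => bNot (covered T std23)) 23 4 0 [] = [] := by decide +kernel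
theorem st23_eq : std22.map (fun m => Nat.lor m (2 ^ 22)) = st23 := by decide +kernel
theorem solve23 : solve 23 4 10 applyM subs23 [] (leafOK std23 perms23) ts23 st23 = true := by
  decide +kernel

/-- every S(4,7,23) can be numbered so as to become the standard one. -/
theorem labelled23 {α : Type*} [Fintype α] [DecidableEq α] (hα : Fintype.card α = 23)
    {B : Set (Finset α)} (hB : IsSteinerSystem 4 7 B) : Labelled 23 std23 B := by
  have hne : Nonempty α := Fintype.card_pos_iff.1 (by omega)
  obtain ⟨p⟩ := hne
  have hder := Cfsg.Agent.S0351.result (t := 3) (k := 6) hB p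
  have hcard : Fintype.card {a : α // a ≠ p} = 22 := by
    rw [Fintype.card_subtype_compl, hα]
    simp
  obtain ⟨f, hf, hlt, hm⟩ := chain_labelling (v := 22) (by norm_num) std22_lt p
    (labelled22 hcard hder)
  refine labelled_of_goal (t := 4) (k := 7) (J := 10) (st := st23) (by norm_num) hα hB ?_
    (solve_goal (by norm_num) subs23_ok rfl perms23_ok std23_lt solve23) hf hlt ?_
  · intro b hb c hc hbc
    rcases Cfsg.Agent.S0355.result hα hB hb hc hbc with h | h <;> rw [h] <;> rfl
  · intro m hmem
    rw [← st23_eq, List.mem_map] at hmem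
    obtain ⟨m0, hm0, rfl⟩ := hmem
    exact hm m0 hm0

theorem cover23 : ∀ s : Finset GolayPt, (∀ p ∈ s, enc p < 23) → s.card = 4 →
    ∃ m ∈ std23, s ⊆ unm m := cover_of_collect std23_cov

end Cfsg.Agent.Lib.Helper10
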