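import Cfsg.Agent.Lib.Helper10.Design23
import Cfsg.Agent.Lib.Helper9.GolaySteiner
import Cfsg.Agent.S0352
import Cfsg.Agent.S0353

set_option autoImplicit false

namespace Cfsg.Agent.Lib.Helper10

open Cfsg Cfsg.Agent.Lib.Helper94

theorem std23_oct : allL (fun m => memN (Nat.lor m (2 ^ 23)) octadL) std23 = true := by
  decide +kernel

theorem cover24 : ∀ s : Finset GolayPt, (∀ p ∈ s, enc p < 24) → s.card = 5 →
    ∃ m ∈ octadL, s ⊆ unm m := by
  intro s _ hs
  obtain ⟨o, ⟨ho, hso⟩, _⟩ := Cfsg.Agent.Lib.Helper9.octads_steiner.2 s hs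
  exact ⟨msk o, (mem_octads_iff o).1 ho, by rw [unm_msk]; exact hso⟩

/-- every S(5,8,24) can be numbered so that its blocks become the octads. -/
theorem labelled24' {α : Type*} [Fintype α] [DecidableEq α] (hα : Fintype.card α = 24)
    {B : Set (Finset α)} (hB : IsSteinerSystem 5 8 B) :
    ∃ f : α → GolayPt, Function.Injective f ∧ ∀ b ∈ B, b.image f ∈ octads := by
  have hne : Nonempty α := Fintype.card_pos_iff.1 (by omega)
  obtain ⟨p⟩ := hne
  have hder := Cfsg.Agent.S0351.result (t := 4) (k := 7) hB p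
  have hcard : Fintype.card {a : α // a ≠ p} = 23 := by
    rw [Fintype.card_subtype_compl, hα]
    simp
  obtain ⟨f, hf, hlt, hm⟩ := chain_labelling (v := 23) (by norm_num) std23_lt p
    (labelled23 hcard hder)
  refine ⟨f, hf, ?_⟩
  obtain ⟨a0, ha0⟩ := labelling_surj (v := 24) (by norm_num) hα hf hlt (pt 23)
    (by rw [enc_pt (by norm_num)]; norm_num)
  have hoct := (allL_iff _ _).1 std23_oct
  -- blocks through `a0`
  have h1 : ∀ b ∈ B, a0 ∈ b → b.image f ∈ octads := by
    intro b hb hab
    have hcb : (b.erase a0).card = 7 := by rw [Finset.card_erase_of_mem hab, hB.1 b hb]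
    obtain ⟨s, hsb, hs⟩ := Finset.exists_subset_card_eq (s := b.erase a0) (n := 4) (by omega)
    have ha0s : a0 ∉ s := fun h => (Finset.mem_erase.1 (hsb h)).1 rfl
    obtain ⟨m, hmem, hsm⟩ := cover23 (s.image f) (by
      intro q hq
      obtain ⟨a, ha, rfl⟩ := Finset.mem_image.1 hq
      have h2 := hlt a
      have h3 : enc (f a) ≠ 23 := by
        intro h
        have : f a = pt 23 := by rw [← h, pt_enc]
        rw [← ha0] at this
        exact ha0s (hf this ▸ ha)
      omega) (by rw [Finset.card_image_of_injective _ hf, hs])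
    obtain ⟨b1, hb1, hb1m⟩ := hm m hmem
    have hmo : Nat.lor m (2 ^ 23) ∈ octadL := (memN_iff _ _).1 (hoct m hmem)
    have hb1o : b1.image f = unm (Nat.lor m (2 ^ 23)) := by
      rw [← hb1m, unm_msk]
    have hsub : insert a0 s ⊆ b1 := by
      intro a ha
      have h2 : f a ∈ b1.image f := by
        rw [hb1o, Nat.lor_eq, unm_union, Finset.mem_union]
        rcases Finset.mem_insert.1 ha with rfl | ha
        · right
          rw [ha0, mem_unm, enc_pt (by norm_num)]
          exact Nat.testBit_two_pow_self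
        · left
          exact hsm (Finset.mem_image_of_mem f ha)
      obtain ⟨a', ha', haa⟩ := Finset.mem_image.1 h2
      rw [← hf haa]
      exact ha'
    have hsub' : insert a0 s ⊆ b := by
      intro a ha
      rcases Finset.mem_insert.1 ha with rfl | ha
      · exact hab
      · exact (Finset.mem_erase.1 (hsb ha)).2
    obtain ⟨d, _, hd⟩ := hB.2 (insert a0 s) (by rw [Finset.card_insert_of_notMem ha0s, hs])
    rw [hd b ⟨hb, hsub'⟩, ← hd b1 ⟨hb1, hsub⟩, hb1o]
    exact unm_mem_octads hmo
  intro b hb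
  by_cases hab : a0 ∈ b
  · exact h1 b hb hab
  · obtain ⟨T, hTb, hT⟩ := Finset.exists_subset_card_eq (s := b) (n := 4) (by rw [hB.1 b hb]; norm_num)
    have ha0T : a0 ∉ T := fun h => hab (hTb h)
    obtain ⟨c, ⟨hc, hTc⟩, _⟩ := hB.2 (insert a0 T) (by rw [Finset.card_insert_of_notMem ha0T, hT])
    have hac : a0 ∈ c := hTc (Finset.mem_insert_self _ _)
    have hbc : b ≠ c := fun h => hab (h ▸ hac)
    have h4 : (b ∩ c).card = 4 := by
      have hge : 4 ≤ (b ∩ c).card := by
        rw [← hT]
        apply Finset.card_le_card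
        intro a ha
        exact Finset.mem_inter.2 ⟨hTb ha, hTc (Finset.mem_insert_of_mem ha)⟩
      rcases Cfsg.Agent.S0352.result hα hB hb hc hbc with h | h | h <;> omega
    have hd : symmDiff b c ∈ B := Cfsg.Agent.S0353.result hα hB hb hc h4
    have had : a0 ∈ symmDiff b c := by
      rw [Finset.mem_symmDiff]
      exact Or.inr ⟨hac, hab⟩
    have hbe : b = symmDiff c (symmDiff b c) := by
      rw [symmDiff_comm b c, symmDiff_symmDiff_cancel_left]
    have hco := h1 c hc hac
    have hdo := h1 _ hd had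
    refine ⟨?_, by rw [Finset.card_image_of_injective _ hf, hB.1 b hb]⟩
    have himg : b.image f = symmDiff (c.image f) ((symmDiff b c).image f) := by
      rw [← Finset.image_symmDiff _ _ hf, ← hbe]
    rw [himg]
    exact symmDiff_mem_supports hco.1 hdo.1

theorem labelled24 {α : Type*} [Fintype α] [DecidableEq α] (hα : Fintype.card α = 24)
    {B : Set (Finset α)} (hB : IsSteinerSystem 5 8 B) : Labelled 24 octadL B := by
  obtain ⟨f, hf, hfo⟩ := labelled24' hα hB
  have hlt : ∀ a, enc (f a) < 24 := fun a => enc_lt _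
  refine ⟨f, hf, hlt, ?_⟩
  intro m hmem
  have hmo : unm m ∈ octads := unm_mem_octads hmem
  obtain ⟨s, hsm, hs⟩ := Finset.exists_subset_card_eq (s := unm m) (n := 5) (by rw [hmo.2]; norm_num)
  have hsurj := labelling_surj (v := 24) (by norm_num) hα hf hlt
  have himg : (Finset.univ.filter (fun a => f a ∈ s)).image f = s := by
    ext q
    simp only [Finset.mem_image, Finset.mem_filter, Finset.mem_univ, true_and]
    constructor
    · rintro ⟨a, ha, rfl⟩; exact ha
    · intro hq
      obtain ⟨a, rfl⟩ := hsurj q (enc_lt q)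
      exact ⟨a, hq, rfl⟩
  have hcard : (Finset.univ.filter (fun a => f a ∈ s)).card = 5 := by
    rw [← hs, ← himg, Finset.card_image_of_injective _ hf, himg]
  obtain ⟨b, ⟨hb, hsb⟩, _⟩ := hB.2 _ hcard
  refine ⟨b, hb, ?_⟩
  apply octad_eq_of_inter (hfo b hb) hmo
  rw [← hs]
  apply Finset.card_le_card
  intro q hq
  rw [Finset.mem_inter]
  refine ⟨?_, hsm hq⟩
  rw [← himg] at hq
  exact Finset.image_subset_image hsb hq

end Cfsg.Agent.Lib.Helper10
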