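import Cfsg.Prelude.Def_Sporadic_a

set_option autoImplicit false

namespace Cfsg.Agent.Lib.Helper10

open Finset Cfsg

section
variable {α : Type*} [DecidableEq α]

/-- The number of `t`-subsets `T` with `S ⊆ T ⊆ b`. -/
theorem card_between (S b : Finset α) (hS : S ⊆ b) (t : ℕ) (ht : S.card ≤ t) :
    ((b.powersetCard t).filter (fun T => S ⊆ T)).card
      = (b.card - S.card).choose (t - S.card) := by
  rw [← card_sdiff_of_subset hS, ← card_powersetCard]
  apply card_nbij' (fun T => T \ S) (fun U => U ∪ S)
  · intro T hT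
    rw [mem_coe, mem_filter, mem_powersetCard] at hT
    rw [mem_coe, mem_powersetCard]
    refine ⟨sdiff_subset_sdiff hT.1.1 (le_refl S), ?_⟩
    rw [card_sdiff_of_subset hT.2, hT.1.2]
  · intro U hU
    rw [mem_coe, mem_powersetCard] at hU
    rw [mem_coe, mem_filter, mem_powersetCard]
    have hd : Disjoint U S := disjoint_of_subset_left hU.1 sdiff_disjoint
    refine ⟨⟨union_subset (hU.1.trans sdiff_subset) hS, ?_⟩, subset_union_right⟩
    rw [card_union_of_disjoint hd, hU.2]
    omega
  · intro T hT
    rw [mem_coe, mem_filter, mem_powersetCard] at hT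
    exact sdiff_union_of_subset hT.2
  · intro U hU
    rw [mem_coe, mem_powersetCard] at hU
    have hd : Disjoint U S := disjoint_of_subset_left hU.1 sdiff_disjoint
    exact union_sdiff_cancel_right hd

variable [Fintype α]

open Classical in
/-- The blocks of `B` containing `S`, as a finset. -/
noncomputable def blocksThrough (B : Set (Finset α)) (S : Finset α) : Finset (Finset α) :=
  univ.filter (fun b => b ∈ B ∧ S ⊆ b)

theorem mem_blocksThrough {B : Set (Finset α)} {S b : Finset α} :
    b ∈ blocksThrough B S ↔ b ∈ B ∧ S ⊆ b := by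
  classical
  simp [blocksThrough]

theorem mem_blocksThrough_empty {B : Set (Finset α)} {b : Finset α} :
    b ∈ blocksThrough B ∅ ↔ b ∈ B := by
  simp [mem_blocksThrough]

theorem blocksThrough_filter (B : Set (Finset α)) (S I : Finset α) :
    (blocksThrough B S).filter (fun d => I ⊆ d) = blocksThrough B (S ∪ I) := by
  ext d
  simp only [mem_filter, mem_blocksThrough, union_subset_iff, and_assoc]

/-- Number of blocks through an `i`-set, `i ≤ t`. -/
theorem steiner_count {t k : ℕ} {B : Set (Finset α)} (hB : IsSteinerSystem t k B)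
    (S : Finset α) (hS : S.card ≤ t) :
    (blocksThrough B S).card * (k - S.card).choose (t - S.card)
      = (Fintype.card α - S.card).choose (t - S.card) := by
  have key := sum_card_bipartiteAbove_eq_sum_card_bipartiteBelow
    (s := ((univ : Finset α).powersetCard t).filter (fun T => S ⊆ T))
    (t := blocksThrough B S) (fun T b => T ⊆ b)
  have h1 : ∀ T ∈ ((univ : Finset α).powersetCard t).filter (fun T => S ⊆ T),
      ((blocksThrough B S).bipartiteAbove (fun T b => T ⊆ b) T).card = 1 := by
    intro T hT
    rw [mem_filter, mem_powersetCard] at hT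
    obtain ⟨b, ⟨hb1, hb2⟩, hb3⟩ := hB.2 T hT.1.2
    rw [card_eq_one]
    refine ⟨b, ?_⟩
    ext c
    rw [mem_bipartiteAbove, mem_blocksThrough, mem_singleton]
    constructor
    · rintro ⟨⟨hc1, _⟩, hc3⟩
      exact hb3 c ⟨hc1, hc3⟩
    · rintro rfl
      exact ⟨⟨hb1, hT.2.trans hb2⟩, hb2⟩
  have h2 : ∀ b ∈ blocksThrough B S,
      ((((univ : Finset α).powersetCard t).filter (fun T => S ⊆ T)).bipartiteBelow
        (fun T b => T ⊆ b) b).card = (k - S.card).choose (t - S.card) := by
    intro b hb
    rw [mem_blocksThrough] at hb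
    rw [← hB.1 b hb.1, ← card_between S b hb.2 t hS]
    congr 1
    ext T
    simp only [mem_bipartiteBelow, mem_filter, mem_powersetCard, subset_univ, true_and]
    tauto
  rw [sum_congr rfl h1, sum_congr rfl h2, sum_const, sum_const, smul_eq_mul, smul_eq_mul,
    mul_one, card_between S univ (subset_univ S) t hS, card_univ] at key
  exact key.symm

/-- Moment equation. -/
theorem steiner_moment (B : Set (Finset α)) (S X : Finset α) (i L : ℕ)
    (hL : ∀ I ∈ X.powersetCard i, (blocksThrough B (S ∪ I)).card = L) :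
    ∑ d ∈ blocksThrough B S, ((d ∩ X).card).choose i = (X.card).choose i * L := by
  have key := sum_card_bipartiteAbove_eq_sum_card_bipartiteBelow
    (s := X.powersetCard i) (t := blocksThrough B S) (fun I d => I ⊆ d)
  have h1 : ∀ I ∈ X.powersetCard i,
      ((blocksThrough B S).bipartiteAbove (fun I d => I ⊆ d) I).card = L := by
    intro I hI
    rw [← hL I hI, ← blocksThrough_filter]
    rfl
  have h2 : ∀ d ∈ blocksThrough B S,
      ((X.powersetCard i).bipartiteBelow (fun I d => I ⊆ d) d).card
        = ((d ∩ X).card).choose i := by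
    intro d _
    rw [← card_powersetCard]
    congr 1
    ext I
    simp only [mem_bipartiteBelow, mem_powersetCard, subset_inter_iff]
    tauto
  rw [sum_congr rfl h1, sum_congr rfl h2, sum_const, smul_eq_mul, card_powersetCard] at key
  exact key.symm

/-- Two blocks sharing `t` points are equal. -/
theorem steiner_inter_lt {t k : ℕ} {B : Set (Finset α)} (hB : IsSteinerSystem t k B)
    {b c : Finset α} (hb : b ∈ B) (hc : c ∈ B) (hbc : b ≠ c) : (b ∩ c).card < t := by
  by_contra h
  push Not at h
  obtain ⟨I, hI1, hI2⟩ := exists_subset_card_eq h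
  obtain ⟨d, _, hd⟩ := hB.2 I hI2
  apply hbc
  rw [hd b ⟨hb, hI1.trans inter_subset_left⟩, hd c ⟨hc, hI1.trans inter_subset_right⟩]

theorem coe_blocksThrough_empty (B : Set (Finset α)) :
    (↑(blocksThrough B ∅) : Set (Finset α)) = B := by
  ext b
  rw [mem_coe, mem_blocksThrough_empty]

theorem ncard_eq_card_blocksThrough (B : Set (Finset α)) :
    B.ncard = (blocksThrough B ∅).card := by
  conv_lhs => rw [← coe_blocksThrough_empty B]
  exact Set.ncard_coe_finset _

theorem ncard_sep_eq_card_filter (B : Set (Finset α)) (P : Finset α → Prop) [DecidablePred P] :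
    {c : Finset α | c ∈ B ∧ P c}.ncard = ((blocksThrough B ∅).filter P).card := by
  have : {c : Finset α | c ∈ B ∧ P c} = ↑((blocksThrough B ∅).filter P) := by
    ext c
    rw [mem_coe, mem_filter, mem_blocksThrough_empty]
    rfl
  rw [this]
  exact Set.ncard_coe_finset _

end

section sums
variable {β : Type*} [DecidableEq β]

theorem vanish_of_sum (F : Finset β) (b : β) (hb : b ∈ F) (f : β → ℤ)
    (hsum : ∑ d ∈ F, f d = f b) (hnn : ∀ d ∈ F, d ≠ b → 0 ≤ f d) :
    ∀ d ∈ F, d ≠ b → f d = 0 := by
  have h1 : ∑ d ∈ F.erase b, f d = 0 := by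
    have := add_sum_erase F f hb
    linarith
  have h2 := (sum_eq_zero_iff_of_nonneg (s := F.erase b) (f := f) (by
    intro d hd
    rw [mem_erase] at hd
    exact hnn d hd.2 hd.1)).1 h1
  intro d hd hdb
  exact h2 d (mem_erase.2 ⟨hdb, hd⟩)

theorem card_filter_eq_sum (F : Finset β) (P : β → Prop) [DecidablePred P] (f : β → ℤ)
    (hf : ∀ d ∈ F, f d = if P d then 1 else 0) :
    ((F.filter P).card : ℤ) = ∑ d ∈ F, f d := by
  rw [sum_congr rfl hf, sum_boole]

theorem mul_card_filter_eq_sum (F : Finset β) (P : β → Prop) [DecidablePred P] (f : β → ℤ)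
    (w : ℤ) (hf : ∀ d ∈ F, f d = if P d then w else 0) :
    w * ((F.filter P).card : ℤ) = ∑ d ∈ F, f d := by
  rw [sum_congr rfl hf, ← sum_filter, sum_const, nsmul_eq_mul, mul_comm]

theorem disjoint_iff_card_inter {γ : Type*} [DecidableEq γ] (b d : Finset γ) :
    Disjoint b d ↔ (d ∩ b).card = 0 := by
  rw [card_eq_zero, inter_comm, disjoint_iff_inter_eq_empty]

end sums

end Cfsg.Agent.Lib.Helper10
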