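import Cfsg.Agent.Lib.Helper10.DesignSolver
import Cfsg.Agent.Lib.Helper10.Steiner

set_option autoImplicit false
open scoped Pointwise

namespace Cfsg.Agent.Lib.Helper10

open Cfsg Cfsg.Agent.Lib.Helper94

/-! ### the goal of a search, and its leaves -/

/-- some permutation of the first `v` points carries the standard blocks into `𝓑`. -/
def Goal (v : ℕ) (std : List ℕ) (𝓑 : Set (Finset GolayPt)) : Prop :=
  ∃ g : Equiv.Perm GolayPt, (∀ p, v ≤ enc p → g p = p) ∧ ∀ m ∈ std, g • unm m ∈ 𝓑

theorem Goal.perm {v : ℕ} {std : List ℕ} (π : Equiv.Perm GolayPt) (𝓑 : Set (Finset GolayPt))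
    (hπ : ∀ p, v ≤ enc p → π p = p) (h : Goal v std {b | π • b ∈ 𝓑}) : Goal v std 𝓑 := by
  obtain ⟨g, hg, hm⟩ := h
  refine ⟨π * g, ?_, ?_⟩
  · intro p hp
    rw [Equiv.Perm.mul_apply, hg p hp, hπ p hp]
  · intro m hmem
    have := hm m hmem
    rw [mul_smul]
    exact this

/-- `P` is the code of a permutation fixing the points from `v` on. -/
noncomputable def permOKv (v P : ℕ) : Bool :=
  bAnd (validM P) (allL (fun i => bOr (Nat.ble (Nat.succ i) v)
    (Nat.beq (applyM P (Nat.pow 2 i)) (Nat.pow 2 i))) (List.range 24))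

theorem permOKv_spec {v P : ℕ} (h : permOKv v P = true) :
    validM P = true ∧ ∀ p, v ≤ enc p → permOf P p = p := by
  rw [permOKv, bAnd_iff, allL_iff] at h
  refine ⟨h.1, ?_⟩
  intro p hp
  have h1 := h.2 (enc p) (List.mem_range.2 (enc_lt p))
  rw [bOr_iff, Nat.ble_eq, Nat.beq_eq] at h1
  rcases h1 with h1 | h1
  · omega
  · exact (permOf_apply_eq_iff h.1 p p).2 h1

/-- `P` is moreover an involution. -/
noncomputable def symOK (v P : ℕ) : Bool :=
  bAnd (permOKv v P) (allL (fun i => Nat.beq (applyM P (applyM P (Nat.pow 2 i))) (Nat.pow 2 i))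
    (List.range 24))

theorem symOK_spec {v P : ℕ} (h : symOK v P = true) :
    validM P = true ∧ permOf P * permOf P = 1 ∧ ∀ p, v ≤ enc p → permOf P p = p := by
  rw [symOK, bAnd_iff, allL_iff] at h
  obtain ⟨h1, h2⟩ := permOKv_spec h.1
  refine ⟨h1, ?_, h2⟩
  ext1 p
  rw [Equiv.Perm.mul_apply, Equiv.Perm.one_apply]
  have h3 := h.2 (enc p) (List.mem_range.2 (enc_lt p))
  rw [Nat.beq_eq] at h3
  have h4 : applyM P (applyM P (2 ^ enc p)) = 2 ^ enc p := h3
  rw [← permOf_apply h1] at h4
  exact (permOf_apply_eq_iff h1 _ _).2 h4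

/-- one of the permutations of the list maps the standard blocks into `st`. -/
noncomputable def leafOK (std perms st : List ℕ) : Bool :=
  anyL (fun P => mapsInto applyM P st std) perms

theorem leafOK_iff (std st l : List ℕ) :
    leafOK std l st = true ↔ ∃ P ∈ l, ∀ m ∈ std, applyM P m ∈ st := by
  rw [leafOK, anyL_iff]
  simp only [mapsInto_iff]

theorem mem_subs {v j : ℕ} {subs : List ℕ} (h : collect (fun _ => true) v j 0 [] = subs) :
    ∀ s : Finset GolayPt, (∀ p ∈ s, enc p < v) → s.card = j → msk s ∈ subs := by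
  intro s hs hc
  have := collect_sound (fun _ => true) v j 0 [] s hs (by intro p _; simp) hc rfl
  rwa [Nat.zero_or, h] at this

theorem solve_goal {v t k J : ℕ} {subs syms perms std Ts st : List ℕ} (hv : v ≤ 24)
    (hsubs : collect (fun _ => true) v (k - t) 0 [] = subs)
    (hsyms : allL (symOK v) syms = true) (hperms : allL (permOKv v) perms = true)
    (hstd : allL (fun m => Nat.ble (Nat.succ m) 16777216) std = true)
    (h : solve v t J applyM subs syms (leafOK std perms) Ts st = true) :
    ∀ 𝓑 : Set (Finset GolayPt), Sys v t k J 𝓑 → (∀ m ∈ st, ∃ b ∈ 𝓑, msk b = m) →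
      Goal v std 𝓑 := by
  rw [allL_iff] at hsyms hperms hstd
  apply solve_sound (G := Goal v std) hv (mem_subs hsubs) (fun P hP => by
    obtain ⟨h1, h2, h3⟩ := symOK_spec (hsyms P hP)
    exact ⟨permOf P, h2, h3, fun s => applyM_permOf h1 s, fun 𝓑 hg => Goal.perm _ 𝓑 h3 hg⟩)
    _ Ts st h
  intro st 𝓑 _ hst hl
  rw [leafOK_iff] at hl
  obtain ⟨P, hP, hm⟩ := hl
  obtain ⟨hval, hfix⟩ := permOKv_spec (hperms P hP)
  refine ⟨permOf P, hfix, ?_⟩
  intro m hmem
  obtain ⟨b, hb, hbm⟩ := hst _ (hm m hmem)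
  have hlt : m < 2 ^ 24 := by
    have := hstd m hmem
    rw [Nat.ble_eq] at this
    omega
  have : b = permOf P • unm m := by
    apply msk_injective
    rw [hbm, applyM_permOf hval, msk_unm hlt]
  rw [← this]
  exact hb

/-- the standard blocks cover all `t`-sets: a test. -/
theorem cover_of_collect {v t : ℕ} {std : List ℕ}
    (hcov : collect (fun T => bNot (covered T std)) v t 0 [] = []) :
    ∀ s : Finset GolayPt, (∀ p ∈ s, enc p < v) → s.card = t → ∃ m ∈ std, s ⊆ unm m := by
  intro s hs hc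
  have hc : covered (msk s) std = true := by
    by_contra hc'
    have := collect_sound (fun T => bNot (covered T std)) v t 0 [] s hs (by intro p _; simp) hc
      (by rw [Nat.zero_or, bNot_iff]; simpa using hc')
    rw [hcov] at this
    exact absurd this (by simp)
  rw [covered_iff] at hc
  obtain ⟨m, hmem, hmT⟩ := hc
  refine ⟨m, hmem, ?_⟩
  intro p hp
  rw [mem_unm]
  have h2 : (msk s).testBit (enc p) = true := by
    rw [testBit_msk]
    simpa using hp
  rw [← hmT, Nat.testBit_and, Bool.and_eq_true] at h2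
  exact h2.1

/-! ### abstract Steiner systems -/

theorem card_filter_enc_lt : ∀ v : Fin 25,
    (Finset.univ.filter (fun p : GolayPt => enc p < (v : ℕ))).card = (v : ℕ) := by
  decide +kernel

section abstract
set_option linter.unusedSectionVars false
variable {α : Type*} [Fintype α] [DecidableEq α]

theorem labelling_surj {v : ℕ} (hv : v ≤ 24) (hα : Fintype.card α = v) {f : α → GolayPt}
    (hf : Function.Injective f) (hlt : ∀ a, enc (f a) < v) :
    ∀ p, enc p < v → ∃ a, f a = p := by
  have h1 : Finset.univ.image f = Finset.univ.filter (fun p : GolayPt => enc p < v) := by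
    apply Finset.eq_of_subset_of_card_le
    · intro p hp
      obtain ⟨a, _, rfl⟩ := Finset.mem_image.1 hp
      simp [hlt a]
    · rw [Finset.card_image_of_injective _ hf, Finset.card_univ, hα]
      exact le_of_eq (card_filter_enc_lt ⟨v, by omega⟩)
  intro p hp
  have : p ∈ Finset.univ.image f := by rw [h1]; simp [hp]
  obtain ⟨a, _, ha⟩ := Finset.mem_image.1 this
  exact ⟨a, ha⟩

theorem sys_of_labelling {v t k J : ℕ} (hv : v ≤ 24) (hα : Fintype.card α = v)
    {B : Set (Finset α)} (hB : IsSteinerSystem t k B)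
    (hJ : ∀ b ∈ B, ∀ c ∈ B, b ≠ c → (J >>> (b ∩ c).card) &&& 1 = 1)
    {f : α → GolayPt} (hf : Function.Injective f) (hlt : ∀ a, enc (f a) < v) :
    Sys v t k J ((fun b => b.image f) '' B) := by
  constructor
  · rintro _ ⟨b, hb, rfl⟩
    show (b.image f).card = k
    rw [Finset.card_image_of_injective _ hf, hB.1 b hb]
  · rintro _ ⟨b, hb, rfl⟩ p hp
    obtain ⟨a, _, rfl⟩ := Finset.mem_image.1 hp
    exact hlt a
  · intro s hs hp
    have hsurj := labelling_surj hv hα hf hlt
    have himg : (Finset.univ.filter (fun a => f a ∈ s)).image f = s := by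
      ext p
      simp only [Finset.mem_image, Finset.mem_filter, Finset.mem_univ, true_and]
      constructor
      · rintro ⟨a, ha, rfl⟩; exact ha
      · intro hps
        obtain ⟨a, rfl⟩ := hsurj p (hp p hps)
        exact ⟨a, hps, rfl⟩
    have hcard : (Finset.univ.filter (fun a => f a ∈ s)).card = t := by
      rw [← hs, ← himg, Finset.card_image_of_injective _ hf, himg]
    obtain ⟨b, ⟨hb, hsb⟩, _⟩ := hB.2 _ hcard
    refine ⟨b.image f, ⟨b, hb, rfl⟩, ?_⟩
    rw [← himg]
    exact Finset.image_subset_image hsb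
  · rintro _ ⟨b, hb, rfl⟩ _ ⟨c, hc, rfl⟩ hbc
    show (J >>> (b.image f ∩ c.image f).card) &&& 1 = 1
    rw [← Finset.image_inter _ _ hf, Finset.card_image_of_injective _ hf]
    exact hJ b hb c hc (fun e => hbc (by rw [e]))

/-- the points can be numbered so that the standard blocks are blocks. -/
def Labelled (v : ℕ) (std : List ℕ) (B : Set (Finset α)) : Prop :=
  ∃ f : α → GolayPt, Function.Injective f ∧ (∀ a, enc (f a) < v) ∧
    ∀ m ∈ std, ∃ b ∈ B, b.image f = unm m

theorem labelled_of_goal {v t k J : ℕ} {std st : List ℕ} (hv : v ≤ 24)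
    (hα : Fintype.card α = v) {B : Set (Finset α)} (hB : IsSteinerSystem t k B)
    (hJ : ∀ b ∈ B, ∀ c ∈ B, b ≠ c → (J >>> (b ∩ c).card) &&& 1 = 1)
    (hsolve : ∀ 𝓑 : Set (Finset GolayPt), Sys v t k J 𝓑 → (∀ m ∈ st, ∃ b ∈ 𝓑, msk b = m) →
      Goal v std 𝓑)
    {f : α → GolayPt} (hf : Function.Injective f) (hlt : ∀ a, enc (f a) < v)
    (hst : ∀ m ∈ st, ∃ b ∈ B, msk (b.image f) = m) : Labelled v std B := by
  obtain ⟨g, hg, hm⟩ := hsolve _ (sys_of_labelling hv hα hB hJ hf hlt) (by
    intro m hmem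
    obtain ⟨b, hb, hbm⟩ := hst m hmem
    exact ⟨b.image f, ⟨b, hb, rfl⟩, hbm⟩)
  have hginv : ∀ p, v ≤ enc p → g⁻¹ p = p := by
    intro p hp
    rw [Equiv.Perm.inv_eq_iff_eq, hg p hp]
  refine ⟨fun a => g⁻¹ (f a), fun a b hab => hf (g⁻¹.injective hab),
    fun a => enc_perm_lt hginv (hlt a), ?_⟩
  intro m hmem
  obtain ⟨b, hb, hbm⟩ := hm m hmem
  refine ⟨b, hb, ?_⟩
  have hbm' : b.image f = g • unm m := hbm
  have : b.image (fun a => g⁻¹ (f a)) = g⁻¹ • (b.image f) := by
    rw [Finset.smul_finset_def, Finset.image_image]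
    rfl
  rw [this, hbm', inv_smul_smul]

theorem exists_labelling {v : ℕ} (hv : v ≤ 24) (hα : Fintype.card α = v) :
    ∃ f : α → GolayPt, Function.Injective f ∧ ∀ a, enc (f a) < v := by
  let e := Fintype.equivFinOfCardEq hα
  refine ⟨fun a => pt (e a), ?_, ?_⟩
  · intro a b hab
    have h1 : enc (pt (e a)) = enc (pt (e b)) := congrArg enc hab
    rw [enc_pt (by omega), enc_pt (by omega)] at h1
    exact e.injective (Fin.ext h1)
  · intro a
    show enc (pt (e a)) < v
    rw [enc_pt (by omega)]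
    exact (e a).2

/-- every block is a standard block, if the standard blocks cover all `t`-sets. -/
theorem labelled_block {v t k : ℕ} {std : List ℕ} {B : Set (Finset α)}
    (hB : IsSteinerSystem t k B) (htk : t ≤ k)
    (hcov : ∀ s : Finset GolayPt, (∀ p ∈ s, enc p < v) → s.card = t → ∃ m ∈ std, s ⊆ unm m)
    {f : α → GolayPt} (hf : Function.Injective f) (hlt : ∀ a, enc (f a) < v)
    (hm : ∀ m ∈ std, ∃ b ∈ B, b.image f = unm m) :
    ∀ b ∈ B, ∃ m ∈ std, b.image f = unm m := by
  intro b hb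
  obtain ⟨s, hsb, hs⟩ := Finset.exists_subset_card_eq (s := b) (n := t) (by rw [hB.1 b hb]; exact htk)
  obtain ⟨m, hmem, hmT⟩ := hcov (s.image f) (by
      intro p hp
      obtain ⟨a, _, rfl⟩ := Finset.mem_image.1 hp
      exact hlt a) (by rw [Finset.card_image_of_injective _ hf, hs])
  obtain ⟨b1, hb1, hb1m⟩ := hm m hmem
  refine ⟨m, hmem, ?_⟩
  have hsub : s ⊆ b1 := by
    intro a ha
    have h1 : f a ∈ unm m := hmT (Finset.mem_image_of_mem f ha)
    rw [← hb1m] at h1
    obtain ⟨a', ha', haa⟩ := Finset.mem_image.1 h1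
    rw [← hf haa]
    exact ha'
  obtain ⟨d, _, hd⟩ := hB.2 s hs
  rw [hd b ⟨hb, hsb⟩, ← hd b1 ⟨hb1, hsub⟩]
  exact hb1m

end abstract

theorem iso_of_labelled {α β : Type*} [Fintype α] [DecidableEq α] [Fintype β] [DecidableEq β]
    {v t k : ℕ} {std : List ℕ} (hv : v ≤ 24) (hα : Fintype.card α = v) (hβ : Fintype.card β = v)
    {B : Set (Finset α)} {B' : Set (Finset β)}
    (hB : IsSteinerSystem t k B) (hB' : IsSteinerSystem t k B') (htk : t ≤ k)
    (hcov : ∀ s : Finset GolayPt, (∀ p ∈ s, enc p < v) → s.card = t → ∃ m ∈ std, s ⊆ unm m)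
    (L : Labelled v std B) (L' : Labelled v std B') : SetSystemIso B B' := by
  obtain ⟨f, hf, hlt, hm⟩ := L
  obtain ⟨f', hf', hlt', hm'⟩ := L'
  have hsurj' := labelling_surj hv hβ hf' hlt'
  have hsurj := labelling_surj hv hα hf hlt
  -- the bijection
  choose e he using fun a => hsurj' (f a) (hlt a)
  have hebij : Function.Bijective e := by
    rw [Fintype.bijective_iff_injective_and_card]
    refine ⟨?_, by rw [hα, hβ]⟩
    intro a b hab
    apply hf
    rw [← he a, ← he b, hab]
  have key : ∀ (b : Finset α) (b' : Finset β), b.image f = b'.image f' → b.image e = b' := by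
    intro b b' h
    apply Finset.image_injective hf'
    rw [Finset.image_image, ← h]
    apply Finset.image_congr
    intro a _
    exact he a
  refine ⟨Equiv.ofBijective e hebij, ?_⟩
  ext c
  constructor
  · rintro ⟨b, hb, rfl⟩
    obtain ⟨m, hmem, hbm⟩ := labelled_block hB htk hcov hf hlt hm b hb
    obtain ⟨b', hb', hbm'⟩ := hm' m hmem
    have := key b b' (by rw [hbm, hbm'])
    show b.image e ∈ B'
    rw [this]
    exact hb'
  · intro hc
    obtain ⟨m, hmem, hcm⟩ := labelled_block hB' htk hcov hf' hlt' hm' c hc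
    obtain ⟨b, hb, hbm⟩ := hm m hmem
    exact ⟨b, hb, key b c (by rw [hbm, hcm])⟩


/-- from a numbering of the derived design at `p` to a numbering of the design. -/
theorem chain_labelling {α : Type*} [Fintype α] [DecidableEq α] {v : ℕ} {std : List ℕ}
    (hv : v < 24) (hstd : allL (fun m => Nat.ble (Nat.succ m) 16777216) std = true)
    {B : Set (Finset α)} (p : α)
    (L : Labelled v std {b' : Finset {a : α // a ≠ p} |
      ∃ b ∈ B, p ∈ b ∧ b' = Finset.subtype (fun a => a ≠ p) b}) :
    ∃ f : α → GolayPt, Function.Injective f ∧ (∀ a, enc (f a) < v + 1) ∧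
      ∀ m ∈ std, ∃ b ∈ B, msk (b.image f) = Nat.lor m (2 ^ v) := by
  obtain ⟨f', hf', hlt', hm'⟩ := L
  rw [allL_iff] at hstd
  refine ⟨fun a => if h : a = p then pt v else f' ⟨a, h⟩, ?_, ?_, ?_⟩
  · intro a b hab
    by_cases ha : a = p <;> by_cases hb : b = p
    · rw [ha, hb]
    · simp only [ha, hb, dif_pos, dif_neg, not_false_eq_true] at hab
      have h1 := hlt' ⟨b, hb⟩
      rw [← hab, enc_pt hv] at h1
      omega
    · simp only [ha, hb, dif_pos, dif_neg, not_false_eq_true] at hab
      have h1 := hlt' ⟨a, ha⟩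
      rw [hab, enc_pt hv] at h1
      omega
    · simp only [ha, hb, dif_neg, not_false_eq_true] at hab
      have := hf' hab
      exact congrArg Subtype.val this
  · intro a
    by_cases ha : a = p
    · simp only [ha, dif_pos]
      rw [enc_pt hv]
      omega
    · simp only [ha, dif_neg, not_false_eq_true]
      have := hlt' ⟨a, ha⟩
      omega
  · intro m hmem
    obtain ⟨b', ⟨b, hb, hpb, rfl⟩, hbm⟩ := hm' m hmem
    refine ⟨b, hb, ?_⟩
    have hlt : m < 2 ^ 24 := by
      have := hstd m hmem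
      rw [Nat.ble_eq] at this
      omega
    have himg : b.image (fun a => if h : a = p then pt v else f' ⟨a, h⟩) = unm m ∪ {pt v} := by
      rw [← hbm]
      ext q
      simp only [Finset.mem_image, Finset.mem_union, Finset.mem_singleton, Finset.mem_subtype,
        Subtype.exists]
      constructor
      · rintro ⟨a, ha, rfl⟩
        by_cases hap : a = p
        · right
          simp [hap]
        · left
          exact ⟨a, hap, ha, by simp [hap]⟩
      · rintro (⟨a, hap, ha, rfl⟩ | rfl)
        · exact ⟨a, ha, by simp [hap]⟩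
        · exact ⟨p, hpb, by simp⟩
    rw [himg, msk_union, msk_unm hlt, msk_singleton, enc_pt hv]
    rfl

end Cfsg.Agent.Lib.Helper10
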