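import Cfsg.Agent.Lib.Helper94.GolayPerm

set_option autoImplicit false
open scoped Pointwise

namespace Cfsg.Agent.Lib.Helper10

open Cfsg Cfsg.Agent.Lib.Helper94

/-! ### enumerating subsets as masks -/

/-- lazy conjunction, written with the recursor so that the kernel evaluates it fast; being a
constant, it also makes the kernel return to its main loop at every step of a loop. -/
noncomputable def bAnd (a b : Bool) : Bool := Bool.rec false b a
/-- lazy disjunction. -/
noncomputable def bOr (a b : Bool) : Bool := Bool.rec b true a
/-- negation. -/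
noncomputable def bNot (a : Bool) : Bool := Bool.rec true false a

theorem bAnd_iff (a b : Bool) : bAnd a b = true ↔ a = true ∧ b = true := by
  cases a <;> cases b <;> decide
theorem bOr_iff (a b : Bool) : bOr a b = true ↔ a = true ∨ b = true := by
  cases a <;> cases b <;> decide
theorem bNot_iff (a : Bool) : bNot a = true ↔ a = false := by
  cases a <;> decide

/-- lazy conditional. -/
noncomputable def bIte (a : Bool) (x y : Bool) : Bool := Bool.rec y x a

theorem bIte_true (x y : Bool) : bIte true x y = x := rfl
theorem bIte_false (x y : Bool) : bIte false x y = y := rfl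

/-- all members satisfy `f`. -/
noncomputable def allL (f : ℕ → Bool) (l : List ℕ) : Bool :=
  List.rec (motive := fun _ => Bool) true (fun c _ ih => bAnd (f c) ih) l

/-- some member satisfies `f`. -/
noncomputable def anyL (f : ℕ → Bool) (l : List ℕ) : Bool :=
  List.rec (motive := fun _ => Bool) false (fun c _ ih => bOr (f c) ih) l

theorem allL_iff (f : ℕ → Bool) (l : List ℕ) : allL f l = true ↔ ∀ c ∈ l, f c = true := by
  induction l with
  | nil => simp [allL]
  | cons c l ih =>
    have e : allL f (c :: l) = bAnd (f c) (allL f l) := rfl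
    rw [e, bAnd_iff, ih]
    simp only [List.mem_cons, forall_eq_or_imp]

theorem anyL_iff (f : ℕ → Bool) (l : List ℕ) : anyL f l = true ↔ ∃ c ∈ l, f c = true := by
  induction l with
  | nil => simp [anyL]
  | cons c l ih =>
    have e : anyL f (c :: l) = bOr (f c) (anyL f l) := rfl
    rw [e, bOr_iff, ih]
    simp only [List.mem_cons, exists_eq_or_imp]

/-- membership in a list of numbers, with the fast equality test. -/
noncomputable def memN (x : ℕ) (l : List ℕ) : Bool := anyL (fun y => Nat.beq x y) l

theorem memN_iff (x : ℕ) (l : List ℕ) : memN x l = true ↔ x ∈ l := by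
  rw [memN, anyL_iff]
  simp only [Nat.beq_eq]
  constructor
  · rintro ⟨c, hc, rfl⟩; exact hc
  · intro h; exact ⟨x, h, rfl⟩

/-- all masks `acc ||| m`, `m` the mask of a `k`-subset of the positions below `n` not in `acc`,
that satisfy `P`, put in front of `out`. -/
def collect (P : ℕ → Bool) : ℕ → ℕ → ℕ → List ℕ → List ℕ
  | _, 0, acc, out => if P acc = true then acc :: out else out
  | 0, _ + 1, _, out => out
  | n + 1, k + 1, acc, out =>
    if acc.testBit n = true then collect P n (k + 1) acc out
    else collect P n k (acc ||| 2 ^ n) (collect P n (k + 1) acc out)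

theorem collect_mono (P : ℕ → Bool) : ∀ (n k acc : ℕ) (out : List ℕ), ∀ x ∈ out,
    x ∈ collect P n k acc out := by
  intro n
  induction n with
  | zero =>
    intro k acc out x hx
    cases k with
    | zero =>
      rw [collect]
      split
      · exact List.mem_cons_of_mem _ hx
      · exact hx
    | succ k => rw [collect]; exact hx
  | succ n ih =>
    intro k acc out x hx
    cases k with
    | zero =>
      rw [collect]
      split
      · exact List.mem_cons_of_mem _ hx
      · exact hx
    | succ k =>
      rw [collect]
      split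
      · exact ih _ _ _ x hx
      · exact ih _ _ _ x (ih _ _ _ x hx)

theorem collect_zero_mem (P : ℕ → Bool) (n acc : ℕ) (out : List ℕ) (h : P acc = true) :
    acc ∈ collect P n 0 acc out := by
  cases n <;> rw [collect, if_pos h] <;> exact List.mem_cons_self

theorem collect_sound (P : ℕ → Bool) : ∀ (n k acc : ℕ) (out : List ℕ) (s : Finset GolayPt),
    (∀ p ∈ s, enc p < n) → (∀ p ∈ s, acc.testBit (enc p) = false) → s.card = k →
    P (acc ||| msk s) = true → (acc ||| msk s) ∈ collect P n k acc out := by
  intro n
  induction n with
  | zero =>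
    intro k acc out s hs _ hk hP
    have h0 : s = ∅ := by
      apply Finset.eq_empty_of_forall_notMem
      intro p hp
      exact absurd (hs p hp) (by omega)
    subst h0
    rw [Finset.card_empty] at hk
    subst hk
    rw [msk_empty, Nat.or_zero] at hP ⊢
    exact collect_zero_mem P _ _ _ hP
  | succ n ih =>
    intro k acc out s hs hacc hk hP
    cases k with
    | zero =>
      have h0 : s = ∅ := Finset.card_eq_zero.1 hk
      subst h0
      rw [msk_empty, Nat.or_zero] at hP ⊢
      exact collect_zero_mem P _ _ _ hP
    | succ k =>
      rw [collect]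
      by_cases hex : ∃ p ∈ s, enc p = n
      · obtain ⟨p, hp, hpn⟩ := hex
        have hb : acc.testBit n = false := hpn ▸ hacc p hp
        rw [if_neg (by simp [hb])]
        have hs' : s = {p} ∪ s.erase p := by
          ext q
          simp only [Finset.mem_union, Finset.mem_singleton, Finset.mem_erase]
          constructor
          · intro hq
            by_cases hqp : q = p
            · exact Or.inl hqp
            · exact Or.inr ⟨hqp, hq⟩
          · rintro (rfl | ⟨_, hq⟩)
            · exact hp
            · exact hq
        have hm : acc ||| msk s = (acc ||| 2 ^ n) ||| msk (s.erase p) := by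
          conv_lhs => rw [hs', msk_union, msk_singleton, hpn]
          rw [Nat.or_assoc]
        rw [hm] at hP ⊢
        apply ih k (acc ||| 2 ^ n) _ (s.erase p) _ _ _ hP
        · intro q hq
          rw [Finset.mem_erase] at hq
          have h1 := hs q hq.2
          have h2 : enc q ≠ n := fun h => hq.1 (enc_injective (h.trans hpn.symm))
          omega
        · intro q hq
          rw [Finset.mem_erase] at hq
          have h2 : n ≠ enc q := fun h => hq.1 (enc_injective (h.symm.trans hpn.symm))
          rw [Nat.testBit_or, hacc q hq.2, Nat.testBit_two_pow]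
          simp [h2]
        · rw [Finset.card_erase_of_mem hp, hk]; rfl
      · have hlt : ∀ q ∈ s, enc q < n := by
          intro q hq
          have h1 := hs q hq
          have h2 : enc q ≠ n := fun h => hex ⟨q, hq, h⟩
          omega
        split
        · exact ih _ _ _ s hlt hacc hk hP
        · exact collect_mono _ _ _ _ _ _ (ih _ _ _ s hlt hacc hk hP)


/-! ### designs on the first `v` points -/

/-- `𝓑` is a family of `k`-subsets of the first `v` points covering every `t`-subset, any two
members meeting in a number of points allowed by the bit mask `J`. -/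
structure Sys (v t k J : ℕ) (𝓑 : Set (Finset GolayPt)) : Prop where
  card : ∀ b ∈ 𝓑, b.card = k
  pts : ∀ b ∈ 𝓑, ∀ p ∈ b, enc p < v
  cover : ∀ s : Finset GolayPt, s.card = t → (∀ p ∈ s, enc p < v) → ∃ b ∈ 𝓑, s ⊆ b
  inter : ∀ b ∈ 𝓑, ∀ c ∈ 𝓑, b ≠ c → (J >>> (b ∩ c).card) &&& 1 = 1

theorem enc_perm_lt {v : ℕ} {π : Equiv.Perm GolayPt} (hπ : ∀ p, v ≤ enc p → π p = p)
    {p : GolayPt} (hp : enc p < v) : enc (π p) < v := by
  by_contra h
  have h1 := hπ (π p) (by omega)
  have h2 : π p = p := π.injective h1
  rw [h2] at h
  exact h hp

theorem Sys.perm {v t k J : ℕ} {𝓑 : Set (Finset GolayPt)} (h : Sys v t k J 𝓑)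
    (π : Equiv.Perm GolayPt) (hπ : ∀ p, v ≤ enc p → π p = p) :
    Sys v t k J {b | π • b ∈ 𝓑} := by
  constructor
  · intro b hb
    have := h.card _ hb
    rwa [Finset.card_smul_finset] at this
  · intro b hb p hp
    have h1 : π • p ∈ π • b := Finset.smul_mem_smul_finset hp
    have h2 := h.pts _ hb _ h1
    by_contra h3
    have h4 : π p = p := hπ p (by omega)
    have h5 : π • p = p := h4
    rw [h5] at h2
    exact h3 h2
  · intro s hs hp
    obtain ⟨b, hb, hsb⟩ := h.cover (π • s) (by rw [Finset.card_smul_finset, hs]) (by
      intro q hq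
      obtain ⟨p, hps, rfl⟩ := Finset.mem_smul_finset.1 hq
      exact enc_perm_lt hπ (hp p hps))
    refine ⟨π⁻¹ • b, ?_, ?_⟩
    · show π • π⁻¹ • b ∈ 𝓑
      rw [smul_inv_smul]
      exact hb
    · exact Finset.smul_finset_subset_iff.1 hsb
  · intro b hb c hc hbc
    have h1 := h.inter _ hb _ hc (fun e => hbc (smul_left_cancel π e))
    rwa [← Finset.smul_finset_inter, Finset.card_smul_finset] at h1

/-! ### the search -/

/-- some member of `st` contains `T`. -/
noncomputable def covered (T : ℕ) (st : List ℕ) : Bool :=
  anyL (fun m => Nat.beq (Nat.land m T) T) st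

/-- `c` meets every member of `st` in an allowed number of points. -/
noncomputable def compat (J c : ℕ) (st : List ℕ) : Bool :=
  List.rec (motive := fun _ => Bool) true (fun m _ ih => bAnd (Nat.beq (Nat.land (Nat.shiftRight J
    (Nat.mod (Nat.land (Nat.mul (Nat.land m c) cR) cD) cF)) 1) 1) ih) st

theorem compat_eq (J c : ℕ) (st : List ℕ) : compat J c st =
    allL (fun m => Nat.beq (Nat.land (Nat.shiftRight J (popc (Nat.land m c))) 1) 1) st := rfl

/-- `P` maps every member of `l` into `st`. -/
noncomputable def mapsInto (act : ℕ → ℕ → ℕ) (P : ℕ) (st l : List ℕ) : Bool :=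
  allL (fun m => memN (act P m) st) l

/-- some symmetry of `st` fixing `T` makes `c` smaller. -/
noncomputable def reducible (act : ℕ → ℕ → ℕ) (T c : ℕ) (st syms : List ℕ) : Bool :=
  anyL (fun P => bAnd (Nat.beq (act P T) T)
    (bAnd (Nat.ble (Nat.succ (act P c)) c) (mapsInto act P st st))) syms

theorem covered_iff (T : ℕ) (l : List ℕ) : covered T l = true ↔ ∃ m ∈ l, m &&& T = T := by
  rw [covered, anyL_iff]
  simp only [Nat.beq_eq]
  rfl

theorem compat_iff (J c : ℕ) (l : List ℕ) :
    compat J c l = true ↔ ∀ m ∈ l, (J >>> popc (m &&& c)) &&& 1 = 1 := by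
  rw [compat_eq, allL_iff]
  simp only [Nat.beq_eq]
  rfl

theorem mapsInto_iff (act : ℕ → ℕ → ℕ) (P : ℕ) (st l : List ℕ) :
    mapsInto act P st l = true ↔ ∀ m ∈ l, act P m ∈ st := by
  rw [mapsInto, allL_iff]
  simp only [memN_iff]

theorem reducible_iff (act : ℕ → ℕ → ℕ) (T c : ℕ) (st l : List ℕ) :
    reducible act T c st l = true ↔
      ∃ P ∈ l, act P T = T ∧ act P c < c ∧ ∀ m ∈ st, act P m ∈ st := by
  rw [reducible, anyL_iff]
  simp only [bAnd_iff, Nat.beq_eq, Nat.ble_eq, mapsInto_iff]
  rfl

/-- depth-first search: `Ts` is a list of `t`-sets to branch on, `st` the blocks found so far,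
`subs` the masks of all `(k - t)`-sets, `syms` (names of) symmetries acting through `act`. -/
noncomputable def solve (v t J : ℕ) (act : ℕ → ℕ → ℕ) (subs syms : List ℕ) (leaf : List ℕ → Bool)
    (Ts : List ℕ) : List ℕ → Bool :=
  List.rec (motive := fun _ => List ℕ → Bool) leaf
    (fun T _ ih st => bIte (covered T st) (ih st)
      (bAnd (Nat.beq (popc T) t) (bAnd (Nat.ble (Nat.succ T) (Nat.pow 2 v))
        (allL (fun e => bIte (Nat.beq (Nat.land e T) 0)
          (bIte (compat J (Nat.lor T e) st)
            (bOr (reducible act T (Nat.lor T e) st syms) (ih (Nat.lor T e :: st))) true) true)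
          subs)))) Ts

theorem solve_nil (v t J : ℕ) (act : ℕ → ℕ → ℕ) (subs syms : List ℕ) (leaf : List ℕ → Bool)
    (st : List ℕ) : solve v t J act subs syms leaf [] st = leaf st := rfl

theorem solve_cons (v t J : ℕ) (act : ℕ → ℕ → ℕ) (subs syms : List ℕ) (leaf : List ℕ → Bool)
    (T : ℕ) (Ts st : List ℕ) :
    solve v t J act subs syms leaf (T :: Ts) st = bIte (covered T st)
      (solve v t J act subs syms leaf Ts st)
      (bAnd (Nat.beq (popc T) t) (bAnd (Nat.ble (Nat.succ T) (Nat.pow 2 v))
        (allL (fun e => bIte (Nat.beq (Nat.land e T) 0)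
          (bIte (compat J (Nat.lor T e) st)
            (bOr (reducible act T (Nat.lor T e) st syms)
              (solve v t J act subs syms leaf Ts (Nat.lor T e :: st))) true) true) subs))) := rfl

theorem solve_sound {v t k J : ℕ} {act : ℕ → ℕ → ℕ} {subs syms : List ℕ}
    {leaf : List ℕ → Bool} {G : Set (Finset GolayPt) → Prop} (hv : v ≤ 24)
    (hsubs : ∀ s : Finset GolayPt, (∀ p ∈ s, enc p < v) → s.card = k - t → msk s ∈ subs)
    (hsym : ∀ P ∈ syms, ∃ π : Equiv.Perm GolayPt, π * π = 1 ∧ (∀ p, v ≤ enc p → π p = p) ∧
      (∀ s : Finset GolayPt, msk (π • s) = act P (msk s)) ∧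
      ∀ 𝓑 : Set (Finset GolayPt), G {b | π • b ∈ 𝓑} → G 𝓑)
    (hleaf : ∀ (st : List ℕ) (𝓑 : Set (Finset GolayPt)), Sys v t k J 𝓑 →
      (∀ m ∈ st, ∃ b ∈ 𝓑, msk b = m) → leaf st = true → G 𝓑) :
    ∀ (Ts st : List ℕ), solve v t J act subs syms leaf Ts st = true →
      ∀ 𝓑 : Set (Finset GolayPt), Sys v t k J 𝓑 → (∀ m ∈ st, ∃ b ∈ 𝓑, msk b = m) → G 𝓑 := by
  intro Ts
  induction Ts with
  | nil =>
    intro st h 𝓑 hS hst
    rw [solve_nil] at h
    exact hleaf st 𝓑 hS hst h
  | cons T Ts ih =>
    intro st h 𝓑 hS hst
    rw [solve_cons] at h
    cases hcov : covered T st with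
    | true =>
      rw [hcov, bIte_true] at h
      exact ih st h 𝓑 hS hst
    | false =>
      rw [hcov, bIte_false] at h
      rw [bAnd_iff, bAnd_iff, Nat.beq_eq, Nat.ble_eq, allL_iff] at h
      obtain ⟨hT1, hT2, hall⟩ := h
      have hT2 : T < 2 ^ v := hT2
      have hT24 : T < 2 ^ 24 := lt_of_lt_of_le hT2 (Nat.pow_le_pow_right (by norm_num) hv)
      have hsT : msk (unm T) = T := msk_unm hT24
      have hscard : (unm T).card = t := by rw [card_unm hT24, hT1]
      have hspts : ∀ p ∈ unm T, enc p < v := by
        intro p hp
        rw [mem_unm] at hp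
        by_contra hlt
        have : T.testBit (enc p) = false :=
          Nat.testBit_lt_two_pow (lt_of_lt_of_le hT2 (Nat.pow_le_pow_right (by norm_num) (by omega)))
        rw [this] at hp
        exact absurd hp (by simp)
      -- the main claim, by strong induction on the mask of the block through `T`
      have claim : ∀ (N : ℕ) (𝓑 : Set (Finset GolayPt)), Sys v t k J 𝓑 →
          (∀ m ∈ st, ∃ b ∈ 𝓑, msk b = m) → ∀ b ∈ 𝓑, unm T ⊆ b → msk b = N → G 𝓑 := by
        intro N
        induction N using Nat.strong_induction_on with
        | _ N IH =>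
          intro 𝓑 hS hst b hb hTb hN
          have hunion : unm T ∪ (b \ unm T) = b := Finset.union_sdiff_of_subset hTb
          have hmb : Nat.lor T (msk (b \ unm T)) = msk b := by
            show T ||| msk (b \ unm T) = msk b
            rw [← hunion, msk_union, hsT, hunion]
          have hcompat : compat J (msk b) st = true := by
            rw [compat_iff]
            intro m hm
            obtain ⟨b', hb', rfl⟩ := hst m hm
            have hne : b' ≠ b := by
              rintro rfl
              have : covered T st = true := by
                rw [covered_iff]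
                refine ⟨_, hm, ?_⟩
                have := (subset_iff_msk _ _).1 hTb
                rw [hsT] at this
                rw [Nat.and_comm]
                exact this
              rw [hcov] at this
              exact absurd this (by simp)
            rw [← msk_inter, ← card_eq_popc]
            exact hS.inter _ hb' _ hb hne
          by_cases hred : reducible act T (msk b) st syms = true
          · rw [reducible_iff] at hred
            obtain ⟨P, hP, hPT, hPc, hPst⟩ := hred
            obtain ⟨π, hinv, hfix, hact, hG⟩ := hsym P hP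
            apply hG 𝓑
            have hmem : π • b ∈ {b | π • b ∈ 𝓑} := by
              show π • π • b ∈ 𝓑
              rw [smul_smul, hinv, one_smul]
              exact hb
            refine IH (msk (π • b)) ?_ _ (hS.perm _ hfix) ?_ (π • b) hmem ?_ rfl
            · rw [hact, ← hN]
              exact hPc
            · intro m hm
              obtain ⟨b1, hb1, rfl⟩ := hst m hm
              obtain ⟨b2, hb2, h2⟩ := hst _ (hPst _ hm)
              refine ⟨b1, ?_, rfl⟩
              show π • b1 ∈ 𝓑
              rw [← hact] at h2
              rw [← msk_injective h2]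
              exact hb2
            · have h1 : π • unm T = unm T := by
                apply msk_injective
                rw [hact, hsT, hPT]
              rw [← h1]
              exact Finset.smul_finset_subset_smul_finset hTb
          · have hmem : msk (b \ unm T) ∈ subs := by
              apply hsubs
              · intro p hp
                exact hS.pts b hb p (Finset.mem_sdiff.1 hp).1
              · rw [Finset.card_sdiff_of_subset hTb, hS.card b hb, hscard]
            have h1 := hall _ hmem
            have hdisj : Nat.beq (Nat.land (msk (b \ unm T)) T) 0 = true := by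
              rw [Nat.beq_eq]
              have hd : Disjoint (b \ unm T) (unm T) := Finset.sdiff_disjoint
              have hd2 := (disjoint_iff_msk _ _).1 hd
              rw [hsT] at hd2
              exact hd2
            rw [hdisj, bIte_true, hmb, hcompat, bIte_true, bOr_iff] at h1
            rcases h1 with h1 | h1
            · exact absurd h1 hred
            · apply ih _ h1 𝓑 hS
              intro m hm
              rcases List.mem_cons.1 hm with rfl | hm
              · exact ⟨b, hb, rfl⟩
              · exact hst m hm
      obtain ⟨b, hb, hTb⟩ := hS.cover (unm T) hscard hspts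
      exact claim _ 𝓑 hS hst b hb hTb rfl

end Cfsg.Agent.Lib.Helper10
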