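import Cfsg.Agent.Lib.Helper10.AutTransport

/-! Isomorphic set systems have isomorphic point-block graphs. -/

set_option autoImplicit false
open Cfsg

namespace Cfsg.Agent.Lib.Helper10

section
variable {α β : Type*} [DecidableEq α] [DecidableEq β] {B : Set (Finset α)} {B' : Set (Finset β)}

/-- the bijection between the blocks. -/
def blockEquiv (e : α ≃ β) (h : (fun b : Finset α => b.image e) '' B = B') : B ≃ B' where
  toFun b := ⟨b.1.image e, h ▸ ⟨b.1, b.2, rfl⟩⟩
  invFun c := ⟨c.1.image e.symm, (image_symm_of_image e h) ▸ ⟨c.1, c.2, rfl⟩⟩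
  left_inv b := Subtype.ext (by simp [Finset.image_image])
  right_inv c := Subtype.ext (by simp [Finset.image_image])

theorem pbg_rel_iff (e : α ≃ β) (h : (fun b : Finset α => b.image e) '' B = B')
    (x y : Option (α ⊕ B)) :
    pointBlockRel B' (Equiv.optionCongr (Equiv.sumCongr e (blockEquiv e h)) x)
      (Equiv.optionCongr (Equiv.sumCongr e (blockEquiv e h)) y) ↔ pointBlockRel B x y := by
  rcases x with _ | a | b <;> rcases y with _ | a' | b' <;>
    simp [pointBlockRel, blockEquiv, Finset.disjoint_image e.injective]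

/-- the induced isomorphism of point-block graphs. -/
def pbgIso (e : α ≃ β) (h : (fun b : Finset α => b.image e) '' B = B') :
    pointBlockGraph B ≃g pointBlockGraph B' where
  toEquiv := Equiv.optionCongr (Equiv.sumCongr e (blockEquiv e h))
  map_rel_iff' := by
    intro x y
    simp only [pointBlockGraph, SimpleGraph.fromRel_adj, pbg_rel_iff, ne_eq,
      EmbeddingLike.apply_eq_iff_eq]

theorem pbgIso_none (e : α ≃ β) (h : (fun b : Finset α => b.image e) '' B = B') :
    pbgIso e h none = none := rfl

theorem pbgIso_inl (e : α ≃ β) (h : (fun b : Finset α => b.image e) '' B = B') (a : α) :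
    pbgIso e h (some (Sum.inl a)) = some (Sum.inl (e a)) := rfl

theorem pbgIso_inr (e : α ≃ β) (h : (fun b : Finset α => b.image e) '' B = B') (b : B) :
    pbgIso e h (some (Sum.inr b)) = some (Sum.inr (blockEquiv e h b)) := rfl

end

end Cfsg.Agent.Lib.Helper10
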