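import Cfsg.Agent.Lib.Helper10.SRG100b
import Cfsg.Agent.Lib.Helper10.PBGIso
import Cfsg.Agent.Lib.Helper10.DerivedAut
import Cfsg.Agent.S0410

/-! The automorphism group of the point-block graph of an S(3,6,22): transitivity and the
stabiliser of the extra vertex. -/

set_option autoImplicit false
open Cfsg
open scoped Pointwise

namespace Cfsg.Agent.Lib.Helper10

section
variable {α : Type*} [Fintype α] [DecidableEq α] {B : Set (Finset α)}

theorem hs_to_none (hα : Fintype.card α = 22) (hB : IsSteinerSystem 3 6 B)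
    (v : Option (α ⊕ B)) : ∃ f : pointBlockGraph B ≃g pointBlockGraph B, f v = none := by
  classical
  have : Fintype B := Fintype.ofFinite B
  have hG := Cfsg.Agent.S0428.result hα hB
  obtain ⟨φ, hφ⟩ := srg100_iso (v0 := v) hG
  obtain ⟨e, he⟩ := Cfsg.Agent.S0410.result (card_pts hG) hα (blkSys_steiner (v0 := v) hG) hB
  refine ⟨φ.trans (pbgIso e he), ?_⟩
  change pbgIso e he (φ v) = none
  rw [hφ]
  rfl

theorem hs_pretransitive (hα : Fintype.card α = 22) (hB : IsSteinerSystem 3 6 B) :
    MulAction.IsPretransitive (pointBlockGraph B ≃g pointBlockGraph B) (Option (α ⊕ B)) := by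
  constructor
  intro x y
  obtain ⟨f, hf⟩ := hs_to_none hα hB x
  obtain ⟨g, hg⟩ := hs_to_none hα hB y
  refine ⟨g⁻¹ * f, ?_⟩
  change g⁻¹ (f x) = y
  rw [hf, ← hg]
  exact RelIso.inv_apply_self g y

theorem aut_image_eq {σ : Equiv.Perm α} (hσ : σ ∈ setSystemAut B) :
    (fun b : Finset α => b.image σ) '' B = B := hσ

/-- automorphisms of the design act on the graph, fixing the extra vertex. -/
def hsTheta (σ : setSystemAut B) :
    MulAction.stabilizer (pointBlockGraph B ≃g pointBlockGraph B) (none : Option (α ⊕ B)) :=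
  ⟨pbgIso (σ : Equiv.Perm α) (aut_image_eq σ.2), rfl⟩

theorem hsTheta_injective : Function.Injective (hsTheta (B := B)) := by
  intro σ σ' h
  apply Subtype.ext
  ext a
  have h1 := congrArg (fun f : MulAction.stabilizer (pointBlockGraph B ≃g pointBlockGraph B)
    (none : Option (α ⊕ B)) => (f : pointBlockGraph B ≃g pointBlockGraph B) (some (Sum.inl a))) h
  change some (Sum.inl ((σ : Equiv.Perm α) a)) = some (Sum.inl ((σ' : Equiv.Perm α) a)) at h1
  exact Sum.inl_injective (Option.some_injective _ h1)

theorem hsTheta_surjective : Function.Surjective (hsTheta (B := B)) := by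
  rintro ⟨f, hf⟩
  have hf0 : f none = none := hf
  have h1 : ∀ a : α, ∃ a' : α, f (some (Sum.inl a)) = some (Sum.inl a') := by
    intro a
    have hadj : (pointBlockGraph B).Adj (f none) (f (some (Sum.inl a))) :=
      f.map_rel_iff.2 (Cfsg.Agent.S0428.adj_none_inl a)
    rw [hf0] at hadj
    rcases hx : f (some (Sum.inl a)) with _ | a' | b'
    · rw [hx] at hadj; exact absurd hadj (SimpleGraph.irrefl _)
    · exact ⟨a', rfl⟩
    · rw [hx] at hadj; exact absurd hadj (Cfsg.Agent.S0428.adj_none_inr b')
  choose σ0 hσ0 using h1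
  have hinj : Function.Injective σ0 := by
    intro a a' h
    have : f (some (Sum.inl a)) = f (some (Sum.inl a')) := by rw [hσ0, hσ0, h]
    exact Sum.inl_injective (Option.some_injective _ (f.injective this))
  let σ : Equiv.Perm α := Equiv.ofBijective σ0 (Finite.injective_iff_bijective.1 hinj)
  have hσ : ∀ a, σ a = σ0 a := fun a => rfl
  have h2 : ∀ b : B, ∃ b' : B, f (some (Sum.inr b)) = some (Sum.inr b') := by
    intro b
    rcases hx : f (some (Sum.inr b)) with _ | a' | b'
    · rw [← hf0] at hx
      exact absurd (f.injective hx) (by simp)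
    · exfalso
      have hadj : (pointBlockGraph B).Adj (f none) (f (some (Sum.inr b))) := by
        rw [hf0, hx]; exact Cfsg.Agent.S0428.adj_none_inl a'
      exact Cfsg.Agent.S0428.adj_none_inr b (f.map_rel_iff.1 hadj)
    · exact ⟨b', rfl⟩
  choose τ hτ using h2
  have h3 : ∀ b : B, (τ b : Finset α) = (b : Finset α).image σ := by
    intro b
    ext x
    obtain ⟨a, rfl⟩ := σ.surjective x
    have e1 : σ a ∈ (τ b : Finset α) ↔ a ∈ (b : Finset α) := by
      rw [← Cfsg.Agent.S0428.adj_inl_inr, ← Cfsg.Agent.S0428.adj_inl_inr, hσ, ← hσ0, ← hτ]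
      exact f.map_rel_iff
    rw [e1]
    constructor
    · intro h
      exact Finset.mem_image_of_mem _ h
    · intro h
      obtain ⟨a', ha', h'⟩ := Finset.mem_image.1 h
      rw [← σ.injective h']
      exact ha'
  have hmem : σ ∈ setSystemAut B := by
    apply mem_aut_of_forall
    intro b hb
    have := h3 ⟨b, hb⟩
    change b.image σ ∈ B
    rw [← this]
    exact (τ ⟨b, hb⟩).2
  refine ⟨⟨σ, hmem⟩, ?_⟩
  apply Subtype.ext
  apply RelIso.ext
  rintro (_ | a | b)
  · exact hf0.symm
  · exact (hσ0 a).symm
  · change some (Sum.inr (blockEquiv σ (aut_image_eq hmem) b)) = f (some (Sum.inr b))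
    rw [hτ]
    congr 2
    apply Subtype.ext
    exact (h3 b).symm

theorem hs_card_stab :
    Nat.card (MulAction.stabilizer (pointBlockGraph B ≃g pointBlockGraph B)
      (none : Option (α ⊕ B))) = Nat.card (setSystemAut B) :=
  (Nat.card_congr (Equiv.ofBijective _ ⟨hsTheta_injective, hsTheta_surjective⟩)).symm

theorem hs_card_aut (hα : Fintype.card α = 22) (hB : IsSteinerSystem 3 6 B) :
    Nat.card (pointBlockGraph B ≃g pointBlockGraph B) = Nat.card (setSystemAut B) * 100 := by
  classical
  have : Fintype B := Fintype.ofFinite B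
  have hG := Cfsg.Agent.S0428.result hα hB
  have := hs_pretransitive hα hB
  rw [← Subgroup.card_mul_index (MulAction.stabilizer (pointBlockGraph B ≃g pointBlockGraph B)
      (none : Option (α ⊕ B))), MulAction.index_stabilizer_of_transitive, hs_card_stab,
    Nat.card_eq_fintype_card (α := Option (α ⊕ B)), hG.card]

end

end Cfsg.Agent.Lib.Helper10
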