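import Cfsg.Agent.Lib.Helper10.Mult3b
import Cfsg.Agent.Lib.Helper10.M10Comm
import Cfsg.Agent.Lib.Helper9.SchurM11
import Cfsg.Agent.Lib.Helper9.M12Simple

set_option autoImplicit false

/-! Every finite stem extension of `M12` has a kernel with at most two elements. -/

namespace Cfsg.Agent.Lib.Helper10

open Cfsg Cfsg.Agent.Lib.Helper33 Cfsg.Agent.Lib.Helper9 Subgroup MulAction
open scoped commutatorElement Pointwise

theorem sporM12_eq : Spor.M12 = H12 := by
  rw [Spor.M12, squareDodecad_eq_D0]; rfl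

theorem le_commutator_of_simple {P : Type*} [Group P] (M : Subgroup P) [Finite M]
    (hs : IsSimpleGroup ↥M) (hc : ¬ (Nat.card ↥M).Prime) : M ≤ ⁅M, M⁆ := by
  have h1 : commutator ↥M = ⊤ := by
    rcases IsSimpleGroup.eq_bot_or_eq_top_of_normal (commutator ↥M) inferInstance with h | h
    · exfalso
      apply hc
      have hcomm : ∀ a b : ↥M, a * b = b * a := by
        intro a b
        have : ⁅a, b⁆ ∈ commutator ↥M := commutator_mem_commutator (mem_top a) (mem_top b)
        rw [h, mem_bot, commutatorElement_eq_one_iff_mul_comm] at this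
        exact this
      let _ : CommGroup ↥M := { (inferInstance : Group ↥M) with mul_comm := hcomm }
      exact IsSimpleGroup.prime_card
    · exact h
  intro x hx
  rw [← map_subtype_commutator, h1]
  exact ⟨⟨x, hx⟩, mem_top _, rfl⟩

/-- version of `Lf_inj_of_stem` with a named point stabiliser -/
theorem Lf_inj_of_stem' {Γ : Type} {P Ω : Type*} [Group Γ] [Finite Γ] [Group P] [MulAction P Ω]
    {σ : Γ →* P} (hc : σ.ker ≤ center Γ) {p : Ω}
    (hl : ∀ γ : Γ, σ γ • p = p → ∃ a ∈ Lf σ p, σ a = σ γ)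
    (M : Subgroup P) (hM : M = Mst σ p)
    (hs : ∀ (Γ' : Type) [Group Γ'] [Finite Γ'] (τ : Γ' →* ↥M), IsStemExtension τ →
      ∀ z ∈ τ.ker, z = 1) : ∀ a ∈ Lf σ p, σ a = 1 → a = 1 := by
  subst hM
  exact Lf_inj_of_stem hc hl (fun h => hs _ _ h)

theorem memL1 {S : Finset GolayPt} {a : GolayPt} (ha : a ∈ S) : ∀ x ∈ [a], x ∈ S := by
  intro x hx
  rw [List.mem_singleton] at hx
  exact hx ▸ ha

theorem memL2 {S : Finset GolayPt} {a b : GolayPt} (ha : a ∈ (S : Set GolayPt))
    (hb : b ∈ (S : Set GolayPt)) : ∀ x ∈ [a, b], x ∈ S := by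
  intro x hx
  simp only [List.mem_cons, List.not_mem_nil, or_false] at hx
  rcases hx with rfl | rfl
  · exact ha
  · exact hb

theorem memL3 {S : Finset GolayPt} {a b c : GolayPt} (ha : a ∈ (S : Set GolayPt))
    (hb : b ∈ (S : Set GolayPt)) (hc : c ∈ (S : Set GolayPt)) : ∀ x ∈ [a, b, c], x ∈ S := by
  intro x hx
  simp only [List.mem_cons, List.not_mem_nil, or_false] at hx
  rcases hx with rfl | rfl | rfl
  · exact ha
  · exact hb
  · exact hc

theorem m12_stem_ker (Γ : Type) [Group Γ] [Finite Γ] (σ : Γ →* ↥Spor.M12)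
    (hσ : IsStemExtension σ) : ∃ w ∈ σ.ker, ∀ z ∈ σ.ker, z = 1 ∨ z = w := by
  set τ : Γ →* Equiv.Perm GolayPt := Spor.M12.subtype.comp σ with hτ
  have hker : τ.ker = σ.ker := by
    ext x
    rw [MonoidHom.mem_ker, MonoidHom.mem_ker, hτ, MonoidHom.comp_apply]
    exact ⟨fun h => Subtype.ext h, fun h => by rw [h]; rfl⟩
  have hmem : ∀ γ, τ γ ∈ H12 := fun γ => sporM12_eq ▸ (σ γ).2
  have hsurj : ∀ g ∈ H12, ∃ γ, τ γ = g := by
    intro g hg
    obtain ⟨γ, h⟩ := hσ.1 ⟨g, sporM12_eq ▸ hg⟩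
    exact ⟨γ, by rw [hτ, MonoidHom.comp_apply, h]; rfl⟩
  have hrange : τ.range = H12 := by
    ext g
    exact ⟨fun ⟨γ, h⟩ => h ▸ hmem γ, fun hg => hsurj g hg⟩
  have hM11 : Spor.M11 = Mst τ (pt 0) := by
    rw [Mst, hrange, Spor.M11, sporM12_eq]; rfl
  have hfin : Finite ↥Spor.M11 := inferInstance
  have hperf : Mst τ (pt 0) ≤ ⁅Mst τ (pt 0), Mst τ (pt 0)⁆ := by
    rw [← hM11]
    apply le_commutator_of_simple
    · rw [M11_eq]; exact simple_fix11
    · rw [card_M11]; norm_num
  have hl0 := lift_of_perfect τ (pt 0) hperf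
  have hX : ∀ i ∈ [0, 1, 2, 3], pt i ∈ unmask D0 := by decide
  have D : T3Data τ (↑(unmask D0) : Set GolayPt) :=
    { central := hker ▸ hσ.2.1
      stem := hker ▸ hσ.2.2
      inv := fun γ x hx => (H12_mem_iff (hmem γ) x).2 hx
      t2 := by
        intro a ha b hb hab a' ha' b' hb' hab'
        obtain ⟨g, hg, h⟩ := m12_map_list [a, b] [a', b'] rfl (by norm_num) (by simpa using hab)
          (by simpa using hab') (memL2 ha hb) (memL2 ha' hb')
        obtain ⟨γ, rfl⟩ := hsurj g hg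
        simp only [List.map_cons, List.map_nil, List.cons.injEq, and_true] at h
        exact ⟨γ, h.1, h.2⟩
      t3 := by
        intro a ha b hb c hc hab hac hbc a' ha' b' hb' c' hc' hab' hac' hbc'
        obtain ⟨g, hg, h⟩ := m12_map_list [a, b, c] [a', b', c'] rfl (by norm_num)
          (by simpa using ⟨⟨hab, hac⟩, hbc⟩) (by simpa using ⟨⟨hab', hac'⟩, hbc'⟩)
          (memL3 ha hb hc) (memL3 ha' hb' hc')
        obtain ⟨γ, rfl⟩ := hsurj g hg
        simp only [List.map_cons, List.map_nil, List.cons.injEq, and_true] at h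
        exact ⟨γ, h.1, h.2.1, h.2.2⟩
      lift := by
        intro p hp
        obtain ⟨g, hg, h⟩ := m12_map_list [pt 0] [p] rfl (by norm_num) (by simp) (by simp)
          (memL1 (hX 0 (by simp))) (memL1 hp)
        obtain ⟨δ, rfl⟩ := hsurj g hg
        simp only [List.map_cons, List.map_nil, List.cons.injEq, and_true] at h
        have := lift_conj τ hl0 δ
        rwa [show τ δ • pt 0 = p from h] at this }
  have hinj := Lf_inj_of_stem' D.central hl0 Spor.M11 hM11
    (fun Γ' _ _ τ' h => m11_stem_trivial Γ' τ' h)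
  have hD10 : Dst τ (pt 0) (pt 1) = D10 := by
    ext g
    rw [Dst, hrange, mem_inf, mem_inf, mem_fixL, mem_stabilizer_iff, mem_stabilizer_iff]
    constructor
    · rintro ⟨h1, h2, h3⟩
      refine ⟨h1, fun i hi => ?_⟩
      simp only [List.mem_cons, List.not_mem_nil, or_false] at hi
      rcases hi with rfl | rfl
      · exact h3
      · exact h2
    · rintro ⟨h1, h2⟩
      exact ⟨h1, h2 0 (by simp), h2 1 (by simp)⟩
  obtain ⟨e, he, hE⟩ := D10_index
  obtain ⟨γe, rfl⟩ := hsurj e he.1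
  have := D.ker_two (p1 := pt 0) (p2 := pt 1) (p3 := pt 2) (p4 := pt 3) (hX 0 (by simp))
    (hX 1 (by simp)) (hX 2 (by simp)) (hX 3 (by simp)) (by decide) (by decide) (by decide)
    (by decide) (by decide) (by decide) hinj γe (he.2 0 (by simp)) (he.2 1 (by simp))
    (by rw [hD10]; exact hE)
  rwa [hker] at this

theorem m12_stem_card (Γ : Type) [Group Γ] [Finite Γ] (σ : Γ →* ↥Spor.M12)
    (hσ : IsStemExtension σ) : Nat.card σ.ker ≤ 2 := by
  obtain ⟨w, hw, h⟩ := m12_stem_ker Γ σ hσ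
  have : (σ.ker : Set Γ) ⊆ {1, w} := by
    intro z hz
    rcases h z hz with rfl | rfl <;> simp
  calc Nat.card σ.ker = (σ.ker : Set Γ).ncard := rfl
    _ ≤ ({1, w} : Set Γ).ncard := Set.ncard_le_ncard this (Set.toFinite _)
    _ ≤ 2 := by
      have := Set.ncard_insert_le 1 ({w} : Set Γ)
      rwa [Set.ncard_singleton] at this

end Cfsg.Agent.Lib.Helper10
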