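import Cfsg.Agent.Lib.Helper10.TGAut
import Cfsg.Agent.Lib.Helper10.M12Upper
import Cfsg.Agent.Lib.Helper41.SchurCore

set_option autoImplicit false

/-! The signed permutations preserving the ternary code of length 12 form a double cover of `M12`. -/

namespace Cfsg.Agent.Lib.Helper10

open Cfsg Cfsg.Agent.Lib.Helper33 Cfsg.Agent.Lib.Helper9 Cfsg.Agent.Lib.Helper34 Subgroup
open scoped commutatorElement Pointwise

/-- restriction of the dodecad stabiliser to the dodecad -/
def resH12 : ↥H12 →* ↥(setSystemAut (hexSys (unmask D0))) where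
  toFun g := ⟨g.1.subtypePerm (p := fun p => p ∈ unmask D0) (stab_iff g.2.2),
    res_mem_aut g.2.1 g.2.2⟩
  map_one' := by
    apply Subtype.ext
    ext x
    rfl
  map_mul' g h := by
    apply Subtype.ext
    ext x
    rfl

theorem resH12_injective : Function.Injective resH12 := by
  rw [injective_iff_map_eq_one]
  intro g hg
  apply Subtype.ext
  apply faithful_D0 g.2
  intro y hy
  have h1 := congrArg Subtype.val hg
  have h2 := congrArg Subtype.val (Equiv.congr_fun h1 ⟨y, hy⟩)
  exact h2

theorem card_D0_sub : Fintype.card {p : GolayPt // p ∈ unmask D0} = 12 := by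
  rw [Fintype.card_coe]; exact D0_mem.2

theorem resH12_bijective : Function.Bijective resH12 := by
  rw [Nat.bijective_iff_injective_and_card]
  refine ⟨resH12_injective, ?_⟩
  rw [card_H12]
  exact (Cfsg.Agent.S0425.result card_D0_sub (Cfsg.Agent.S0385.result _ D0_mem)).1.2.symm

theorem exists_iso_M12 : Nonempty (↥(setSystemAut hexSet) ≃* ↥Spor.M12) := by
  obtain ⟨e, he⟩ := Cfsg.Agent.S0408.result card_D0_sub card_arrayPt
    (Cfsg.Agent.S0385.result _ D0_mem) hex_steiner
  exact ⟨((MulEquiv.subgroupCongr sporM12_eq).trans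
    ((MulEquiv.ofBijective resH12 resH12_bijective).trans (autCongr e he))).symm⟩

theorem commutator_top_of_simple (K : Type*) [Group K] [Finite K] [IsSimpleGroup K]
    (hc : ¬ (Nat.card K).Prime) : commutator K = ⊤ := by
  rcases IsSimpleGroup.eq_bot_or_eq_top_of_normal (commutator K) inferInstance with h | h
  · exfalso
    apply hc
    have hcomm : ∀ a b : K, a * b = b * a := by
      intro a b
      have : ⁅a, b⁆ ∈ commutator K := commutator_mem_commutator (mem_top a) (mem_top b)
      rw [h, mem_bot, commutatorElement_eq_one_iff_mul_comm] at this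
      exact this
    let _ : CommGroup K := { (inferInstance : Group K) with mul_comm := hcomm }
    exact IsSimpleGroup.prime_card
  · exact h

/-- an element of the double cover whose square is the central involution -/
def tgFel : W12 := elE tgF tgF_ok

theorem tgFel_sq : tgFel * tgFel = negOne := by
  apply SemidirectProduct.ext
  · funext i
    have h : ∀ i, sgn tgF i * sgn tgF (bwd tgF i) = -1 := by decide
    exact h i
  · ext p : 1
    have h : ∀ p, fwd tgF (fwd tgF p) = p := by decide
    exact h p

theorem m12_cover : ∃ σ₀ : ↥TG →* ↥Spor.M12, IsStemExtension σ₀ ∧ Nat.card σ₀.ker = 2 := by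
  obtain ⟨E⟩ := exists_iso_M12
  set σ₀ : ↥TG →* ↥Spor.M12 := E.toMonoidHom.comp tgPi with hσ
  have hker : σ₀.ker = tgPi.ker := by
    ext w
    rw [MonoidHom.mem_ker, MonoidHom.mem_ker, hσ, MonoidHom.comp_apply]
    exact E.map_eq_one_iff
  have hsurj : Function.Surjective σ₀ := E.surjective.comp tgPi_surjective
  have hcen : ∀ w : ↥TG, (⟨negOne, negOne_mem⟩ : ↥TG) * w = w * ⟨negOne, negOne_mem⟩ :=
    fun w => Subtype.ext (negOne_comm w.1)
  have hsimple : IsSimpleGroup ↥Spor.M12 := by rw [sporM12_eq]; exact simple_H12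
  have hperf : commutator ↥Spor.M12 = ⊤ := by
    apply commutator_top_of_simple
    rw [sporM12_eq, card_H12]; norm_num
  have hmap : (commutator ↥TG).map σ₀ = ⊤ := by
    rw [commutator_def, map_commutator, ← MonoidHom.range_eq_map,
      MonoidHom.range_eq_top.2 hsurj, ← commutator_def, hperf]
  refine ⟨σ₀, ⟨hsurj, ?_, ?_⟩, by rw [hker, card_ker_tgPi]⟩
  · intro w hw
    rw [hker, mem_ker_tgPi] at hw
    rcases hw with rfl | rfl
    · exact one_mem _
    · rw [mem_center_iff]
      intro g
      exact (hcen g).symm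
  · intro w hw
    rw [hker, mem_ker_tgPi] at hw
    rcases hw with rfl | rfl
    · exact one_mem _
    · -- the square of `tgFel`
      set F : ↥TG := ⟨tgFel, elE_mem _ _⟩ with hF
      have hFF : F * F = ⟨negOne, negOne_mem⟩ := Subtype.ext tgFel_sq
      have h1 : σ₀ F ∈ (commutator ↥TG).map σ₀ := by rw [hmap]; trivial
      obtain ⟨k, hk, hkF⟩ := h1
      have h2 : k⁻¹ * F ∈ σ₀.ker := by
        rw [MonoidHom.mem_ker, map_mul, map_inv, hkF, inv_mul_cancel]
      rw [hker, mem_ker_tgPi] at h2
      rw [← hFF]
      rcases h2 with h2 | h2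
      · have : F = k := by rw [← mul_one k, ← h2]; group
        rw [this]
        exact mul_mem hk hk
      · have e1 : F = k * ⟨negOne, negOne_mem⟩ := by rw [← h2]; group
        have e2 : (⟨negOne, negOne_mem⟩ : ↥TG) * ⟨negOne, negOne_mem⟩ = 1 := by
          apply Subtype.ext
          apply SemidirectProduct.ext
          · funext i
            have h : ((-1 : (ZMod 3)ˣ) * (-1)) = 1 := by decide
            exact h
          · rfl
        have e3 : F * F = k * k := by
          rw [e1]
          calc k * ⟨negOne, negOne_mem⟩ * (k * ⟨negOne, negOne_mem⟩)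
              = k * (⟨negOne, negOne_mem⟩ * k) * ⟨negOne, negOne_mem⟩ := by group
            _ = k * (k * ⟨negOne, negOne_mem⟩) * ⟨negOne, negOne_mem⟩ := by rw [hcen k]
            _ = k * k * (⟨negOne, negOne_mem⟩ * ⟨negOne, negOne_mem⟩) := by group
            _ = k * k := by rw [e2, mul_one]
        rw [e3]
        exact mul_mem hk hk

theorem m12_multiplier : HasCyclicSchurMultiplier ↥Spor.M12 2 := by
  obtain ⟨σ₀, hst, hcard⟩ := m12_cover
  have hZ : Nat.card (Multiplicative (ZMod 2)) = 2 := by
    rw [Nat.card_eq_fintype_card]; rfl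
  have : Fact (Nat.Prime 2) := ⟨Nat.prime_two⟩
  exact Cfsg.Agent.Lib.Helper41.hasSchurMultiplier_of_card_le ↥TG σ₀ hst
    (mulEquivOfPrimeCardEq hcard hZ)
    (fun Γ _ _ σ hσ => by rw [hZ]; exact m12_stem_card Γ σ hσ)

end Cfsg.Agent.Lib.Helper10
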