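import Mathlib

set_option autoImplicit false

/-!
Central extensions of triply transitive groups.

Let `σ : Γ →* P` have central kernel contained in the commutator subgroup of `Γ`, and let the image
of `σ` act triply transitively on an invariant set `X` of at least four points, with perfect point
stabilisers.  For a point `p` let `Lf σ p` be the commutator subgroup of the preimage of the
stabiliser of `p`.  Then every element of the kernel has the form `a⁻¹ * b` with `a ∈ Lf σ p₁`,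
`b ∈ Lf σ p₂` and `σ a = σ b`.
-/

namespace Cfsg.Agent.Lib.Helper10

open Subgroup MulAction
open scoped commutatorElement

variable {Γ P Ω : Type*} [Group Γ] [Group P] [MulAction P Ω] (σ : Γ →* P)

/-- preimage of a point stabiliser -/
def Sh (p : Ω) : Subgroup Γ := (stabilizer P p).comap σ

/-- the canonical perfect lift of a point stabiliser -/
def Lf (p : Ω) : Subgroup Γ := ⁅Sh σ p, Sh σ p⁆

theorem mem_Sh {p : Ω} {a : Γ} : a ∈ Sh σ p ↔ σ a • p = p := Iff.rfl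

theorem Lf_le_Sh (p : Ω) : Lf σ p ≤ Sh σ p := by
  unfold Lf
  rw [commutator_le]
  intro a ha b hb
  exact mul_mem (mul_mem (mul_mem ha hb) (inv_mem ha)) (inv_mem hb)

theorem Lf_fix {p : Ω} {a : Γ} (ha : a ∈ Lf σ p) : σ a • p = p := Lf_le_Sh σ p ha

theorem conj_mem_Sh {p : Ω} (γ : Γ) {a : Γ} (ha : a ∈ Sh σ p) :
    γ * a * γ⁻¹ ∈ Sh σ (σ γ • p) := by
  rw [mem_Sh] at ha ⊢
  rw [map_mul, map_mul, map_inv, mul_smul, mul_smul, inv_smul_smul, ha]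

theorem conj_mem_Lf {p : Ω} (γ : Γ) {a : Γ} (ha : a ∈ Lf σ p) :
    γ * a * γ⁻¹ ∈ Lf σ (σ γ • p) := by
  have h : (Lf σ p).map (MulAut.conj γ).toMonoidHom ≤ Lf σ (σ γ • p) := by
    unfold Lf
    rw [map_commutator]
    apply commutator_mono <;>
    · rintro _ ⟨x, hx, rfl⟩
      exact conj_mem_Sh σ γ hx
  exact h ⟨a, ha, rfl⟩

theorem conj_mem_Lf' {p r : Ω} (γ : Γ) (hr : σ γ • p = r) {a : Γ} (ha : a ∈ Lf σ p) :
    γ * a * γ⁻¹ ∈ Lf σ r := hr ▸ conj_mem_Lf σ γ ha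

/-- Perfect stabilisers lift onto `Lf`. -/
theorem lift_of_perfect (p : Ω)
    (h : σ.range ⊓ stabilizer P p ≤ ⁅σ.range ⊓ stabilizer P p, σ.range ⊓ stabilizer P p⁆)
    (γ : Γ) (hγ : σ γ • p = p) : ∃ a ∈ Lf σ p, σ a = σ γ := by
  have h1 : (Lf σ p).map σ = ⁅σ.range ⊓ stabilizer P p, σ.range ⊓ stabilizer P p⁆ := by
    unfold Lf Sh
    rw [map_commutator, map_comap_eq]
  have h2 : σ γ ∈ (Lf σ p).map σ := by
    rw [h1]
    exact h ⟨⟨γ, rfl⟩, hγ⟩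
  obtain ⟨a, ha, hh⟩ := h2
  exact ⟨a, ha, hh⟩

theorem lift_conj {p : Ω} (h : ∀ γ : Γ, σ γ • p = p → ∃ a ∈ Lf σ p, σ a = σ γ) (δ : Γ) :
    ∀ γ : Γ, σ γ • (σ δ • p) = σ δ • p → ∃ a ∈ Lf σ (σ δ • p), σ a = σ γ := by
  intro γ hγ
  obtain ⟨a, ha, hh⟩ := h (δ⁻¹ * γ * δ) (by
    rw [map_mul, map_mul, map_inv, mul_smul, mul_smul, hγ, inv_smul_smul])
  refine ⟨δ * a * δ⁻¹, conj_mem_Lf σ δ ha, ?_⟩
  rw [map_mul, map_mul, hh, map_mul, map_mul, map_inv]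
  group

/-- The set of discrepancies between the lifts at `p` and at `q`. -/
def Wset (p q : Ω) : Set Γ := {z | ∃ a ∈ Lf σ p, ∃ b ∈ Lf σ q, σ a = σ b ∧ z = a⁻¹ * b}

theorem Wset_ker {p q : Ω} {z : Γ} (hz : z ∈ Wset σ p q) : z ∈ σ.ker := by
  obtain ⟨a, _, b, _, h, rfl⟩ := hz
  rw [MonoidHom.mem_ker, map_mul, map_inv, h, inv_mul_cancel]

section central

variable {σ} (hc : σ.ker ≤ center Γ)
include hc

theorem ker_comm {z : Γ} (hz : z ∈ σ.ker) (γ : Γ) : z * γ = γ * z :=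
  (mem_center_iff.1 (hc hz) γ).symm

theorem Wset_conj {p q : Ω} {z : Γ} (hz : z ∈ Wset σ p q) (γ : Γ) :
    z ∈ Wset σ (σ γ • p) (σ γ • q) := by
  have hk := Wset_ker σ hz
  obtain ⟨a, ha, b, hb, h, rfl⟩ := hz
  refine ⟨γ * a * γ⁻¹, conj_mem_Lf σ γ ha, γ * b * γ⁻¹, conj_mem_Lf σ γ hb, ?_, ?_⟩
  · simp only [map_mul, map_inv, h]
  · have e : (γ * a * γ⁻¹)⁻¹ * (γ * b * γ⁻¹) = γ * (a⁻¹ * b) * γ⁻¹ := by group
    rw [e, ← ker_comm hc hk γ, mul_inv_cancel_right]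

/-- The discrepancies form a subgroup. -/
def Wg (p q : Ω) : Subgroup Γ where
  carrier := Wset σ p q
  one_mem' := ⟨1, one_mem _, 1, one_mem _, rfl, by simp⟩
  mul_mem' := by
    rintro x y hx ⟨c, hc1, d, hd, h2, rfl⟩
    have hk := Wset_ker σ hx
    obtain ⟨a, ha, b, hb, h1, rfl⟩ := hx
    refine ⟨a * c, mul_mem ha hc1, b * d, mul_mem hb hd, by rw [map_mul, map_mul, h1, h2], ?_⟩
    calc a⁻¹ * b * (c⁻¹ * d) = (a⁻¹ * b * c⁻¹) * d := by group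
      _ = (c⁻¹ * (a⁻¹ * b)) * d := by rw [ker_comm hc hk c⁻¹]
      _ = (a * c)⁻¹ * (b * d) := by group
  inv_mem' := by
    rintro x hx
    have hk := Wset_ker σ hx
    obtain ⟨a, ha, b, hb, h1, rfl⟩ := hx
    refine ⟨a⁻¹, inv_mem ha, b⁻¹, inv_mem hb, by rw [map_inv, map_inv, h1], ?_⟩
    have e : a⁻¹ * b = b * a⁻¹ := by
      have := ker_comm hc hk a
      calc a⁻¹ * b = (a⁻¹ * b * a) * a⁻¹ := by group
        _ = (a * (a⁻¹ * b)) * a⁻¹ := by rw [this]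
        _ = b * a⁻¹ := by group
    rw [e]; group

theorem mem_Wg {p q : Ω} {z : Γ} : z ∈ Wg hc p q ↔ z ∈ Wset σ p q := Iff.rfl

theorem Wg_le_ker (p q : Ω) : Wg hc p q ≤ σ.ker := fun _ hz => Wset_ker σ hz

instance Wg_normal (p q : Ω) : (Wg hc p q).Normal where
  conj_mem := by
    intro n hn g
    rw [← ker_comm hc (Wg_le_ker hc p q hn) g, mul_inv_cancel_right]
    exact hn

theorem commutator_congr {g1 g2 s1 s2 : Γ} (h1 : σ g1 = σ s1) (h2 : σ g2 = σ s2) :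
    ⁅g1, g2⁆ = ⁅s1, s2⁆ := by
  have k1 : s1⁻¹ * g1 ∈ σ.ker := by rw [MonoidHom.mem_ker, map_mul, map_inv, h1, inv_mul_cancel]
  have k2 : s2⁻¹ * g2 ∈ σ.ker := by rw [MonoidHom.mem_ker, map_mul, map_inv, h2, inv_mul_cancel]
  have e1 : g1 = s1 * (s1⁻¹ * g1) := by group
  have e2 : g2 = s2 * (s2⁻¹ * g2) := by group
  set z1 := s1⁻¹ * g1
  set z2 := s2⁻¹ * g2
  have c1 := ker_comm hc k1
  have c2 := ker_comm hc k2
  rw [e1, e2, commutatorElement_def, commutatorElement_def]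
  calc s1 * z1 * (s2 * z2) * (s1 * z1)⁻¹ * (s2 * z2)⁻¹
      = s1 * (z1 * s2) * (z2 * z1⁻¹) * s1⁻¹ * z2⁻¹ * s2⁻¹ := by group
    _ = s1 * (s2 * z1) * (z1⁻¹ * z2) * s1⁻¹ * z2⁻¹ * s2⁻¹ := by rw [c1 s2, c2 z1⁻¹]
    _ = s1 * s2 * (z2 * s1⁻¹) * z2⁻¹ * s2⁻¹ := by group
    _ = s1 * s2 * (s1⁻¹ * z2) * z2⁻¹ * s2⁻¹ := by rw [c2 s1⁻¹]
    _ = s1 * s2 * s1⁻¹ * s2⁻¹ := by group

end central


/-- Hypotheses: central stem kernel, triple transitivity of the image on the invariant set `X`,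
lifting of point stabilisers to the subgroups `Lf`. -/
structure T3Data (σ : Γ →* P) (X : Set Ω) : Prop where
  central : σ.ker ≤ center Γ
  stem : σ.ker ≤ commutator Γ
  inv : ∀ γ : Γ, ∀ x ∈ X, σ γ • x ∈ X
  t2 : ∀ a ∈ X, ∀ b ∈ X, a ≠ b → ∀ a' ∈ X, ∀ b' ∈ X, a' ≠ b' →
    ∃ γ : Γ, σ γ • a = a' ∧ σ γ • b = b'
  t3 : ∀ a ∈ X, ∀ b ∈ X, ∀ c ∈ X, a ≠ b → a ≠ c → b ≠ c →
    ∀ a' ∈ X, ∀ b' ∈ X, ∀ c' ∈ X, a' ≠ b' → a' ≠ c' → b' ≠ c' →
    ∃ γ : Γ, σ γ • a = a' ∧ σ γ • b = b' ∧ σ γ • c = c'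
  lift : ∀ p ∈ X, ∀ γ : Γ, σ γ • p = p → ∃ a ∈ Lf σ p, σ a = σ γ

namespace T3Data

variable {σ} {X : Set Ω} (D : T3Data σ X)
include D

theorem Wset_sub {p q p' q' : Ω} (hp : p ∈ X) (hq : q ∈ X) (hpq : p ≠ q) (hp' : p' ∈ X)
    (hq' : q' ∈ X) (hpq' : p' ≠ q') {z : Γ} (hz : z ∈ Wset σ p q) : z ∈ Wset σ p' q' := by
  obtain ⟨γ, h1, h2⟩ := D.t2 p hp q hq hpq p' hp' q' hq' hpq'
  have := Wset_conj D.central hz γ
  rwa [h1, h2] at this

omit D in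
theorem ker_Lf_mem {p q : Ω} {y : Γ} (hy : y ∈ Lf σ p) (hk : σ y = 1) : y ∈ Wset σ p q :=
  ⟨y⁻¹, inv_mem hy, 1, one_mem _, by rw [map_inv, hk, inv_one, map_one], by simp⟩

section main

variable {p1 p2 p3 p4 : Ω} (h1 : p1 ∈ X) (h2 : p2 ∈ X) (h3 : p3 ∈ X) (h4 : p4 ∈ X)
  (h12 : p1 ≠ p2) (h13 : p1 ≠ p3) (h14 : p1 ≠ p4) (h23 : p2 ≠ p3) (h24 : p2 ≠ p4) (h34 : p3 ≠ p4)

/-- the quotient map modulo the discrepancy group -/
abbrev qm (p1 p2 : Ω) : Γ →* Γ ⧸ Wg D.central p1 p2 := QuotientGroup.mk' (Wg D.central p1 p2)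

include h1 h2 h12

theorem qm_eq_of {x y : Γ} {p q : Ω} (hp : p ∈ X) (hq : q ∈ X) (hpq : p ≠ q)
    (h : x⁻¹ * y ∈ Wset σ p q) : D.qm p1 p2 x = D.qm p1 p2 y :=
  QuotientGroup.eq.2 (D.Wset_sub hp hq hpq h1 h2 h12 h)

/-- transfer between the lifts at two different points -/
theorem tr {p q : Ω} (hp : p ∈ X) (hq : q ∈ X) (hpq : p ≠ q) {c : Γ} (hc : c ∈ Lf σ q)
    (hcp : σ c • p = p) : ∃ a ∈ Lf σ p, D.qm p1 p2 c = D.qm p1 p2 a := by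
  obtain ⟨a, ha, hh⟩ := D.lift p hp c hcp
  exact ⟨a, ha, (D.qm_eq_of h1 h2 h12 hp hq hpq ⟨a, ha, c, hc, hh, rfl⟩).symm⟩

/-- uniqueness of lifts modulo the discrepancy group -/
theorem uniq {p : Ω} (hp : p ∈ X) {a b : Γ} (ha : a ∈ Lf σ p) (hb : b ∈ Lf σ p)
    (h : σ a = σ b) : D.qm p1 p2 a = D.qm p1 p2 b := by
  have hq : ∃ q ∈ X, p ≠ q := by
    by_cases e : p = p1
    · exact ⟨p2, h2, e ▸ h12⟩
    · exact ⟨p1, h1, e⟩
  obtain ⟨q, hq, hpq⟩ := hq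
  exact D.qm_eq_of h1 h2 h12 hp hq hpq
    (ker_Lf_mem (mul_mem (inv_mem ha) hb) (by rw [map_mul, map_inv, h, inv_mul_cancel]))


variable {T : Γ} (hT : T ∈ Lf σ p3) (hT1 : σ T • p1 = p2) (hT2 : σ T • p2 = p1)

include hT1 hT2 in
theorem conjT {d : Γ} (hd : d ∈ Lf σ p1) (hd2 : σ d • p2 = p2) :
    ∃ a ∈ Lf σ p1, D.qm p1 p2 (T * d * T⁻¹) = D.qm p1 p2 a := by
  apply D.tr h1 h2 h12 h1 h2 h12 (conj_mem_Lf' σ T hT1 hd)
  have e : (σ T)⁻¹ • p1 = p2 := inv_smul_eq_iff.2 hT2.symm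
  rw [map_mul, map_mul, map_inv, mul_smul, mul_smul, e, hd2, hT2]

include hT1 hT2 in
theorem conjT' {d : Γ} (hd : d ∈ Lf σ p1) (hd2 : σ d • p2 = p2) :
    ∃ a ∈ Lf σ p1, D.qm p1 p2 (T⁻¹ * d * T) = D.qm p1 p2 a := by
  have e : (σ T)⁻¹ • p1 = p2 := inv_smul_eq_iff.2 hT2.symm
  have e' : (σ T)⁻¹ • p2 = p1 := inv_smul_eq_iff.2 hT1.symm
  have hm : T⁻¹ * d * T ∈ Lf σ p2 := by
    have := conj_mem_Lf' σ T⁻¹ (r := p2) (by rw [map_inv, e]) hd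
    rwa [inv_inv] at this
  apply D.tr h1 h2 h12 h1 h2 h12 hm
  rw [map_mul, map_mul, map_inv, mul_smul, mul_smul, hT1, hd2, e']

include h3 h13 hT hT1 hT2 in
theorem sqT : ∃ a ∈ Lf σ p1, D.qm p1 p2 (T * T) = D.qm p1 p2 a := by
  apply D.tr h1 h2 h12 h1 h3 h13 (mul_mem hT hT)
  rw [map_mul, mul_smul, hT1, hT2]

/-- normal form modulo the discrepancy group -/
def InS (p1 p2 : Ω) (T γ : Γ) : Prop :=
  (∃ a ∈ Lf σ p1, D.qm p1 p2 γ = D.qm p1 p2 a) ∨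
  (∃ a ∈ Lf σ p1, ∃ b ∈ Lf σ p1, D.qm p1 p2 γ = D.qm p1 p2 a * D.qm p1 p2 T * D.qm p1 p2 b)

include h3 h4 h13 h14 h23 h24 h34 hT hT1 hT2 in
theorem key {a : Γ} (ha : a ∈ Lf σ p1) : D.InS p1 p2 T (T * a * T) := by
  have hT3 : σ T • p3 = p3 := Lf_fix σ hT
  have ha1 : σ a • p1 = p1 := Lf_fix σ ha
  obtain ⟨s, hs, hsq⟩ := D.sqT h1 h2 h3 h12 h13 hT hT1 hT2
  by_cases hcase : σ a • p2 = p2
  · obtain ⟨a', ha', h'⟩ := D.conjT h1 h2 h12 hT1 hT2 ha hcase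
    refine Or.inl ⟨a' * s, mul_mem ha' hs, ?_⟩
    have e : T * a * T = (T * a * T⁻¹) * (T * T) := by group
    rw [e, map_mul, h', hsq, map_mul]
  · -- the generic case
    set y := σ a • p2 with hy
    have hyX : y ∈ X := D.inv a p2 h2
    have hy1 : p1 ≠ y := by
      intro e
      apply h12
      have : σ a • p1 = σ a • p2 := by rw [ha1, ← hy, ← e]
      exact smul_left_cancel _ this
    have hy2 : p2 ≠ y := fun e => hcase e.symm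
    obtain ⟨m0, hm1, hm3, hm2⟩ := D.t3 p1 h1 p3 h3 p2 h2 h13 h12 (Ne.symm h23) p1 h1 p3 h3 p4 h4
      h13 h14 h34
    obtain ⟨d0, hd1, hd2, hd4⟩ := D.t3 p1 h1 p2 h2 p4 h4 h12 h14 h24 p1 h1 p2 h2 y hyX h12 hy1 hy2
    obtain ⟨Am, hAm, hAm'⟩ := D.lift p1 h1 m0 hm1
    obtain ⟨Ad, hAd, hAd'⟩ := D.lift p1 h1 d0 hd1
    -- the remaining factor
    have hAe : (Ad * Am)⁻¹ * a ∈ Lf σ p1 := mul_mem (inv_mem (mul_mem hAd hAm)) ha
    set Ae := (Ad * Am)⁻¹ * a with hAedef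
    have hAe2 : σ Ae • p2 = p2 := by
      rw [hAedef, map_mul, map_inv, map_mul, hAd', hAm', mul_smul, ← hy, inv_smul_eq_iff, mul_smul,
        hm2, hd4]
    have hadec : a = Ad * Am * Ae := by rw [hAedef]; group
    obtain ⟨a1, ha1', e1⟩ := D.conjT h1 h2 h12 hT1 hT2 hAd (by rw [hAd', hd2])
    obtain ⟨a3, ha3', e3⟩ := D.conjT' h1 h2 h12 hT1 hT2 hAe hAe2
    -- the middle factor
    obtain ⟨Cm, hCm, eCm⟩ := D.tr h1 h2 h12 h3 h1 (Ne.symm h13) hAm (by rw [hAm', hm3])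
    have hCmσ : σ Cm • p2 = p4 := by
      -- `Cm` and `Am` differ by an element of the kernel
      have : (D.qm p1 p2 Am) = D.qm p1 p2 Cm := eCm
      have hk := Wg_le_ker D.central p1 p2 (QuotientGroup.eq.1 this)
      rw [MonoidHom.mem_ker, map_mul, map_inv, inv_mul_eq_one] at hk
      rw [← hk, hAm', hm2]
    set r := σ T • p4 with hr
    have hrX : r ∈ X := D.inv T p4 h4
    have hr1 : p1 ≠ r := by
      intro e
      apply h24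
      have : σ T • p2 = σ T • p4 := by rw [hT2, ← hr, ← e]
      exact smul_left_cancel _ this
    have hr3 : p3 ≠ r := by
      intro e
      apply h34
      have : σ T • p3 = σ T • p4 := by rw [hT3, ← hr, ← e]
      exact smul_left_cancel _ this
    obtain ⟨u0, hu1, hu3, hu2⟩ := D.t3 p1 h1 p3 h3 p2 h2 h13 h12 (Ne.symm h23) p1 h1 p3 h3 r hrX
      h13 hr1 hr3
    obtain ⟨Cu, hCu, hCu'⟩ := D.lift p3 h3 u0 hu3
    have hCv : (Cu * T)⁻¹ * (T * Cm * T) ∈ Lf σ p3 :=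
      mul_mem (inv_mem (mul_mem hCu hT)) (mul_mem (mul_mem hT hCm) hT)
    set Cv := (Cu * T)⁻¹ * (T * Cm * T) with hCvdef
    have hCv1 : σ Cv • p1 = p1 := by
      rw [hCvdef, map_mul, map_inv, map_mul, map_mul, map_mul, hCu', mul_smul, mul_smul, mul_smul,
        hT1, hCmσ, ← hr, inv_smul_eq_iff, mul_smul, hT1, hu2]
    have hmid : T * Cm * T = Cu * T * Cv := by rw [hCvdef]; group
    obtain ⟨au, hau, eu⟩ := D.tr h1 h2 h12 h1 h3 h13 hCu (by rw [hCu', hu1])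
    obtain ⟨av, hav, ev⟩ := D.tr h1 h2 h12 h1 h3 h13 hCv hCv1
    refine Or.inr ⟨a1 * au, mul_mem ha1' hau, av * a3, mul_mem hav ha3', ?_⟩
    have e : T * a * T = (T * Ad * T⁻¹) * (T * Am * T) * (T⁻¹ * Ae * T) := by
      rw [hadec]; group
    have e2 : D.qm p1 p2 (T * Am * T) = D.qm p1 p2 (T * Cm * T) := by
      simp only [map_mul, eCm]
    rw [e, map_mul, map_mul, e1, e3, e2, hmid, map_mul, map_mul, eu, ev, map_mul, map_mul]
    simp only [mul_assoc]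


omit h1 h2 h12 in
theorem InS_mul_left {a γ : Γ} (ha : a ∈ Lf σ p1) (h : D.InS p1 p2 T γ) :
    D.InS p1 p2 T (a * γ) := by
  rcases h with ⟨b, hb, e⟩ | ⟨b, hb, c, hc, e⟩
  · exact Or.inl ⟨a * b, mul_mem ha hb, by rw [map_mul, e, map_mul]⟩
  · exact Or.inr ⟨a * b, mul_mem ha hb, c, hc, by rw [map_mul, e, map_mul]; simp only [mul_assoc]⟩

omit h1 h2 h12 in
theorem InS_mul_right {a γ : Γ} (ha : a ∈ Lf σ p1) (h : D.InS p1 p2 T γ) :
    D.InS p1 p2 T (γ * a) := by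
  rcases h with ⟨b, hb, e⟩ | ⟨b, hb, c, hc, e⟩
  · exact Or.inl ⟨b * a, mul_mem hb ha, by rw [map_mul, e, map_mul]⟩
  · exact Or.inr ⟨b, hb, c * a, mul_mem hc ha, by rw [map_mul, e, map_mul]; simp only [mul_assoc]⟩

omit h1 h2 h12 in
theorem InS_congr {γ δ : Γ} (e : D.qm p1 p2 γ = D.qm p1 p2 δ) (h : D.InS p1 p2 T γ) :
    D.InS p1 p2 T δ := by
  unfold InS at h ⊢
  rwa [e] at h

include h3 h4 h13 h14 h23 h24 h34 hT hT1 hT2 in
theorem InS_T_mul {γ : Γ} (h : D.InS p1 p2 T γ) : D.InS p1 p2 T (T * γ) := by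
  rcases h with ⟨b, hb, e⟩ | ⟨b, hb, c, hc, e⟩
  · exact Or.inr ⟨1, one_mem _, b, hb, by rw [map_mul, e, map_one, one_mul]⟩
  · have hk := D.key h1 h2 h3 h4 h12 h13 h14 h23 h24 h34 hT hT1 hT2 hb
    have := D.InS_mul_right hc hk
    refine D.InS_congr ?_ this
    rw [map_mul, map_mul, map_mul, map_mul, e]
    simp only [mul_assoc]

include h3 h4 h13 h14 h23 h24 h34 hT hT1 hT2 in
theorem InS_closure {γ : Γ} (h : γ ∈ closure ((Lf σ p1 : Set Γ) ∪ {T})) : D.InS p1 p2 T γ := by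
  obtain ⟨s, hs, hsq⟩ := D.sqT h1 h2 h3 h12 h13 hT hT1 hT2
  induction h using closure_induction_left with
  | one => exact Or.inl ⟨1, one_mem _, rfl⟩
  | mul_left x hx y _ ih =>
    rcases hx with hx | hx
    · exact D.InS_mul_left hx ih
    · rw [Set.mem_singleton_iff.1 hx]
      exact D.InS_T_mul h1 h2 h3 h4 h12 h13 h14 h23 h24 h34 hT hT1 hT2 ih
  | inv_mul_cancel x hx y _ ih =>
    rcases hx with hx | hx
    · exact D.InS_mul_left (inv_mem hx) ih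
    · rw [Set.mem_singleton_iff.1 hx]
      have h5 := D.InS_mul_left (inv_mem hs)
        (D.InS_T_mul h1 h2 h3 h4 h12 h13 h14 h23 h24 h34 hT hT1 hT2 ih)
      refine D.InS_congr ?_ h5
      have e : T⁻¹ * y = (T * T)⁻¹ * (T * y) := by group
      rw [e, map_mul, map_mul _ (T * T)⁻¹, map_inv, map_inv, hsq]

include hT1 in
theorem exists_closure (γ : Γ) : ∃ s ∈ closure ((Lf σ p1 : Set Γ) ∪ {T}), σ s = σ γ := by
  have hL : ∀ a ∈ Lf σ p1, a ∈ closure ((Lf σ p1 : Set Γ) ∪ {T}) :=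
    fun a ha => subset_closure (Or.inl ha)
  have hTm : T ∈ closure ((Lf σ p1 : Set Γ) ∪ {T}) := subset_closure (Or.inr rfl)
  by_cases hcase : σ γ • p1 = p1
  · obtain ⟨a, ha, e⟩ := D.lift p1 h1 γ hcase
    exact ⟨a, hL a ha, e⟩
  · obtain ⟨η, e1, e2⟩ := D.t2 p1 h1 p2 h2 h12 p1 h1 (σ γ • p1) (D.inv γ p1 h1)
      (fun e => hcase e.symm)
    obtain ⟨h, hh, eh⟩ := D.lift p1 h1 η e1
    obtain ⟨h', hh', eh'⟩ := D.lift p1 h1 ((h * T)⁻¹ * γ) (by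
      rw [map_mul, map_inv, map_mul, eh, mul_smul, inv_smul_eq_iff, mul_smul, hT1, e2])
    refine ⟨h * T * h', mul_mem (mul_mem (hL h hh) hTm) (hL h' hh'), ?_⟩
    rw [map_mul, eh', ← map_mul, mul_inv_cancel_left]

include h3 h4 h13 h14 h23 h24 h34 in
/-- **Main theorem.**  The kernel consists of discrepancies between the lifts at two points. -/
theorem ker_le_Wg : σ.ker ≤ Wg D.central p1 p2 := by
  obtain ⟨τ, t1, t2, t3⟩ := D.t3 p1 h1 p2 h2 p3 h3 h12 h13 h23 p2 h2 p1 h1 p3 h3 (Ne.symm h12) h23 h13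
  obtain ⟨T, hT, eT⟩ := D.lift p3 h3 τ t3
  have hT1 : σ T • p1 = p2 := by rw [eT, t1]
  have hT2 : σ T • p2 = p1 := by rw [eT, t2]
  intro z hz
  have hcl : commutator Γ ≤ closure ((Lf σ p1 : Set Γ) ∪ {T}) := by
    rw [commutator_def, commutator_le]
    intro g1 _ g2 _
    obtain ⟨s1, hs1, e1⟩ := D.exists_closure h1 h2 h12 hT1 g1
    obtain ⟨s2, hs2, e2⟩ := D.exists_closure h1 h2 h12 hT1 g2
    rw [commutator_congr D.central e1.symm e2.symm]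
    exact mul_mem (mul_mem (mul_mem hs1 hs2) (inv_mem hs1)) (inv_mem hs2)
  have hzS := D.InS_closure h1 h2 h3 h4 h12 h13 h14 h23 h24 h34 hT hT1 hT2 (hcl (D.stem hz))
  have hz1 : σ z = 1 := hz
  rcases hzS with ⟨a, ha, e⟩ | ⟨a, ha, b, hb, e⟩
  · have hw : z⁻¹ * a ∈ Wg D.central p1 p2 := QuotientGroup.eq.1 e
    have hk := Wg_le_ker D.central p1 p2 hw
    rw [MonoidHom.mem_ker, map_mul, map_inv, hz1, inv_one, one_mul] at hk
    have haW : a ∈ Wg D.central p1 p2 := ker_Lf_mem ha hk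
    have : z = a * (z⁻¹ * a)⁻¹ := by group
    rw [this]
    exact mul_mem haW (inv_mem hw)
  · exfalso
    rw [← map_mul, ← map_mul] at e
    have hw : z⁻¹ * (a * T * b) ∈ Wg D.central p1 p2 := QuotientGroup.eq.1 e
    have hk := Wg_le_ker D.central p1 p2 hw
    rw [MonoidHom.mem_ker, map_mul, map_inv, hz1, inv_one, one_mul, map_mul, map_mul] at hk
    apply h12
    have h5 : (σ a * σ T * σ b) • p1 = p1 := by rw [hk, one_smul]
    rw [mul_smul, mul_smul, Lf_fix σ hb, hT1] at h5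
    have h6 : σ a • p2 = σ a • p1 := by rw [h5, Lf_fix σ ha]
    exact (smul_left_cancel _ h6).symm

end main

end T3Data

end Cfsg.Agent.Lib.Helper10
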