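import Cfsg.Agent.Lib.Helper10.Mult3
import Cfsg.Prelude.Def_KGroupFacts

set_option autoImplicit false

/-! Consequences of the main theorem of `Mult3` for Schur multipliers. -/

namespace Cfsg.Agent.Lib.Helper10

open Subgroup MulAction Cfsg
open scoped commutatorElement

variable {Γ P Ω : Type*} [Group Γ] [Group P] [MulAction P Ω] (σ : Γ →* P)

/-- the stabiliser of a point in the image of `σ` -/
abbrev Mst (p : Ω) : Subgroup P := σ.range ⊓ stabilizer P p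

/-- the stabiliser of two points in the image of `σ` -/
abbrev Dst (p q : Ω) : Subgroup P := σ.range ⊓ (stabilizer P p ⊓ stabilizer P q)

/-- the restriction of `σ` to the canonical lift of a point stabiliser -/
def resL (p : Ω) : ↥(Lf σ p) →* ↥(Mst σ p) :=
  (σ.comp (Lf σ p).subtype).codRestrict _ (fun a => ⟨⟨a.1, rfl⟩, Lf_fix σ a.2⟩)

theorem resL_val (p : Ω) (a : ↥(Lf σ p)) : ((resL σ p a : ↥(Mst σ p)) : P) = σ a.1 := rfl

variable {σ}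

theorem Lf_perfect (hc : σ.ker ≤ center Γ) {p : Ω}
    (hl : ∀ γ : Γ, σ γ • p = p → ∃ a ∈ Lf σ p, σ a = σ γ) : Lf σ p ≤ ⁅Lf σ p, Lf σ p⁆ := by
  conv_lhs => unfold Lf
  rw [commutator_le]
  intro a ha b hb
  obtain ⟨a', ha', ea⟩ := hl a ha
  obtain ⟨b', hb', eb⟩ := hl b hb
  rw [commutator_congr hc ea.symm eb.symm]
  exact commutator_mem_commutator ha' hb'

theorem resL_stem (hc : σ.ker ≤ center Γ) {p : Ω}
    (hl : ∀ γ : Γ, σ γ • p = p → ∃ a ∈ Lf σ p, σ a = σ γ) : IsStemExtension (resL σ p) := by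
  refine ⟨?_, ?_, ?_⟩
  · rintro ⟨x, ⟨γ, rfl⟩, hx⟩
    obtain ⟨a, ha, e⟩ := hl γ hx
    exact ⟨⟨a, ha⟩, Subtype.ext e⟩
  · intro a ha
    have h1 : σ a.1 = 1 := congrArg Subtype.val (MonoidHom.mem_ker.1 ha)
    rw [mem_center_iff]
    intro g
    exact Subtype.ext (mem_center_iff.1 (hc h1) g.1)
  · intro a _
    have h1 := Lf_perfect hc hl a.2
    rw [← map_subtype_commutator] at h1
    obtain ⟨y, hy, e⟩ := h1
    have : y = a := Subtype.ext e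
    rwa [this] at hy

/-- If the point stabiliser has only trivial stem extensions, `σ` is injective on `Lf`. -/
theorem Lf_inj_of_stem (hc : σ.ker ≤ center Γ) {p : Ω}
    (hl : ∀ γ : Γ, σ γ • p = p → ∃ a ∈ Lf σ p, σ a = σ γ)
    (hs : IsStemExtension (resL σ p) → ∀ z ∈ (resL σ p).ker, z = 1) :
    ∀ a ∈ Lf σ p, σ a = 1 → a = 1 := by
  intro a ha h
  have := hs (resL_stem hc hl) ⟨a, ha⟩ (MonoidHom.mem_ker.2 (Subtype.ext h))
  exact congrArg Subtype.val this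

theorem map_comm_Sh (p q : Ω) :
    (⁅Sh σ p ⊓ Sh σ q, Sh σ p ⊓ Sh σ q⁆).map σ = ⁅Dst σ p q, Dst σ p q⁆ := by
  have : Sh σ p ⊓ Sh σ q = (stabilizer P p ⊓ stabilizer P q).comap σ := rfl
  rw [map_commutator, this, map_comap_eq]

theorem exists_common_lift {p q : Ω} {x : P} (hx : x ∈ ⁅Dst σ p q, Dst σ p q⁆) :
    ∃ c, c ∈ Lf σ p ∧ c ∈ Lf σ q ∧ σ c = x := by
  rw [← map_comm_Sh] at hx
  obtain ⟨c, hc, e⟩ := hx
  exact ⟨c, commutator_mono inf_le_left inf_le_left hc, commutator_mono inf_le_right inf_le_right hc,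
    e⟩

namespace T3Data

variable {X : Set Ω} (D : T3Data σ X)
include D

theorem ker_Lf_eq {p q : Ω} (hp : p ∈ X) (hq : q ∈ X) (hpq : p ≠ q) {y : Γ} (hy : y ∈ Lf σ p)
    (hk : σ y = 1) : y ∈ Lf σ q := by
  obtain ⟨γ, e1, _⟩ := D.t2 p hp q hq hpq q hq p hp (Ne.symm hpq)
  have := conj_mem_Lf' σ γ e1 hy
  rwa [← ker_comm D.central (MonoidHom.mem_ker.2 hk) γ, mul_inv_cancel_right] at this

variable {p1 p2 p3 p4 : Ω} (h1 : p1 ∈ X) (h2 : p2 ∈ X) (h3 : p3 ∈ X) (h4 : p4 ∈ X)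
  (h12 : p1 ≠ p2) (h13 : p1 ≠ p3) (h14 : p1 ≠ p4) (h23 : p2 ≠ p3) (h24 : p2 ≠ p4) (h34 : p3 ≠ p4)

include h1 h2 h3 h4 h12 h13 h14 h23 h24 h34

/-- Perfect two-point stabiliser: the kernel lies in the lift of a point stabiliser. -/
theorem ker_le_Lf (hD : Dst σ p1 p2 ≤ ⁅Dst σ p1 p2, Dst σ p1 p2⁆) : σ.ker ≤ Lf σ p1 := by
  intro z hz
  obtain ⟨a, ha, b, hb, e, rfl⟩ := D.ker_le_Wg h1 h2 h3 h4 h12 h13 h14 h23 h24 h34 hz
  have hx : σ a ∈ Dst σ p1 p2 := ⟨⟨a, rfl⟩, Lf_fix σ ha, by rw [e]; exact Lf_fix σ hb⟩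
  obtain ⟨c, hc1, hc2, ec⟩ := exists_common_lift (hD hx)
  have e1 : a⁻¹ * b = (a⁻¹ * c) * (c⁻¹ * b) := by group
  rw [e1]
  refine mul_mem (mul_mem (inv_mem ha) hc1) ?_
  exact D.ker_Lf_eq h2 h1 (Ne.symm h12) (mul_mem (inv_mem hc2) hb)
    (by rw [map_mul, map_inv, ec, e, inv_mul_cancel])

/-- Point stabiliser without stem extensions, two-point stabiliser with commutator subgroup of
index at most two: the kernel has at most two elements. -/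
theorem ker_two (hinj : ∀ a ∈ Lf σ p1, σ a = 1 → a = 1) (e : Γ) (he1 : σ e • p1 = p1)
    (he2 : σ e • p2 = p2)
    (hD : ∀ x ∈ Dst σ p1 p2, x ∈ ⁅Dst σ p1 p2, Dst σ p1 p2⁆ ∨
      x * σ e ∈ ⁅Dst σ p1 p2, Dst σ p1 p2⁆) :
    ∃ w ∈ σ.ker, ∀ z ∈ σ.ker, z = 1 ∨ z = w := by
  have hinj2 : ∀ a ∈ Lf σ p2, σ a = 1 → a = 1 := fun a ha h =>
    hinj a (D.ker_Lf_eq h2 h1 (Ne.symm h12) ha h) h
  have u1 : ∀ a ∈ Lf σ p1, ∀ b ∈ Lf σ p1, σ a = σ b → a = b := by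
    intro a ha b hb h
    have := hinj (a⁻¹ * b) (mul_mem (inv_mem ha) hb) (by rw [map_mul, map_inv, h, inv_mul_cancel])
    exact (inv_mul_eq_one.1 this)
  have u2 : ∀ a ∈ Lf σ p2, ∀ b ∈ Lf σ p2, σ a = σ b → a = b := by
    intro a ha b hb h
    have := hinj2 (a⁻¹ * b) (mul_mem (inv_mem ha) hb) (by rw [map_mul, map_inv, h, inv_mul_cancel])
    exact (inv_mul_eq_one.1 this)
  obtain ⟨ae, hae, eae⟩ := D.lift p1 h1 e he1
  obtain ⟨be, hbe, ebe⟩ := D.lift p2 h2 e he2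
  refine ⟨ae * be⁻¹, by rw [MonoidHom.mem_ker, map_mul, map_inv, eae, ebe, mul_inv_cancel], ?_⟩
  intro z hz
  obtain ⟨a, ha, b, hb, eab, rfl⟩ := D.ker_le_Wg h1 h2 h3 h4 h12 h13 h14 h23 h24 h34 hz
  have hx : σ a ∈ Dst σ p1 p2 := ⟨⟨a, rfl⟩, Lf_fix σ ha, by rw [eab]; exact Lf_fix σ hb⟩
  rcases hD _ hx with h | h
  · left
    obtain ⟨c, hc1, hc2, ec⟩ := exists_common_lift h
    rw [u1 a ha c hc1 ec.symm, u2 b hb c hc2 (by rw [ec, eab]), inv_mul_cancel]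
  · right
    obtain ⟨c, hc1, hc2, ec⟩ := exists_common_lift h
    have e1 : a * ae = c := u1 _ (mul_mem ha hae) c hc1 (by rw [map_mul, eae, ec])
    have e2 : b * be = c := u2 _ (mul_mem hb hbe) c hc2 (by rw [map_mul, ebe, ec, eab])
    have e3 : a = c * ae⁻¹ := by rw [← e1]; group
    have e4 : b = c * be⁻¹ := by rw [← e2]; group
    rw [e3, e4]; group

end T3Data

end Cfsg.Agent.Lib.Helper10
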