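import Cfsg.Agent.Lib.Helper10.DerivedAut
import Cfsg.Agent.S0357
import Cfsg.Agent.S1595

/-! An automorphism of an S(5,6,12) fixing five points is trivial. -/

set_option autoImplicit false
open Cfsg
open scoped Pointwise

namespace Cfsg.Agent.Lib.Helper10

section
variable {α : Type*} [Fintype α] [DecidableEq α]

theorem smul_block_eq {t k : ℕ} {B : Set (Finset α)} (hB : IsSteinerSystem t k B)
    {g : Equiv.Perm α} (hg : g ∈ setSystemAut B) {c : Finset α} (hc : c ∈ B)
    {T : Finset α} (hT : T.card = t) (h1 : T ⊆ c) (h2 : T ⊆ g • c) : g • c = c := by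
  obtain ⟨d, _, hd⟩ := hB.2 T hT
  exact (hd (g • c) ⟨smul_mem_of_mem_aut hg hc, h2⟩).trans (hd c ⟨hc, h1⟩).symm

theorem apply_mem_of_smul_eq {g : Equiv.Perm α} {c : Finset α} (h : g • c = c) {a : α}
    (ha : a ∈ c) : g a ∈ c := by
  rw [← h]
  exact Finset.smul_mem_smul_finset ha

theorem mem_smul_of_fix {g : Equiv.Perm α} {c : Finset α} {a : α} (ha : a ∈ c) (hf : g a = a) :
    a ∈ g • c := by
  rw [Finset.mem_smul_finset]
  exact ⟨a, ha, hf⟩

theorem exists_block_inter {B : Set (Finset α)} (hα : Fintype.card α = 12)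
    (hB : IsSteinerSystem 5 6 B) {b : Finset α} (hb : b ∈ B) {s : Finset α} (hs : s ⊆ b)
    (hc : s.card = 2 ∨ s.card = 3) : ∃ c ∈ B, b ∩ c = s := by
  have h := (Cfsg.Agent.S1595.result hα hB b hb).2 s hs
  have hne : {c : Finset α | c ∈ B ∧ b ∩ c = s}.ncard ≠ 0 := by
    rcases hc with hc | hc
    · rw [h.1 hc]; norm_num
    · rw [h.2.1 hc]; norm_num
  obtain ⟨c, hc⟩ := Set.nonempty_of_ncard_ne_zero hne
  exact ⟨c, hc.1, hc.2⟩

theorem rigid12 (hα : Fintype.card α = 12) {B : Set (Finset α)} (hB : IsSteinerSystem 5 6 B)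
    {g : Equiv.Perm α} (hg : g ∈ setSystemAut B) {s : Finset α} (hs : s.card = 5)
    (hfix : ∀ a ∈ s, g a = a) : g = 1 := by
  -- a block all of whose points but one are fixed is fixed pointwise
  have key : ∀ c ∈ B, ∀ z ∈ c, (∀ a ∈ c, a ≠ z → g a = a) → g z = z := by
    intro c hc z hz hf
    have hcard : (c.erase z).card = 5 := by rw [Finset.card_erase_of_mem hz, hB.1 c hc]
    have h1 : g • c = c := smul_block_eq hB hg hc hcard (Finset.erase_subset _ _) (by
      intro a ha
      rw [Finset.mem_erase] at ha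
      exact mem_smul_of_fix ha.2 (hf a ha.2 ha.1))
    have h2 := apply_mem_of_smul_eq h1 hz
    by_contra hne
    have h3 := hf _ h2 hne
    exact hne (g.injective h3)
  obtain ⟨b, ⟨hb, hsb⟩, _⟩ := hB.2 s hs
  have hb6 := hB.1 b hb
  have hfb : ∀ a ∈ b, g a = a := by
    have h1 : (b \ s).card = 1 := by rw [Finset.card_sdiff_of_subset hsb, hb6, hs]
    obtain ⟨z, hz⟩ := Finset.card_eq_one.1 h1
    have hzb : z ∈ b \ s := by rw [hz]; exact Finset.mem_singleton_self z
    have h2 : ∀ a ∈ b, a ≠ z → g a = a := by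
      intro a ha haz
      apply hfix
      by_contra has
      have : a ∈ b \ s := Finset.mem_sdiff.2 ⟨ha, has⟩
      rw [hz, Finset.mem_singleton] at this
      exact haz this
    intro a ha
    by_cases haz : a = z
    · rw [haz]
      exact key b hb z (Finset.mem_sdiff.1 hzb).1 h2
    · exact h2 a ha haz
  have hb' : bᶜ ∈ B := Cfsg.Agent.S0357.result hα hB hb
  have hb'6 := hB.1 _ hb'
  have hmaps : ∀ y ∈ bᶜ, g y ∈ bᶜ := by
    intro y hy
    rw [Finset.mem_compl] at hy ⊢
    intro h
    exact hy (g.injective (hfb _ h) ▸ h)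
  -- points of a block outside `bᶜ` are fixed
  have hout : ∀ c : Finset α, ∀ a ∈ c, a ∉ bᶜ ∩ c → g a = a := by
    intro c a ha hn
    apply hfb
    by_contra hab
    exact hn (Finset.mem_inter.2 ⟨Finset.mem_compl.2 hab, ha⟩)
  -- one fixed point in the complement suffices
  have stepA : ∀ y ∈ bᶜ, g y = y → ∀ z ∈ bᶜ, g z = z := by
    intro y hy hgy z hz
    by_cases hzy : z = y
    · rw [hzy]; exact hgy
    obtain ⟨c, hc, hbc⟩ := exists_block_inter hα hB hb' (s := {y, z}) (by
      intro a ha
      rcases Finset.mem_insert.1 ha with rfl | ha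
      · exact hy
      · rw [Finset.mem_singleton.1 ha]; exact hz) (Or.inl (Finset.card_pair (Ne.symm hzy)))
    have hzc : z ∈ c := by
      have : z ∈ bᶜ ∩ c := by rw [hbc]; simp
      exact (Finset.mem_inter.1 this).2
    apply key c hc z hzc
    intro a ha haz
    by_cases hab : a ∈ bᶜ ∩ c
    · rw [hbc] at hab
      rcases Finset.mem_insert.1 hab with rfl | hab
      · exact hgy
      · exact absurd (Finset.mem_singleton.1 hab) haz
    · exact hout c a ha hab
  -- `g` is an involution on the complement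
  have stepB : ∀ y ∈ bᶜ, g (g y) = y := by
    intro y hy
    by_cases hgy : g y = y
    · rw [hgy, hgy]
    obtain ⟨c, hc, hbc⟩ := exists_block_inter hα hB hb' (s := {y, g y}) (by
      intro a ha
      rcases Finset.mem_insert.1 ha with rfl | ha
      · exact hy
      · rw [Finset.mem_singleton.1 ha]; exact hmaps y hy) (Or.inl (Finset.card_pair (Ne.symm hgy)))
    have hyc : y ∈ c := by
      have : y ∈ bᶜ ∩ c := by rw [hbc]; simp
      exact (Finset.mem_inter.1 this).2
    have hgyc : g y ∈ c := by
      have : g y ∈ bᶜ ∩ c := by rw [hbc]; simp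
      exact (Finset.mem_inter.1 this).2
    have hcard : (c.erase y).card = 5 := by rw [Finset.card_erase_of_mem hyc, hB.1 c hc]
    have h1 : g • c = c := smul_block_eq hB hg hc hcard (Finset.erase_subset _ _) (by
      intro a ha
      rw [Finset.mem_erase] at ha
      by_cases hab : a ∈ bᶜ ∩ c
      · rw [hbc] at hab
        rcases Finset.mem_insert.1 hab with h | hab
        · exact absurd h ha.1
        · rw [Finset.mem_singleton.1 hab]
          exact Finset.smul_mem_smul_finset hyc
      · exact mem_smul_of_fix ha.2 (hout c a ha.2 hab))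
    have h2 : g (g y) ∈ bᶜ ∩ c :=
      Finset.mem_inter.2 ⟨hmaps _ (hmaps y hy), apply_mem_of_smul_eq h1 hgyc⟩
    rw [hbc] at h2
    rcases Finset.mem_insert.1 h2 with h | h
    · exact h
    · exact absurd (g.injective (Finset.mem_singleton.1 h)) hgy
  -- a fixed point in the complement
  have stepC : ∃ w ∈ bᶜ, g w = w := by
    obtain ⟨y, hy⟩ : (bᶜ : Finset α).Nonempty := by
      rw [← Finset.card_pos, hb'6]; norm_num
    by_cases hgy : g y = y
    · exact ⟨y, hy, hgy⟩
    have hpair : ({y, g y} : Finset α).card = 2 := Finset.card_pair (Ne.symm hgy)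
    have hsub : ({y, g y} : Finset α) ⊆ bᶜ := by
      intro a ha
      rcases Finset.mem_insert.1 ha with rfl | ha
      · exact hy
      · rw [Finset.mem_singleton.1 ha]; exact hmaps y hy
    obtain ⟨w, hw⟩ : (bᶜ \ {y, g y} : Finset α).Nonempty := by
      rw [← Finset.card_pos, Finset.card_sdiff_of_subset hsub, hb'6, hpair]; norm_num
    rw [Finset.mem_sdiff] at hw
    have hwy : w ≠ y := fun h => hw.2 (by rw [h]; simp)
    have hwgy : w ≠ g y := fun h => hw.2 (by rw [h]; simp)
    refine ⟨w, hw.1, ?_⟩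
    obtain ⟨c, hc, hbc⟩ := exists_block_inter hα hB hb' (s := insert w {y, g y}) (by
      intro a ha
      rcases Finset.mem_insert.1 ha with rfl | ha
      · exact hw.1
      · exact hsub ha) (Or.inr (by rw [Finset.card_insert_of_notMem hw.2, hpair]))
    have hmem : ∀ a ∈ insert w ({y, g y} : Finset α), a ∈ c := by
      intro a ha
      rw [← hbc] at ha
      exact (Finset.mem_inter.1 ha).2
    have hwc : w ∈ c := hmem w (by simp)
    have hyc : y ∈ c := hmem y (by simp)
    have hgyc : g y ∈ c := hmem (g y) (by simp)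
    have hcard : (c.erase w).card = 5 := by rw [Finset.card_erase_of_mem hwc, hB.1 c hc]
    have h1 : g • c = c := smul_block_eq hB hg hc hcard (Finset.erase_subset _ _) (by
      intro a ha
      rw [Finset.mem_erase] at ha
      by_cases hab : a ∈ bᶜ ∩ c
      · rw [hbc] at hab
        rcases Finset.mem_insert.1 hab with h | hab
        · exact absurd h ha.1
        · rcases Finset.mem_insert.1 hab with h | hab
          · rw [h, Finset.mem_smul_finset]
            exact ⟨g y, hgyc, stepB y hy⟩
          · rw [Finset.mem_singleton.1 hab]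
            exact Finset.smul_mem_smul_finset hyc
      · exact mem_smul_of_fix ha.2 (hout c a ha.2 hab))
    have h2 : g w ∈ bᶜ ∩ c :=
      Finset.mem_inter.2 ⟨hmaps _ hw.1, apply_mem_of_smul_eq h1 hwc⟩
    rw [hbc] at h2
    rcases Finset.mem_insert.1 h2 with h | h
    · exact h
    · rcases Finset.mem_insert.1 h with h | h
      · exfalso
        rw [← stepB y hy] at h
        exact hwgy (g.injective h)
      · exact absurd (g.injective (Finset.mem_singleton.1 h)) hwy
  obtain ⟨w, hw, hgw⟩ := stepC
  ext a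
  rw [Equiv.Perm.one_apply]
  by_cases hab : a ∈ b
  · exact hfb a hab
  · exact stepA w hw hgw a (Finset.mem_compl.2 hab)

end

end Cfsg.Agent.Lib.Helper10
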