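import Cfsg.Agent.Lib.Helper10.Steiner

/-! A strongly regular graph with parameters (100,22,0,6), seen from a vertex:
counting part. -/

set_option autoImplicit false

namespace Cfsg.Agent.Lib.Helper10

open Finset

theorem moment_idx {ι γ : Type*} [DecidableEq γ] (W : Finset ι) (S : ι → Finset γ)
    (X : Finset γ) (j L : ℕ)
    (hL : ∀ I ∈ X.powersetCard j, (W.filter (fun w => I ⊆ S w)).card = L) :
    ∑ w ∈ W, ((S w ∩ X).card).choose j = (X.card).choose j * L := by
  have key := sum_card_bipartiteAbove_eq_sum_card_bipartiteBelow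
    (s := X.powersetCard j) (t := W) (fun I w => I ⊆ S w)
  have h1 : ∀ I ∈ X.powersetCard j,
      (W.bipartiteAbove (fun I w => I ⊆ S w) I).card = L := by
    intro I hI
    rw [← hL I hI]
    rfl
  have h2 : ∀ w ∈ W,
      ((X.powersetCard j).bipartiteBelow (fun I w => I ⊆ S w) w).card
        = ((S w ∩ X).card).choose j := by
    intro w _
    rw [← card_powersetCard]
    congr 1
    ext I
    simp only [mem_bipartiteBelow, mem_powersetCard, subset_inter_iff]
    tauto
  rw [sum_congr rfl h1, sum_congr rfl h2, sum_const, smul_eq_mul, card_powersetCard] at key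
  exact key.symm

section srg
variable {V : Type*} [Fintype V] [DecidableEq V] {Γ : SimpleGraph V} [DecidableRel Γ.Adj]

theorem srg_card_nbr {n k l m : ℕ} (hG : Γ.IsSRGWith n k l m) (v : V) :
    (Γ.neighborFinset v).card = k := hG.regular v

theorem srg_cn_adj {n k l m : ℕ} (hG : Γ.IsSRGWith n k l m) {v w : V} (h : Γ.Adj v w) :
    (Γ.neighborFinset v ∩ Γ.neighborFinset w).card = l := by
  rw [← hG.of_adj v w h]
  symm
  apply Fintype.card_of_subtype
  intro x
  simp [SimpleGraph.mem_commonNeighbors]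

theorem srg_cn_nadj {n k l m : ℕ} (hG : Γ.IsSRGWith n k l m) {v w : V} (hne : v ≠ w)
    (h : ¬ Γ.Adj v w) : (Γ.neighborFinset v ∩ Γ.neighborFinset w).card = m := by
  rw [← hG.of_not_adj hne h]
  symm
  apply Fintype.card_of_subtype
  intro x
  simp [SimpleGraph.mem_commonNeighbors]

variable (hG : Γ.IsSRGWith 100 22 0 6) (v0 : V)
include hG

theorem srg100_no_tri {v w x : V} (h1 : Γ.Adj v w) (h2 : Γ.Adj v x) : ¬ Γ.Adj w x := by
  intro h3
  have h := srg_cn_adj hG h1
  rw [card_eq_zero] at h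
  have : x ∈ Γ.neighborFinset v ∩ Γ.neighborFinset w := by
    simp [h2, h3]
  rw [h] at this
  exact absurd this (notMem_empty x)

/-- the intersection pattern of the "blocks". -/
theorem srg100_inter {u w : V} (hu0 : u ≠ v0) (hu : ¬ Γ.Adj v0 u) (hw0 : w ≠ v0)
    (hw : ¬ Γ.Adj v0 w) (huw : u ≠ w) (hadj : ¬ Γ.Adj u w) :
    (Γ.neighborFinset w ∩ (Γ.neighborFinset u ∩ Γ.neighborFinset v0)).card = 1 ∨
    (Γ.neighborFinset w ∩ (Γ.neighborFinset u ∩ Γ.neighborFinset v0)).card = 2 := by
  set Q : Finset V := univ.filter (fun x => x ≠ v0 ∧ ¬ Γ.Adj v0 x) with hQ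
  set X : Finset V := Γ.neighborFinset u ∩ Γ.neighborFinset v0 with hX
  set W : Finset V := Q.erase u with hW
  have hX6 : X.card = 6 := srg_cn_nadj hG hu0 (fun h => hu h.symm)
  have hQc : Q.card = 77 := by
    have h1 : Q = (insert v0 (Γ.neighborFinset v0))ᶜ := by
      ext x
      simp [hQ]
    rw [h1, card_compl, hG.card, card_insert_of_notMem (by simp), srg_card_nbr hG]
  have huQ : u ∈ Q := by simp [hQ, hu0, hu]
  have hWc : W.card = 76 := by rw [hW, card_erase_of_mem huQ, hQc]
  -- neighbours of a point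
  have hnp : ∀ p, Γ.Adj v0 p → ∀ x, Γ.Adj p x → x ≠ v0 → x ∈ Q := by
    intro p hp x hpx hx0
    simp only [hQ, mem_filter, mem_univ, true_and]
    exact ⟨hx0, fun h => srg100_no_tri hG hp h hpx⟩
  have hXmem : ∀ p, p ∈ X ↔ Γ.Adj u p ∧ Γ.Adj v0 p := by
    intro p; simp [hX]
  have m0 := moment_idx W (fun w => Γ.neighborFinset w) X 0 76 (by
    intro I hI
    rw [mem_powersetCard, card_eq_zero] at hI
    rw [hI.2, ← hWc]
    congr 1
    ext x
    simp)
  have m1 := moment_idx W (fun w => Γ.neighborFinset w) X 1 20 (by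
    intro I hI
    rw [mem_powersetCard, card_eq_one] at hI
    obtain ⟨hIX, p, rfl⟩ := hI
    have hp := (hXmem p).1 (hIX (mem_singleton_self p))
    have h1 : W.filter (fun w => {p} ⊆ Γ.neighborFinset w)
        = ((Γ.neighborFinset p).erase v0).erase u := by
      ext x
      simp only [hW, mem_filter, mem_erase, singleton_subset_iff, SimpleGraph.mem_neighborFinset]
      constructor
      · rintro ⟨⟨hxu, hxQ⟩, hxp⟩
        simp only [hQ, mem_filter, mem_univ, true_and] at hxQ
        exact ⟨hxu, hxQ.1, hxp.symm⟩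
      · rintro ⟨hxu, hx0, hpx⟩
        exact ⟨⟨hxu, hnp p hp.2 x hpx hx0⟩, hpx.symm⟩
    rw [h1, card_erase_of_mem (by simp [hu0, hp.1.symm]), card_erase_of_mem (by simp [hp.2.symm]),
      srg_card_nbr hG])
  have m2 := moment_idx W (fun w => Γ.neighborFinset w) X 2 4 (by
    intro I hI
    rw [mem_powersetCard, card_eq_two] at hI
    obtain ⟨hIX, p, q, hpq, rfl⟩ := hI
    have hp := (hXmem p).1 (hIX (by simp))
    have hq := (hXmem q).1 (hIX (by simp))
    have h1 : W.filter (fun w => {p, q} ⊆ Γ.neighborFinset w)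
        = ((Γ.neighborFinset p ∩ Γ.neighborFinset q).erase v0).erase u := by
      ext x
      simp only [hW, mem_filter, mem_erase, insert_subset_iff, singleton_subset_iff, mem_inter,
        SimpleGraph.mem_neighborFinset]
      constructor
      · rintro ⟨⟨hxu, hxQ⟩, hxp, hxq⟩
        simp only [hQ, mem_filter, mem_univ, true_and] at hxQ
        exact ⟨hxu, hxQ.1, hxp.symm, hxq.symm⟩
      · rintro ⟨hxu, hx0, hpx, hqx⟩
        exact ⟨⟨hxu, hnp p hp.2 x hpx hx0⟩, hpx.symm, hqx.symm⟩
    rw [h1, card_erase_of_mem (by simp [hu0, hp.1.symm, hq.1.symm]),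
      card_erase_of_mem (by simp [hp.2.symm, hq.2.symm]),
      srg_cn_nadj hG hpq (srg100_no_tri hG hp.2 hq.2)])
  rw [hX6] at m0 m1 m2
  set f : V → ℤ := fun w => 2 * ((((Γ.neighborFinset w ∩ X).card).choose 2 : ℕ) : ℤ)
    - 2 * ((((Γ.neighborFinset w ∩ X).card).choose 1 : ℕ) : ℤ)
    + 2 * ((((Γ.neighborFinset w ∩ X).card).choose 0 : ℕ) : ℤ) with hf
  have hsum : ∑ w ∈ W, f w = 32 := by
    have m0' : ∑ w ∈ W, ((((Γ.neighborFinset w ∩ X).card).choose 0 : ℕ) : ℤ) = 76 := by
      exact_mod_cast m0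
    have m1' : ∑ w ∈ W, ((((Γ.neighborFinset w ∩ X).card).choose 1 : ℕ) : ℤ) = 120 := by
      exact_mod_cast m1
    have m2' : ∑ w ∈ W, ((((Γ.neighborFinset w ∩ X).card).choose 2 : ℕ) : ℤ) = 60 := by
      exact_mod_cast m2
    simp only [hf]
    rw [sum_add_distrib, sum_sub_distrib, ← mul_sum, ← mul_sum, ← mul_sum, m0', m1', m2']
    norm_num
  have hle : ∀ x, (Γ.neighborFinset x ∩ X).card ≤ 6 := by
    intro x
    rw [← hX6]
    exact card_le_card inter_subset_right
  have hnn : ∀ x, 0 ≤ f x := by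
    intro x
    have := hle x
    simp only [hf]
    generalize (Γ.neighborFinset x ∩ X).card = i at this
    interval_cases i <;> decide
  have hadjsum : ∑ w ∈ W.filter (fun w => Γ.Adj u w), f w = 32 := by
    have h1 : ∀ x ∈ W.filter (fun w => Γ.Adj u w), f x = 2 := by
      intro x hx
      rw [mem_filter] at hx
      have h0 : (Γ.neighborFinset x ∩ X).card = 0 := by
        rw [card_eq_zero, eq_empty_iff_forall_notMem]
        intro y hy
        rw [mem_inter, hXmem, SimpleGraph.mem_neighborFinset] at hy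
        exact srg100_no_tri hG hx.2 hy.2.1 hy.1
      simp only [hf, h0]
      decide
    have h2 : W.filter (fun w => Γ.Adj u w) = Γ.neighborFinset u \ X := by
      ext x
      simp only [hW, hQ, mem_filter, mem_erase, mem_univ, true_and, mem_sdiff, hXmem,
        SimpleGraph.mem_neighborFinset]
      constructor
      · rintro ⟨⟨_, _, h3⟩, h4⟩
        exact ⟨h4, fun h => h3 h.2⟩
      · rintro ⟨h3, h4⟩
        refine ⟨⟨fun h => Γ.loopless.irrefl u (h ▸ h3), fun h => hu (h ▸ h3.symm), fun h => h4 ⟨h3, h⟩⟩, h3⟩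
    rw [sum_congr rfl h1, sum_const, h2, card_sdiff_of_subset inter_subset_left, srg_card_nbr hG,
      hX6]
    norm_num
  have hrest : ∑ w ∈ W.filter (fun w => ¬ Γ.Adj u w), f w = 0 := by
    have := sum_filter_add_sum_filter_not W (fun w => Γ.Adj u w) f
    linarith
  have hz := (sum_eq_zero_iff_of_nonneg (fun x _ => hnn x)).1 hrest w (by
    simp only [hW, hQ, mem_filter, mem_erase, mem_univ, true_and]
    exact ⟨⟨Ne.symm huw, hw0, hw⟩, hadj⟩)
  have := hle w
  simp only [hf] at hz
  generalize (Γ.neighborFinset w ∩ X).card = i at this hz ⊢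
  interval_cases i <;> first | (left; rfl) | (right; rfl) | (exfalso; revert hz; decide)

end srg

end Cfsg.Agent.Lib.Helper10
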