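import Cfsg.Agent.Lib.Helper10.SRG100
import Cfsg.Agent.S0428

/-! A strongly regular graph with parameters (100,22,0,6) is the point-block graph of an
S(3,6,22) living on the neighbours of any of its vertices. -/

set_option autoImplicit false

namespace Cfsg.Agent.Lib.Helper10

open Finset Cfsg

section srg
variable {V : Type*} [Fintype V] [DecidableEq V] (Γ : SimpleGraph V) [DecidableRel Γ.Adj] (v0 : V)

/-- the block of a vertex: its neighbours among the neighbours of `v0`. -/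
def blk (u : V) : Finset {w : V // Γ.Adj v0 w} := univ.filter (fun w => Γ.Adj u w.1)

/-- the blocks of the non-neighbours of `v0`. -/
def blkSys : Set (Finset {w : V // Γ.Adj v0 w}) :=
  {b | ∃ u, u ≠ v0 ∧ ¬ Γ.Adj v0 u ∧ b = blk Γ v0 u}

variable {Γ v0}

theorem mem_blk {u : V} {w : {w : V // Γ.Adj v0 w}} : w ∈ blk Γ v0 u ↔ Γ.Adj u w.1 := by
  simp [blk]

theorem card_blk_inter (u w : V) : (blk Γ v0 u ∩ blk Γ v0 w).card
    = (Γ.neighborFinset w ∩ (Γ.neighborFinset u ∩ Γ.neighborFinset v0)).card := by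
  rw [← card_map (Function.Embedding.subtype _)]
  congr 1
  ext x
  simp only [mem_map, mem_inter, mem_blk, Function.Embedding.coe_subtype,
    SimpleGraph.mem_neighborFinset]
  constructor
  · rintro ⟨y, ⟨h1, h2⟩, rfl⟩
    exact ⟨h2, h1, y.2⟩
  · rintro ⟨h2, h1, h3⟩
    exact ⟨⟨x, h3⟩, ⟨h1, h2⟩, rfl⟩

variable (hG : Γ.IsSRGWith 100 22 0 6)
include hG

theorem card_pts : Fintype.card {w : V // Γ.Adj v0 w} = 22 := by
  rw [← srg_card_nbr hG v0]
  apply Fintype.card_of_subtype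
  intro x
  simp

theorem card_blk {u : V} (hu0 : u ≠ v0) (hu : ¬ Γ.Adj v0 u) : (blk Γ v0 u).card = 6 := by
  have h := card_blk_inter (Γ := Γ) (v0 := v0) u u
  rw [inter_self, ← inter_assoc, inter_self] at h
  rw [h]
  exact srg_cn_nadj hG hu0 (fun h => hu h.symm)

theorem blk_inter_le {u w : V} (hu0 : u ≠ v0) (hu : ¬ Γ.Adj v0 u) (hw0 : w ≠ v0)
    (hw : ¬ Γ.Adj v0 w) (huw : u ≠ w) : (blk Γ v0 u ∩ blk Γ v0 w).card ≤ 2 := by
  by_cases hadj : Γ.Adj u w
  · have : blk Γ v0 u ∩ blk Γ v0 w = ∅ := by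
      rw [eq_empty_iff_forall_notMem]
      intro y hy
      rw [mem_inter, mem_blk, mem_blk] at hy
      exact srg100_no_tri hG hadj hy.1 hy.2
    rw [this]; simp
  · rw [card_blk_inter]
    rcases srg100_inter hG v0 hu0 hu hw0 hw huw hadj with h | h <;> omega

theorem blk_disjoint_iff {u w : V} (hu0 : u ≠ v0) (hu : ¬ Γ.Adj v0 u) (hw0 : w ≠ v0)
    (hw : ¬ Γ.Adj v0 w) (huw : u ≠ w) : Γ.Adj u w ↔ Disjoint (blk Γ v0 u) (blk Γ v0 w) := by
  constructor
  · intro hadj
    rw [disjoint_iff_inter_eq_empty, eq_empty_iff_forall_notMem]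
    intro y hy
    rw [mem_inter, mem_blk, mem_blk] at hy
    exact srg100_no_tri hG hadj hy.1 hy.2
  · intro hd
    by_contra hadj
    rw [disjoint_iff_inter_eq_empty] at hd
    have h := card_blk_inter (Γ := Γ) (v0 := v0) u w
    rw [hd, card_empty] at h
    rcases srg100_inter hG v0 hu0 hu hw0 hw huw hadj with h' | h' <;> omega

theorem blk_injective {u w : V} (hu0 : u ≠ v0) (hu : ¬ Γ.Adj v0 u) (hw0 : w ≠ v0)
    (hw : ¬ Γ.Adj v0 w) (h : blk Γ v0 u = blk Γ v0 w) : u = w := by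
  by_contra huw
  have h1 := blk_inter_le hG hu0 hu hw0 hw huw
  rw [h, inter_self, card_blk hG hw0 hw] at h1
  omega

theorem blkSys_steiner : IsSteinerSystem 3 6 (blkSys Γ v0) := by
  constructor
  · rintro _ ⟨u, hu0, hu, rfl⟩
    exact card_blk hG hu0 hu
  · set Q : Finset V := univ.filter (fun x => x ≠ v0 ∧ ¬ Γ.Adj v0 x) with hQ
    have hQc : Q.card = 77 := by
      have h1 : Q = (insert v0 (Γ.neighborFinset v0))ᶜ := by
        ext x
        simp [hQ]
      rw [h1, card_compl, hG.card, card_insert_of_notMem (by simp), srg_card_nbr hG]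
    have hQmem : ∀ x, x ∈ Q ↔ x ≠ v0 ∧ ¬ Γ.Adj v0 x := by intro x; simp [hQ]
    have hU : Q.biUnion (fun u => powersetCard 3 (blk Γ v0 u))
        = powersetCard 3 (univ : Finset {w : V // Γ.Adj v0 w}) := by
      apply eq_of_subset_of_card_le
      · intro T hT
        rw [mem_biUnion] at hT
        obtain ⟨u, _, hT⟩ := hT
        rw [mem_powersetCard] at hT ⊢
        exact ⟨subset_univ _, hT.2⟩
      · rw [card_biUnion, sum_congr rfl (g := fun _ => 20), sum_const, hQc, card_powersetCard,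
          card_univ, card_pts hG]
        · decide
        · intro u hu
          rw [hQmem] at hu
          rw [card_powersetCard, card_blk hG hu.1 hu.2]
          decide
        · intro u hu w hw huw
          rw [mem_coe, hQmem] at hu hw
          change Disjoint (powersetCard 3 (blk Γ v0 u)) (powersetCard 3 (blk Γ v0 w))
          rw [disjoint_left]
          intro T hT1 hT2
          rw [mem_powersetCard] at hT1 hT2
          have h1 := blk_inter_le hG hu.1 hu.2 hw.1 hw.2 huw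
          have h2 : T.card ≤ (blk Γ v0 u ∩ blk Γ v0 w).card :=
            card_le_card (subset_inter hT1.1 hT2.1)
          omega
    intro s hs
    have hs' : s ∈ Q.biUnion (fun u => powersetCard 3 (blk Γ v0 u)) := by
      rw [hU, mem_powersetCard]
      exact ⟨subset_univ _, hs⟩
    rw [mem_biUnion] at hs'
    obtain ⟨u, hu, hsu⟩ := hs'
    rw [hQmem] at hu
    rw [mem_powersetCard] at hsu
    refine ⟨blk Γ v0 u, ⟨⟨u, hu.1, hu.2, rfl⟩, hsu.1⟩, ?_⟩
    rintro _ ⟨⟨w, hw0, hw, rfl⟩, hsw⟩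
    by_contra hne
    have huw : u ≠ w := fun h => hne (h ▸ rfl)
    have h1 := blk_inter_le hG hu.1 hu.2 hw0 hw huw
    have h2 : s.card ≤ (blk Γ v0 u ∩ blk Γ v0 w).card := card_le_card (subset_inter hsu.1 hsw)
    omega

omit hG in
variable (Γ v0) in
/-- the identification of the vertices. -/
def vmap (v : V) : Option ({w : V // Γ.Adj v0 w} ⊕ blkSys Γ v0) :=
  if h0 : v = v0 then none
  else if h : Γ.Adj v0 v then some (Sum.inl ⟨v, h⟩)
  else some (Sum.inr ⟨blk Γ v0 v, v, h0, h, rfl⟩)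

omit hG in
theorem vmap_v0 : vmap Γ v0 v0 = none := by simp [vmap]

omit hG in
theorem vmap_pt {v : V} (h : Γ.Adj v0 v) : vmap Γ v0 v = some (Sum.inl ⟨v, h⟩) := by
  have h0 : v ≠ v0 := fun h' => Γ.loopless.irrefl v0 (h' ▸ h)
  simp [vmap, h0, h]

omit hG in
theorem vmap_blk {v : V} (h0 : v ≠ v0) (h : ¬ Γ.Adj v0 v) :
    vmap Γ v0 v = some (Sum.inr ⟨blk Γ v0 v, v, h0, h, rfl⟩) := by
  simp [vmap, h0, h]

theorem vmap_bijective : Function.Bijective (vmap Γ v0) := by
  constructor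
  · intro v w hvw
    by_cases hv0 : v = v0
    · subst hv0
      rw [vmap_v0] at hvw
      by_contra hne
      by_cases hw : Γ.Adj v w
      · rw [vmap_pt hw] at hvw; simp at hvw
      · rw [vmap_blk (Ne.symm hne) hw] at hvw; simp at hvw
    by_cases hw0 : w = v0
    · subst hw0
      rw [vmap_v0] at hvw
      by_cases hv : Γ.Adj w v
      · rw [vmap_pt hv] at hvw; simp at hvw
      · rw [vmap_blk hv0 hv] at hvw; simp at hvw
    by_cases hv : Γ.Adj v0 v <;> by_cases hw : Γ.Adj v0 w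
    · rw [vmap_pt hv, vmap_pt hw] at hvw
      simpa using hvw
    · rw [vmap_pt hv, vmap_blk hw0 hw] at hvw; simp at hvw
    · rw [vmap_blk hv0 hv, vmap_pt hw] at hvw; simp at hvw
    · rw [vmap_blk hv0 hv, vmap_blk hw0 hw] at hvw
      apply blk_injective hG hv0 hv hw0 hw
      have h1 := Sum.inr_injective (Option.some_injective _ hvw)
      exact congrArg Subtype.val h1
  · rintro (_ | ⟨w, hw⟩ | ⟨_, u, hu0, hu, rfl⟩)
    · exact ⟨v0, vmap_v0⟩
    · exact ⟨w, vmap_pt hw⟩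
    · exact ⟨u, vmap_blk hu0 hu⟩

theorem vmap_adj (v w : V) :
    (pointBlockGraph (blkSys Γ v0)).Adj (vmap Γ v0 v) (vmap Γ v0 w) ↔ Γ.Adj v w := by
  have hS := blkSys_steiner (v0 := v0) hG
  -- it suffices to treat the cases up to symmetry
  have key : ∀ v w : V, (v = v0 ∨ (Γ.Adj v0 v ∧ w ≠ v0) ∨
      (v ≠ v0 ∧ ¬ Γ.Adj v0 v ∧ w ≠ v0 ∧ ¬ Γ.Adj v0 w)) →
      ((pointBlockGraph (blkSys Γ v0)).Adj (vmap Γ v0 v) (vmap Γ v0 w) ↔ Γ.Adj v w) := by
    intro v w h
    rcases h with rfl | ⟨hv, hw0⟩ | ⟨hv0, hv, hw0, hw⟩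
    · rw [vmap_v0]
      by_cases hw0 : w = v
      · subst hw0
        rw [vmap_v0]
        simp
      by_cases hw : Γ.Adj v w
      · rw [vmap_pt hw]
        simp [hw, Cfsg.Agent.S0428.adj_none_inl]
      · rw [vmap_blk hw0 hw]
        simp [hw, Cfsg.Agent.S0428.adj_none_inr]
    · rw [vmap_pt hv]
      by_cases hw : Γ.Adj v0 w
      · rw [vmap_pt hw]
        simp [Cfsg.Agent.S0428.adj_inl_inl, srg100_no_tri hG hv hw]
      · rw [vmap_blk hw0 hw, Cfsg.Agent.S0428.adj_inl_inr]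
        change (⟨v, hv⟩ : {w : V // Γ.Adj v0 w}) ∈ blk Γ v0 w ↔ _
        rw [mem_blk]
        exact ⟨fun h => h.symm, fun h => h.symm⟩
    · rw [vmap_blk hv0 hv, vmap_blk hw0 hw, Cfsg.Agent.S0428.adj_inr_inr hS]
      change Disjoint (blk Γ v0 v) (blk Γ v0 w) ↔ _
      by_cases hvw : v = w
      · subst hvw
        simp only [disjoint_self, SimpleGraph.irrefl, iff_false]
        intro h
        have := card_blk hG hv0 hv
        rw [bot_eq_empty] at h
        rw [h] at this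
        simp at this
      · exact (blk_disjoint_iff hG hv0 hv hw0 hw hvw).symm
  by_cases hv0 : v = v0
  · exact key v w (Or.inl hv0)
  by_cases hw0 : w = v0
  · rw [SimpleGraph.adj_comm, Γ.adj_comm]
    exact key w v (Or.inl hw0)
  by_cases hv : Γ.Adj v0 v
  · exact key v w (Or.inr (Or.inl ⟨hv, hw0⟩))
  by_cases hw : Γ.Adj v0 w
  · rw [SimpleGraph.adj_comm, Γ.adj_comm]
    exact key w v (Or.inr (Or.inl ⟨hw, hv0⟩))
  · exact key v w (Or.inr (Or.inr ⟨hv0, hv, hw0, hw⟩))

theorem srg100_iso : ∃ φ : Γ ≃g pointBlockGraph (blkSys Γ v0), φ v0 = none :=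
  ⟨{ toEquiv := Equiv.ofBijective _ (vmap_bijective (v0 := v0) hG)
     map_rel_iff' := fun {v w} => vmap_adj hG v w }, vmap_v0⟩

end srg

end Cfsg.Agent.Lib.Helper10
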