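import Cfsg.Agent.Lib.Helper10.SharpStep

set_option autoImplicit false

namespace Cfsg.Agent.Lib.Helper10

open MulAction SubMulAction

section
variable {G : Type*} [Group G] {Ω : Type*} [MulAction G Ω]

theorem inv_ne_aux {x : G} (hxs : ∀ w : Ω, x • x • w = w) {u v : Ω} (h : u ≠ x • v) :
    x • u ≠ v := by
  intro h'
  apply h
  rw [← h', hxs]

theorem sharp6_not13 [Finite Ω] (h6 : IsMultiplyPretransitive G Ω 6)
    (hsharp : ∀ x : Fin 6 ↪ Ω, stabilizer G x = ⊥) (hcard : Nat.card Ω = 13) : False := by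
  classical
  have : Fintype Ω := Fintype.ofFinite Ω
  have hcard' : Fintype.card Ω = 13 := by rw [← Nat.card_eq_fintype_card]; exact hcard
  obtain ⟨e⟩ : Nonempty (Fin 6 ↪ Ω) :=
    Function.Embedding.nonempty_of_card_le (by rw [Fintype.card_fin, hcard']; norm_num)
  have hnd : [e 0, e 1, e 2, e 3, e 4, e 5].Nodup :=
    List.Nodup.map e.injective (l := [0, 1, 2, 3, 4, 5]) (by decide)
  have hnd2 : [e 0, e 1, e 2, e 3, e 5, e 4].Nodup :=
    List.Nodup.map e.injective (l := [0, 1, 2, 3, 5, 4]) (by decide)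
  have hnd4 : [e 0, e 1, e 2, e 3].Nodup :=
    List.Nodup.map e.injective (l := [0, 1, 2, 3]) (by decide)
  obtain ⟨x, hx⟩ := exists_smul_list h6 _ _ hnd hnd2 rfl rfl
  simp only [List.map_cons, List.map_nil, List.cons.injEq, and_true] at hx
  obtain ⟨hx0, hx1, hx2, hx3, hx4, hx5⟩ := hx
  have h45 : e 4 ≠ e 5 := fun h => absurd (e.injective h) (by decide)
  have hxx : x * x = 1 := by
    apply eq_one_of_fix_list hsharp _ hnd rfl
    intro a ha
    simp only [List.mem_cons, List.not_mem_nil, or_false] at ha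
    rcases ha with rfl | rfl | rfl | rfl | rfl | rfl <;> rw [mul_smul] <;>
      simp only [hx0, hx1, hx2, hx3, hx4, hx5]
  have hxs : ∀ w : Ω, x • x • w = w := fun w => by rw [← mul_smul, hxx, one_smul]
  have hxne : x ≠ 1 := by
    rintro rfl
    rw [one_smul] at hx4
    exact h45 hx4
  set F : Finset Ω := Finset.univ.filter (fun w => x • w = w) with hF
  have hmemF : ∀ w, w ∈ F ↔ x • w = w := fun w => by simp [hF]
  have hF_lt : F.card < 6 := card_fixed_lt hsharp x hxne F (fun a ha => (hmemF a).1 ha)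
  have hF_ge : 4 ≤ F.card := by
    have h4' : ([e 0, e 1, e 2, e 3].toFinset).card = 4 := List.toFinset_card_of_nodup hnd4
    rw [← h4']
    apply Finset.card_le_card
    intro w hw
    simp only [List.toFinset_cons, List.toFinset_nil, insert_empty_eq, Finset.mem_insert,
      Finset.mem_singleton] at hw
    rw [hmemF]
    rcases hw with rfl | rfl | rfl | rfl
    · exact hx0
    · exact hx1
    · exact hx2
    · exact hx3
  have hsupp : (MulAction.toPerm x : Equiv.Perm Ω).support = Fᶜ := by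
    ext w
    simp [hmemF]
  have hpar : 2 ∣ (Fᶜ).card := by
    rw [← hsupp]
    apply Equiv.Perm.two_dvd_card_support
    ext w
    simp [pow_two, hxs]
  have hFc : (Fᶜ).card = 13 - F.card := by rw [Finset.card_compl, hcard']
  have hF5 : F.card = 5 := by omega
  have hM8 : (Fᶜ).card = 8 := by omega
  have hmemM : ∀ w, w ∈ Fᶜ ↔ x • w ≠ w := fun w => by rw [Finset.mem_compl, hmemF]
  -- choose b1
  obtain ⟨b1, hb1⟩ : (Fᶜ \ {e 4, e 5}).Nonempty := by
    rw [← Finset.card_pos]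
    have h1 := Finset.le_card_sdiff ({e 4, e 5} : Finset Ω) Fᶜ
    have h2 : ({e 4, e 5} : Finset Ω).card ≤ 2 := Finset.card_le_two
    omega
  simp only [Finset.mem_sdiff, hmemM, Finset.mem_insert, Finset.mem_singleton, not_or] at hb1
  obtain ⟨hb1m, hb1a1, hb1a2⟩ := hb1
  obtain ⟨c1, hc1⟩ : (Fᶜ \ {e 4, e 5, b1, x • b1}).Nonempty := by
    rw [← Finset.card_pos]
    have h1 := Finset.le_card_sdiff ({e 4, e 5, b1, x • b1} : Finset Ω) Fᶜ
    have h2 : ({e 4, e 5, b1, x • b1} : Finset Ω).card ≤ 4 := Finset.card_le_four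
    omega
  simp only [Finset.mem_sdiff, hmemM, Finset.mem_insert, Finset.mem_singleton, not_or] at hc1
  obtain ⟨hc1m, hc1a1, hc1a2, hc1b1, hc1b2⟩ := hc1
  have hb2a1 : x • b1 ≠ e 4 := inv_ne_aux hxs (by rw [hx4]; exact hb1a2)
  have hb2a2 : x • b1 ≠ e 5 := inv_ne_aux hxs (by rw [hx5]; exact hb1a1)
  have hc2a1 : x • c1 ≠ e 4 := inv_ne_aux hxs (by rw [hx4]; exact hc1a2)
  have hc2a2 : x • c1 ≠ e 5 := inv_ne_aux hxs (by rw [hx5]; exact hc1a1)
  have hc2b1 : x • c1 ≠ b1 := inv_ne_aux hxs hc1b2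
  have hc2b2 : x • c1 ≠ x • b1 := fun h => hc1b1 (smul_left_cancel x h)
  have hb2m : x • (x • b1) ≠ x • b1 := by rw [hxs]; exact fun h => hb1m h.symm
  have hc2m : x • (x • c1) ≠ x • c1 := by rw [hxs]; exact fun h => hc1m h.symm
  have ha1m : x • e 4 ≠ e 4 := by rw [hx4]; exact h45.symm
  have ha2m : x • e 5 ≠ e 5 := by rw [hx5]; exact h45
  have hfm : ∀ {w m : Ω}, x • w = w → x • m ≠ m → w ≠ m := by
    rintro w m hw hm rfl
    exact hm hw
  have nd1 : [b1, x • b1, c1, x • c1, e 4, e 5].Nodup := by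
    simp only [List.nodup_cons, List.mem_cons, List.not_mem_nil, or_false, not_or,
      List.nodup_nil, and_true, not_false_iff]
    exact ⟨⟨fun h => hb1m h.symm, (Ne.symm hc1b1), hc2b1.symm, hb1a1, hb1a2⟩,
      ⟨(Ne.symm hc1b2), hc2b2.symm, hb2a1, hb2a2⟩, ⟨fun h => hc1m h.symm, hc1a1, hc1a2⟩,
      ⟨hc2a1, hc2a2⟩, h45⟩
  have nd2 : [b1, x • b1, c1, x • c1, e 0, e 4].Nodup := by
    simp only [List.nodup_cons, List.mem_cons, List.not_mem_nil, or_false, not_or,
      List.nodup_nil, and_true, not_false_iff]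
    exact ⟨⟨fun h => hb1m h.symm, (Ne.symm hc1b1), hc2b1.symm, (hfm hx0 hb1m).symm, hb1a1⟩,
      ⟨(Ne.symm hc1b2), hc2b2.symm, (hfm hx0 hb2m).symm, hb2a1⟩,
      ⟨fun h => hc1m h.symm, (hfm hx0 hc1m).symm, hc1a1⟩,
      ⟨(hfm hx0 hc2m).symm, hc2a1⟩, hfm hx0 ha1m⟩
  have nd3 : [b1, x • b1, c1, x • c1].Nodup := by
    simp only [List.nodup_cons, List.mem_cons, List.not_mem_nil, or_false, not_or,
      List.nodup_nil, and_true, not_false_iff]
    exact ⟨⟨fun h => hb1m h.symm, (Ne.symm hc1b1), hc2b1.symm⟩,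
      ⟨(Ne.symm hc1b2), hc2b2.symm⟩, fun h => hc1m h.symm⟩
  obtain ⟨h, hh⟩ := exists_smul_list h6 _ _ nd1 nd2 rfl rfl
  simp only [List.map_cons, List.map_nil, List.cons.injEq, and_true] at hh
  obtain ⟨hhb1, hhb2, hhc1, hhc2, hha1, hha2⟩ := hh
  set hFs : Finset Ω := F.image (fun w => h • w) with hhFs
  have hFs5 : hFs.card = 5 := by
    rw [hhFs, Finset.card_image_of_injective _ (MulAction.injective h), hF5]
  set Y : Finset Ω := ([b1, x • b1, c1, x • c1, e 0, e 4].toFinset)ᶜ with hY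
  have hY7 : Y.card = 7 := by
    rw [hY, Finset.card_compl, hcard', List.toFinset_card_of_nodup nd2]
    rfl
  have hmemY : ∀ w, w ∈ Y ↔ (w ≠ b1 ∧ w ≠ x • b1 ∧ w ≠ c1 ∧ w ≠ x • c1 ∧ w ≠ e 0 ∧ w ≠ e 4) := by
    intro w
    simp [hY]
  have hsub1 : hFs ⊆ Y := by
    intro w hw
    rw [hhFs, Finset.mem_image] at hw
    obtain ⟨v, hv, rfl⟩ := hw
    rw [hmemF] at hv
    rw [hmemY]
    refine ⟨?_, ?_, ?_, ?_, ?_, ?_⟩
    · intro h'; rw [← hhb1] at h'; exact hfm hv hb1m (smul_left_cancel h h')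
    · intro h'; rw [← hhb2] at h'; exact hfm hv hb2m (smul_left_cancel h h')
    · intro h'; rw [← hhc1] at h'; exact hfm hv hc1m (smul_left_cancel h h')
    · intro h'; rw [← hhc2] at h'; exact hfm hv hc2m (smul_left_cancel h h')
    · intro h'; rw [← hha1] at h'; exact hfm hv ha1m (smul_left_cancel h h')
    · intro h'; rw [← hha2] at h'; exact hfm hv ha2m (smul_left_cancel h h')
  have hsub2 : F.erase (e 0) ⊆ Y := by
    intro w hw
    rw [Finset.mem_erase, hmemF] at hw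
    rw [hmemY]
    exact ⟨hfm hw.2 hb1m, hfm hw.2 hb2m, hfm hw.2 hc1m, hfm hw.2 hc2m, hw.1, hfm hw.2 ha1m⟩
  have hF'4 : (F.erase (e 0)).card = 4 := by
    rw [Finset.card_erase_of_mem ((hmemF _).2 hx0), hF5]
  have hinter : 2 ≤ (hFs ∩ F.erase (e 0)).card := by
    have h1 := Finset.card_union_add_card_inter hFs (F.erase (e 0))
    have h2 : (hFs ∪ F.erase (e 0)).card ≤ Y.card :=
      Finset.card_le_card (Finset.union_subset hsub1 hsub2)
    omega
  have hdisj : Disjoint ([b1, x • b1, c1, x • c1].toFinset) (hFs ∩ F.erase (e 0)) := by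
    rw [Finset.disjoint_left]
    intro w hw hw'
    have hwY := (hmemY w).1 (hsub1 (Finset.mem_inter.1 hw').1)
    simp only [List.toFinset_cons, List.toFinset_nil, insert_empty_eq, Finset.mem_insert,
      Finset.mem_singleton] at hw
    rcases hw with h' | h' | h' | h'
    · exact hwY.1 h'
    · exact hwY.2.1 h'
    · exact hwY.2.2.1 h'
    · exact hwY.2.2.2.1 h'
  have hS6 : 6 ≤ ([b1, x • b1, c1, x • c1].toFinset ∪ (hFs ∩ F.erase (e 0))).card := by
    rw [Finset.card_union_of_disjoint hdisj, List.toFinset_card_of_nodup nd3]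
    have : [b1, x • b1, c1, x • c1].length = 4 := rfl
    omega
  have hone : x * (h * x * h⁻¹) = 1 := by
    by_contra hne
    have hlt := card_fixed_lt hsharp _ hne
      ([b1, x • b1, c1, x • c1].toFinset ∪ (hFs ∩ F.erase (e 0))) (by
      intro w hw
      rw [Finset.mem_union] at hw
      rcases hw with hw | hw
      · simp only [List.toFinset_cons, List.toFinset_nil, insert_empty_eq, Finset.mem_insert,
          Finset.mem_singleton] at hw
        rcases hw with rfl | rfl | rfl | rfl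
        · have e1 : h⁻¹ • w = w := by rw [inv_smul_eq_iff, hhb1]
          rw [mul_smul, mul_smul, mul_smul, e1, hhb2, hxs]
        · have e1 : h⁻¹ • (x • b1) = x • b1 := by rw [inv_smul_eq_iff, hhb2]
          rw [mul_smul, mul_smul, mul_smul, e1, hxs, hhb1]
        · have e1 : h⁻¹ • w = w := by rw [inv_smul_eq_iff, hhc1]
          rw [mul_smul, mul_smul, mul_smul, e1, hhc2, hxs]
        · have e1 : h⁻¹ • (x • c1) = x • c1 := by rw [inv_smul_eq_iff, hhc2]
          rw [mul_smul, mul_smul, mul_smul, e1, hxs, hhc1]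
      · rw [Finset.mem_inter, Finset.mem_erase, hmemF, hhFs, Finset.mem_image] at hw
        obtain ⟨⟨v, hv, hvw⟩, _, hxw⟩ := hw
        rw [hmemF] at hv
        have e1 : h⁻¹ • w = v := by rw [inv_smul_eq_iff, hvw]
        rw [mul_smul, mul_smul, mul_smul, e1, hv, hvw, hxw])
    omega
  have e2 : (x * (h * x * h⁻¹)) • e 0 = e 5 := by
    have e1 : h⁻¹ • e 0 = e 4 := by rw [inv_smul_eq_iff, hha1]
    rw [mul_smul, mul_smul, mul_smul, e1, hx4, hha2, hx4]
  rw [hone, one_smul] at e2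
  exact absurd (e.injective e2) (by decide)

/-- Degrees of sharply 6-transitive actions. -/
theorem sharp6_degree [Finite Ω] (h6 : IsMultiplyPretransitive G Ω 6)
    (hsharp : ∀ x : Fin 6 ↪ Ω, stabilizer G x = ⊥) (hne : Nonempty (Fin 6 ↪ Ω)) :
    Nat.card Ω = 6 ∨ Nat.card Ω = 7 ∨ Nat.card Ω = 8 := by
  obtain ⟨e⟩ := hne
  obtain ⟨h1, h2, h3⟩ := sharp_step h6 hsharp ⟨e⟩ (e 0)
  have h4 := sharp5_degree h1 h2 h3
  have h5 := nat_card_ofStabilizer_add_one_eq G (e 0)
  have h7 : Nat.card Ω ≠ 13 := fun h => sharp6_not13 h6 hsharp h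
  omega

end

/-- Degrees of sharply `k`-transitive actions, `k ≥ 6`. -/
theorem sharpk_degree : ∀ (k : ℕ), 6 ≤ k → ∀ (G : Type*) [Group G] (Ω : Type*) [MulAction G Ω]
    [Finite Ω], IsMultiplyPretransitive G Ω k → (∀ x : Fin k ↪ Ω, stabilizer G x = ⊥) →
    Nonempty (Fin k ↪ Ω) →
    Nat.card Ω = k ∨ Nat.card Ω = k + 1 ∨ Nat.card Ω = k + 2 := by
  intro k hk
  induction k, hk using Nat.le_induction with
  | base =>
    intro G _ Ω _ _ h6 hsharp hne
    exact sharp6_degree h6 hsharp hne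
  | succ k _ ih =>
    intro G _ Ω _ _ hk1 hsharp hne
    obtain ⟨e⟩ := hne
    obtain ⟨h1, h2, h3⟩ := sharp_step hk1 hsharp ⟨e⟩ (e 0)
    have h4 := ih (stabilizer G (e 0)) (ofStabilizer G (e 0)) h1 h2 h3
    have h5 := nat_card_ofStabilizer_add_one_eq G (e 0)
    omega

end Cfsg.Agent.Lib.Helper10
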