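import Cfsg.Agent.Lib.Helper10.SharpStep

set_option autoImplicit false

namespace Cfsg.Agent.Lib.Helper10

open MulAction SubMulAction

section
variable {G : Type*} [Group G] {Ω : Type*} [MulAction G Ω]

theorem sharp_card {k : ℕ} [Finite Ω] (hk : IsMultiplyPretransitive G Ω k)
    (hsharp : ∀ x : Fin k ↪ Ω, stabilizer G x = ⊥) (hne : Nonempty (Fin k ↪ Ω)) :
    Nat.card G = (Nat.card Ω).descFactorial k := by
  classical
  obtain ⟨x0⟩ := hne
  have : Fintype Ω := Fintype.ofFinite Ω
  have h1 : Nat.card G = Nat.card (Fin k ↪ Ω) := by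
    apply Nat.card_congr
    refine Equiv.ofBijective (fun g => g • x0) ⟨?_, ?_⟩
    · intro g h hgh
      have h2 : h⁻¹ * g ∈ stabilizer G x0 := by
        rw [mem_stabilizer_iff, mul_smul]
        change h⁻¹ • (g • x0) = x0
        have hgh' : g • x0 = h • x0 := hgh
        rw [hgh', inv_smul_smul]
      rw [hsharp, Subgroup.mem_bot] at h2
      exact (inv_mul_eq_one.1 h2).symm
    · intro y
      exact hk.exists_smul_eq x0 y
  rw [h1, Nat.card_eq_fintype_card, Fintype.card_embedding_eq, Fintype.card_fin,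
    Nat.card_eq_fintype_card]

theorem sharp_faithful {k : ℕ} (hsharp : ∀ x : Fin k ↪ Ω, stabilizer G x = ⊥)
    (hne : Nonempty (Fin k ↪ Ω)) (g : G) (hg : ∀ w : Ω, g • w = w) : g = 1 := by
  obtain ⟨x0⟩ := hne
  have h2 : g ∈ stabilizer G x0 := by
    rw [mem_stabilizer_iff]
    ext i
    rw [Function.Embedding.smul_apply, hg]
  rw [hsharp, Subgroup.mem_bot] at h2
  exact h2

theorem card_dvd_of_pretransitive (K : Type*) [Group K] (X : Type*) [MulAction K X]
    [IsPretransitive K X] [Nonempty X] : Nat.card X ∣ Nat.card K := by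
  obtain ⟨a⟩ := ‹Nonempty X›
  rw [← index_stabilizer_of_transitive K a]
  exact Subgroup.index_dvd_card _

end

end Cfsg.Agent.Lib.Helper10
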