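import Cfsg.Agent.Lib.Helper10.TGData
import Cfsg.Agent.Lib.Helper10.Aut12
import Cfsg.Agent.S0425

set_option autoImplicit false

/-! The permutation parts of the signed permutations preserving the ternary code of length 12 are
the automorphisms of the hexad system. -/

namespace Cfsg.Agent.Lib.Helper10

open Cfsg Cfsg.Agent.Lib.Helper34
open scoped Pointwise

theorem support_act (w : W12) (x : ArrayPt → ZMod 3) :
    ternarySupport (act w x) = w.right • ternarySupport x := by
  ext i
  rw [← Finset.inv_smul_mem_iff]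
  have h1 : i ∈ ternarySupport (act w x) ↔ act w x i ≠ 0 := by simp [ternarySupport]
  have h2 : w.right⁻¹ • i ∈ ternarySupport x ↔ x (w.right⁻¹ • i) ≠ 0 := by simp [ternarySupport]
  rw [h1, h2, act_apply, mul_ne_zero_iff]
  constructor
  · intro h; exact h.2
  · intro h; exact ⟨Units.ne_zero _, h⟩

theorem right_mem_aut {w : W12} (hw : w ∈ TG) : w.right ∈ setSystemAut hexSet := by
  apply mem_aut_of_forall
  rintro _ ⟨x, hx, rfl, h6⟩
  exact ⟨act w x, hw x hx, support_act w x, by rw [Finset.card_smul_finset]; exact h6⟩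

theorem tg_levels : ∀ k < 5, ∀ j < 12, k ≤ j →
    (∀ i < k, (tgEnts.getD (12 * k + j) ([], [], [])).1.getD i 0 = i) ∧
      (tgEnts.getD (12 * k + j) ([], [], [])).1.getD j 0 = k := by decide

theorem tg_getD_mem (n : ℕ) (hn : n < 60) : tgEnts.getD n ([], [], []) ∈ tgEnts := by
  have hl : tgEnts.length = 60 := by decide
  rw [List.getD_eq_getElem _ _ (by rw [hl]; exact hn)]
  exact List.getElem_mem _

theorem tg_step (k : ℕ) (hk : k < 5) (q : ArrayPt) (hq : k ≤ aidx q) :
    ∃ w ∈ TG, (∀ i < k, w.right (apt i) = apt i) ∧ w.right q = apt k := by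
  have hj := aidx_lt q
  have hmem := tg_getD_mem (12 * k + aidx q) (by omega)
  obtain ⟨h1, h2⟩ := tg_levels k hk (aidx q) hj hq
  set e := tgEnts.getD (12 * k + aidx q) ([], [], []) with he
  refine ⟨elE e (tgEnts_ok e hmem), elE_mem _ _, fun i hi => ?_, ?_⟩
  · rw [elE_right, fwd, aidx_apt i (by omega), h1 i hi]
  · rw [elE_right, fwd, h2]

theorem tg_to_base (x : Fin 5 ↪ ArrayPt) : ∃ w ∈ TG, ∀ i : Fin 5, w.right (x i) = apt i := by
  have key : ∀ k ≤ 5, ∃ w ∈ TG, ∀ i : Fin 5, i.val < k → w.right (x i) = apt i := by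
    intro k
    induction k with
    | zero => exact fun _ => ⟨1, one_mem _, fun i hi => absurd hi (Nat.not_lt_zero _)⟩
    | succ k ih =>
      intro hk
      obtain ⟨w, hw, h⟩ := ih (by omega)
      have hk5 : k < 5 := by omega
      set q := w.right (x ⟨k, hk5⟩) with hq
      have hqk : k ≤ aidx q := by
        by_contra hlt
        push Not at hlt
        have h1 := h ⟨aidx q, by omega⟩ hlt
        rw [apt_aidx] at h1
        have h2 := x.injective (w.right.injective (h1.trans hq))
        have h3 := congrArg Fin.val h2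
        simp only at h3
        omega
      obtain ⟨v, hv, hv1, hv2⟩ := tg_step k hk5 q hqk
      refine ⟨v * w, mul_mem hv hw, fun i hi => ?_⟩
      rw [SemidirectProduct.mul_right, Equiv.Perm.mul_apply]
      rcases Nat.lt_succ_iff_lt_or_eq.1 hi with h4 | h4
      · rw [h i h4, hv1 _ h4]
      · have : i = ⟨k, hk5⟩ := Fin.ext h4
        rw [this, ← hq, hv2]
  obtain ⟨w, hw, h⟩ := key 5 le_rfl
  exact ⟨w, hw, fun i => h i i.2⟩

theorem card_arrayPt : Fintype.card ArrayPt = 12 := by decide

/-- the base of five positions -/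
def baseE : Fin 5 ↪ ArrayPt := ⟨fun i => apt i, by decide⟩

theorem exists_right_eq {τ : Equiv.Perm ArrayPt} (hτ : τ ∈ setSystemAut hexSet) :
    ∃ w ∈ TG, w.right = τ := by
  obtain ⟨w, hw, h⟩ := tg_to_base (baseE.trans τ.symm.toEmbedding)
  refine ⟨w, hw, ?_⟩
  have hg : w.right * τ⁻¹ ∈ setSystemAut hexSet := mul_mem (right_mem_aut hw) (inv_mem hτ)
  have hst : (⟨w.right * τ⁻¹, hg⟩ : setSystemAut hexSet) ∈
      MulAction.stabilizer (setSystemAut hexSet) baseE := by
    rw [MulAction.mem_stabilizer_iff]
    ext i : 1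
    exact h i
  rw [aut12_sharp card_arrayPt hex_steiner, Subgroup.mem_bot] at hst
  have := congrArg Subtype.val hst
  exact mul_inv_eq_one.1 this

/-- negation of all coordinates -/
def negOne : W12 := ⟨fun _ => -1, 1⟩

theorem act_negOne (x : ArrayPt → ZMod 3) : act negOne x = -x := by
  funext i
  simp only [act_apply, negOne, Units.val_neg, Units.val_one, neg_mul, one_mul, Pi.neg_apply]
  rfl

theorem negOne_mem : negOne ∈ TG := fun x hx => by rw [act_negOne]; exact neg_mem hx

theorem negOne_ne_one : negOne ≠ 1 := by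
  intro h
  have := congrFun (congrArg SemidirectProduct.left h) (0, 0)
  revert this
  decide

theorem eq_of_right_eq_one {w : W12} (hw : w ∈ TG) (h : w.right = 1) : w = 1 ∨ w = negOne := by
  have h1 : ∀ x ∈ ternaryGolayCode, monomialMap 1 w.left x ∈ ternaryGolayCode := by
    intro x hx
    have := hw x hx
    rwa [act, h] at this
  rcases Cfsg.Agent.S1593.result w.left h1 with h2 | h2
  · left
    exact SemidirectProduct.ext (funext h2) h
  · right
    exact SemidirectProduct.ext (funext h2) h

theorem negOne_comm (w : W12) : negOne * w = w * negOne := by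
  apply SemidirectProduct.ext
  · funext i
    simp only [SemidirectProduct.mul_left, negOne, Pi.mul_apply, map_one, MulAut.one_apply,
      mulAutArrow_apply_apply]
    rw [mul_comm]
    rfl
  · simp [negOne]

/-- the permutation part, as a homomorphism to the automorphism group of the hexad system -/
def tgPi : ↥TG →* ↥(setSystemAut hexSet) :=
  (SemidirectProduct.rightHom.comp TG.subtype).codRestrict _ (fun w => right_mem_aut w.2)

theorem tgPi_val (w : ↥TG) : ((tgPi w : ↥(setSystemAut hexSet)) : Equiv.Perm ArrayPt) = w.1.right :=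
  rfl

theorem tgPi_surjective : Function.Surjective tgPi := by
  rintro ⟨τ, hτ⟩
  obtain ⟨w, hw, h⟩ := exists_right_eq hτ
  exact ⟨⟨w, hw⟩, Subtype.ext h⟩

theorem mem_ker_tgPi {w : ↥TG} : w ∈ tgPi.ker ↔ w = 1 ∨ w = ⟨negOne, negOne_mem⟩ := by
  rw [MonoidHom.mem_ker]
  constructor
  · intro h
    have h1 : w.1.right = 1 := congrArg Subtype.val h
    rcases eq_of_right_eq_one w.2 h1 with h2 | h2
    · exact Or.inl (Subtype.ext h2)
    · exact Or.inr (Subtype.ext h2)
  · rintro (rfl | rfl)
    · exact map_one _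
    · exact Subtype.ext rfl

theorem card_ker_tgPi : Nat.card tgPi.ker = 2 := by
  have : (tgPi.ker : Set ↥TG) = {1, ⟨negOne, negOne_mem⟩} := by
    ext w
    exact mem_ker_tgPi
  calc Nat.card tgPi.ker = (tgPi.ker : Set ↥TG).ncard := rfl
    _ = 2 := by
      rw [this, Set.ncard_pair]
      intro h
      exact negOne_ne_one (congrArg Subtype.val h).symm

theorem card_aut_hexSet : Nat.card ↥(setSystemAut hexSet) = 95040 :=
  (Cfsg.Agent.S0425.result card_arrayPt hex_steiner).1.2

theorem card_TG : Nat.card ↥TG = 190080 := by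
  have h1 := tgPi.ker.card_mul_index
  rw [Subgroup.index_ker, MonoidHom.range_eq_top.2 tgPi_surjective, card_ker_tgPi] at h1
  have h2 : Nat.card ↥(⊤ : Subgroup ↥(setSystemAut hexSet)) = 95040 := by
    rw [Subgroup.card_top, card_aut_hexSet]
  omega

end Cfsg.Agent.Lib.Helper10
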