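import Cfsg.Agent.Lib.Helper34.TernaryHexads
import Cfsg.Agent.S1593

set_option autoImplicit false

/-! The group of signed permutations preserving the ternary code of length 12. -/

namespace Cfsg.Agent.Lib.Helper10

open Cfsg Cfsg.Agent.Lib.Helper34

/-- the group of all signed permutations of the twelve positions -/
abbrev W12 : Type :=
  (ArrayPt → (ZMod 3)ˣ) ⋊[(mulAutArrow : Equiv.Perm ArrayPt →* MulAut (ArrayPt → (ZMod 3)ˣ))]
    Equiv.Perm ArrayPt

instance : Finite W12 := Finite.of_equiv _ SemidirectProduct.equivProd.symm

/-- the action on words -/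
def act (w : W12) (x : ArrayPt → ZMod 3) : ArrayPt → ZMod 3 := monomialMap w.right w.left x

theorem act_apply (w : W12) (x : ArrayPt → ZMod 3) (i : ArrayPt) :
    act w x i = (w.left i : ZMod 3) * x (w.right.symm i) := rfl

theorem act_one (x : ArrayPt → ZMod 3) : act 1 x = x := by
  funext i
  simp only [act_apply, SemidirectProduct.one_left, SemidirectProduct.one_right, Pi.one_apply,
    Units.val_one, one_mul]
  rfl

theorem act_mul (v w : W12) (x : ArrayPt → ZMod 3) : act (v * w) x = act v (act w x) := by
  funext i
  simp only [act_apply, SemidirectProduct.mul_left, SemidirectProduct.mul_right, Pi.mul_apply,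
    Units.val_mul, mulAutArrow_apply_apply]
  rw [mul_assoc]
  rfl

/-- the signed permutations preserving the code -/
def TG : Subgroup W12 where
  carrier := {w | ∀ x ∈ ternaryGolayCode, act w x ∈ ternaryGolayCode}
  one_mem' := fun x hx => by rw [act_one]; exact hx
  mul_mem' := fun {v w} hv hw x hx => by rw [act_mul]; exact hv _ (hw x hx)
  inv_mem' := by
    intro w hw
    have hpow : ∀ n : ℕ, ∀ x ∈ ternaryGolayCode, act (w ^ n) x ∈ ternaryGolayCode := by
      intro n
      induction n with
      | zero => intro x hx; rw [pow_zero, act_one]; exact hx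
      | succ n ih => intro x hx; rw [pow_succ, act_mul]; exact ih _ (hw x hx)
    have h1 : w⁻¹ = w ^ (orderOf w - 1) := by
      apply inv_eq_of_mul_eq_one_right
      rw [← pow_succ', Nat.sub_add_cancel (orderOf_pos w), pow_orderOf_eq_one]
    rw [h1]
    exact hpow _

theorem mem_TG {w : W12} : w ∈ TG ↔ ∀ x ∈ ternaryGolayCode, act w x ∈ ternaryGolayCode := Iff.rfl

end Cfsg.Agent.Lib.Helper10
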